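import Mathlib
import Cfsg.Prelude.Def_GeometricClasses
import Cfsg.Agent.Lib.Helper6.SLMax

set_option autoImplicit false
set_option linter.unusedSectionVars false

namespace Cfsg.Agent.Lib.Helper6

open Matrix Cfsg

variable {F : Type*} [Field F] {ι : Type} [Fintype ι] [DecidableEq ι]

/-- the vectors of the `F₀`-structure spanned by the columns of `P`. -/
def Rat (F₀ : Subfield F) (P : Matrix.GeneralLinearGroup ι F) (v : ι → F) : Prop :=
  ∀ i, (((P⁻¹ : Matrix.GeneralLinearGroup ι F) : Matrix ι ι F) *ᵥ v) i ∈ F₀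

theorem rat_mulVec (F₀ : Subfield F) (P : Matrix.GeneralLinearGroup ι F) (u : ι → F)
    (hu : ∀ i, u i ∈ F₀) : Rat F₀ P ((P : Matrix ι ι F) *ᵥ u) := by
  intro i
  rw [gl_inv_mulVec]
  exact hu i

theorem mem_subfieldSubgroup_of (F₀ : Subfield F) (P g : Matrix.GeneralLinearGroup ι F) (l : F)
    (hl : l ≠ 0) (h : ∀ v, Rat F₀ P v → Rat F₀ P (l⁻¹ • ((g : Matrix ι ι F) *ᵥ v))) :
    g ∈ Cfsg.Geo.subfieldSubgroup F₀ P := by
  set A : Matrix ι ι F := l⁻¹ • (((P⁻¹ * g * P : Matrix.GeneralLinearGroup ι F)) : Matrix ι ι F)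
    with hA
  have hent : ∀ i j, A i j ∈ F₀ := by
    intro i j
    have h1 := h ((P : Matrix ι ι F) *ᵥ Pi.single j 1) (rat_mulVec F₀ P _ (by
      intro k
      by_cases hk : k = j
      · subst hk; simp
      · simp [Pi.single_apply, hk])) i
    have h2 : A i j = (A *ᵥ Pi.single j 1) i := by
      rw [Matrix.mulVec_single_one]; rfl
    rw [h2, hA, Matrix.smul_mulVec, Units.val_mul, Units.val_mul, ← Matrix.mulVec_mulVec,
      ← Matrix.mulVec_mulVec, ← Matrix.mulVec_smul]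
    exact h1
  let A₀ : Matrix ι ι F₀ := fun i j => ⟨A i j, hent i j⟩
  have hmap : A₀.map F₀.subtype = A := by
    ext i j
    rfl
  have hdetA : A.det ≠ 0 := by
    rw [hA, Matrix.det_smul]
    apply mul_ne_zero (pow_ne_zero _ (inv_ne_zero hl))
    exact (Matrix.GeneralLinearGroup.det (P⁻¹ * g * P)).ne_zero
  have hdet₀ : A₀.det ≠ 0 := by
    intro h0
    apply hdetA
    rw [← hmap]
    have := RingHom.map_det F₀.subtype A₀
    rw [RingHom.mapMatrix_apply] at this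
    rw [← this, h0, map_zero]
  let a₀ : Matrix.GeneralLinearGroup ι F₀ := Matrix.GeneralLinearGroup.mkOfDetNeZero A₀ hdet₀
  let s : Matrix.GeneralLinearGroup ι F :=
    Units.map (Matrix.scalar ι : F →+* Matrix ι ι F).toMonoidHom (Units.mk0 l hl)
  have hs : s ∈ Cfsg.Geo.scalars ι F := ⟨_, rfl⟩
  have hsv : (s : Matrix ι ι F) = l • (1 : Matrix ι ι F) := by
    simp [s, Matrix.smul_one_eq_diagonal]
  have hav : ((Matrix.GeneralLinearGroup.map (F₀.subtype : F₀ →+* F) a₀ :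
      Matrix.GeneralLinearGroup ι F) : Matrix ι ι F) = A := hmap
  refine ⟨Matrix.GeneralLinearGroup.map (F₀.subtype : F₀ →+* F) a₀ * s,
    Subgroup.mul_mem _ (Subgroup.mem_sup_left ⟨a₀, rfl⟩) (Subgroup.mem_sup_right hs), ?_⟩
  show P * (Matrix.GeneralLinearGroup.map (F₀.subtype : F₀ →+* F) a₀ * s) * P⁻¹ = g
  have e : Matrix.GeneralLinearGroup.map (F₀.subtype : F₀ →+* F) a₀ * s = P⁻¹ * g * P := by
    apply Units.ext
    rw [Units.val_mul, hav, hsv, hA, Matrix.mul_smul, Matrix.mul_one, smul_smul,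
      mul_inv_cancel₀ hl, one_smul]
  rw [e]
  group

theorem exists_of_mem_subfieldSubgroup (F₀ : Subfield F) (P g : Matrix.GeneralLinearGroup ι F)
    (hg : g ∈ Cfsg.Geo.subfieldSubgroup F₀ P) :
    ∃ l : F, l ≠ 0 ∧ ∀ v, Rat F₀ P v → Rat F₀ P (l⁻¹ • ((g : Matrix ι ι F) *ᵥ v)) := by
  obtain ⟨x, hx, rfl⟩ := hg
  obtain ⟨a, ⟨a₀, rfl⟩, s, hs, rfl⟩ := Subgroup.mem_sup_of_normal_right.mp hx
  obtain ⟨c, hc⟩ := (Cfsg.Geo.mem_scalars_iff s).mp hs
  refine ⟨c, c.ne_zero, fun v hv i => ?_⟩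
  show (((P⁻¹ : Matrix.GeneralLinearGroup ι F) : Matrix ι ι F) *ᵥ ((c : F)⁻¹ •
    (((P * (Matrix.GeneralLinearGroup.map (F₀.subtype : F₀ →+* F) a₀ * s) * P⁻¹ :
      Matrix.GeneralLinearGroup ι F) : Matrix ι ι F) *ᵥ v))) i ∈ F₀
  rw [Units.val_mul, Units.val_mul, Units.val_mul, hc, ← Matrix.mulVec_mulVec,
    ← Matrix.mulVec_mulVec, Matrix.mulVec_smul, gl_inv_mulVec, Matrix.mul_smul, Matrix.mul_one,
    Matrix.smul_mulVec, smul_smul, inv_mul_cancel₀ c.ne_zero, one_smul]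
  simp only [Matrix.mulVec, dotProduct]
  apply Subfield.sum_mem
  intro j _
  exact F₀.mul_mem (a₀.1 i j).2 (hv j)

/-! ### the semilinear involution -/

/-- the semilinear map fixing the columns of `P`. -/
def sJ (σ : F ≃+* F) (P : Matrix.GeneralLinearGroup ι F) (v : ι → F) : ι → F :=
  (P : Matrix ι ι F) *ᵥ (fun i => σ ((((P⁻¹ : Matrix.GeneralLinearGroup ι F) : Matrix ι ι F) *ᵥ v) i))

variable (σ : F ≃+* F) (P : Matrix.GeneralLinearGroup ι F)

theorem sJ_add (u v : ι → F) : sJ σ P (u + v) = sJ σ P u + sJ σ P v := by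
  unfold sJ
  rw [← Matrix.mulVec_add]
  congr 1
  ext i
  simp [Matrix.mulVec_add]

theorem sJ_smul (c : F) (v : ι → F) : sJ σ P (c • v) = σ c • sJ σ P v := by
  unfold sJ
  rw [← Matrix.mulVec_smul]
  congr 1
  ext i
  simp [Matrix.mulVec_smul]

theorem sJ_zero : sJ σ P 0 = 0 := by
  have := sJ_smul σ P 0 0
  simpa using this

theorem sJ_neg (v : ι → F) : sJ σ P (-v) = - sJ σ P v := by
  have := sJ_smul σ P (-1) v
  simpa using this

theorem sJ_sub (u v : ι → F) : sJ σ P (u - v) = sJ σ P u - sJ σ P v := by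
  rw [sub_eq_add_neg, sJ_add, sJ_neg, sub_eq_add_neg]

theorem sJ_sJ (hσ : ∀ a, σ (σ a) = a) (v : ι → F) : sJ σ P (sJ σ P v) = v := by
  unfold sJ
  rw [gl_inv_mulVec]
  simp only [hσ]
  exact gl_mulVec_inv P v

theorem sJ_eq_iff (v : ι → F) : sJ σ P v = v ↔
    ∀ i, σ ((((P⁻¹ : Matrix.GeneralLinearGroup ι F) : Matrix ι ι F) *ᵥ v) i) =
      (((P⁻¹ : Matrix.GeneralLinearGroup ι F) : Matrix ι ι F) *ᵥ v) i := by
  unfold sJ
  constructor
  · intro h i
    have := congrArg (fun z => (((P⁻¹ : Matrix.GeneralLinearGroup ι F) : Matrix ι ι F) *ᵥ z) i) h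
    simpa only [gl_inv_mulVec] using this
  · intro h
    have : (fun i => σ ((((P⁻¹ : Matrix.GeneralLinearGroup ι F) : Matrix ι ι F) *ᵥ v) i)) =
        ((P⁻¹ : Matrix.GeneralLinearGroup ι F) : Matrix ι ι F) *ᵥ v := funext h
    rw [this, gl_mulVec_inv]

/-- decomposition into rational parts. -/
theorem sJ_parts (hσ : ∀ a, σ (σ a) = a) (ω : F) (hω : σ ω ≠ ω) (x : ι → F) :
    ∃ a b, sJ σ P a = a ∧ sJ σ P b = b ∧ x = a + ω • b := by
  have hne : ω - σ ω ≠ 0 := fun h => hω (sub_eq_zero.mp h).symm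
  have hne' : σ ω - ω ≠ 0 := fun h => hω (sub_eq_zero.mp h)
  have hb : sJ σ P ((ω - σ ω)⁻¹ • (x - sJ σ P x)) = (ω - σ ω)⁻¹ • (x - sJ σ P x) := by
    rw [sJ_smul, sJ_sub, sJ_sJ σ P hσ, map_inv₀, map_sub, hσ]
    have : (σ ω - ω)⁻¹ = -(ω - σ ω)⁻¹ := by
      rw [← neg_sub, inv_neg]
    rw [this]
    module
  have e : x - sJ σ P x = (ω - σ ω) • ((ω - σ ω)⁻¹ • (x - sJ σ P x)) := by
    rw [smul_smul, mul_inv_cancel₀ hne, one_smul]
  obtain ⟨b, hbdef⟩ : ∃ b, b = (ω - σ ω)⁻¹ • (x - sJ σ P x) := ⟨_, rfl⟩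
  rw [← hbdef] at hb e
  refine ⟨x - ω • b, b, ?_, hb, by abel⟩
  rw [sJ_sub, sJ_smul, hb]
  have e2 : sJ σ P x = x - (ω - σ ω) • b := by
    rw [← e]; abel
  rw [e2]
  module

theorem sJ_unique (ω : F) (hω : σ ω ≠ ω) {a b : ι → F} (ha : sJ σ P a = a) (hb : sJ σ P b = b)
    (h : a + ω • b = 0) : a = 0 ∧ b = 0 := by
  have h1 := congrArg (sJ σ P) h
  rw [sJ_add, sJ_smul, ha, hb, sJ_zero] at h1
  have h2 : (ω - σ ω) • b = 0 := by
    have : (ω - σ ω) • b = (a + ω • b) - (a + σ ω • b) := by module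
    rw [this, h, h1, sub_zero]
  have hne : ω - σ ω ≠ 0 := fun h => hω (sub_eq_zero.mp h).symm
  have hb0 : b = 0 := (smul_eq_zero.mp h2).resolve_left hne
  refine ⟨?_, hb0⟩
  rw [hb0, smul_zero, add_zero] at h
  exact h

/-! ### the subfield of index two -/

theorem mem_subfield_iff_frob [Fintype F] {q : ℕ} (hF : Fintype.card F = q ^ 2) (F₀ : Subfield F)
    (hcard : Fintype.card F = Nat.card F₀ ^ 2) (a : F) : a ∈ F₀ ↔ a ^ q = a := by
  classical
  have hq : Nat.card F₀ = q := by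
    rw [hF] at hcard
    exact (Nat.pow_left_injective (n := 2) (by norm_num) hcard).symm
  have hq2 : 2 ≤ q := by
    have h1 := Fintype.one_lt_card (α := F)
    rw [hF] at h1
    by_contra hlt
    have : q = 0 ∨ q = 1 := by omega
    rcases this with rfl | rfl <;> simp at h1
  have hfwd : ∀ b : F, b ∈ F₀ → b ^ q = b := by
    intro b hb
    have h1 := FiniteField.pow_card (⟨b, hb⟩ : F₀)
    rw [← Nat.card_eq_fintype_card, hq] at h1
    exact congrArg Subtype.val h1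
  refine ⟨hfwd a, fun ha => ?_⟩
  let S : Finset F := Finset.univ.filter (fun b => b ^ q = b)
  let T : Finset F := Finset.univ.filter (fun b => b ∈ F₀)
  have hTS : T ⊆ S := by
    intro b hb
    simp only [T, S, Finset.mem_filter, Finset.mem_univ, true_and] at hb ⊢
    exact hfwd b hb
  have hne := FiniteField.X_pow_card_sub_X_ne_zero F (p := q) (by omega)
  have hdeg := FiniteField.X_pow_card_sub_X_natDegree_eq F (p := q) (by omega)
  have hS : S.card ≤ q := by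
    rw [← hdeg]
    apply Polynomial.card_le_degree_of_subset_roots
    intro b hb
    have hb' : b ^ q = b := by
      have : b ∈ S := hb
      simpa [S] using this
    rw [Polynomial.mem_roots hne]
    simp [hb']
  have hT : T.card = q := by
    rw [← hq, Nat.card_eq_fintype_card, Fintype.card_subtype]
  have hEq : T = S := Finset.eq_of_subset_of_card_le hTS (by rw [hT]; exact hS)
  have : a ∈ S := by simp [S, ha]
  rw [← hEq] at this
  simpa [T] using this

end Cfsg.Agent.Lib.Helper6
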