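import Mathlib
import Cfsg.Prelude.Def_GeometricClasses
import Cfsg.Agent.Lib.Helper6.USet

set_option autoImplicit false
set_option linter.unusedSectionVars false

namespace Cfsg.Agent.Lib.Helper6

open Matrix Cfsg

variable {F : Type*} [Field F] {ι : Type} [Fintype ι] [DecidableEq ι]
  {σ : F ≃+* F} {f : (ι → F) → (ι → F) → F}

variable (hf : Cfsg.Geo.IsUnitaryForm σ f)

theorem uQ_conj (g : Matrix.GeneralLinearGroup ι F) (hg : g ∈ uIso f) (a z : ι → F) (μ : F)
    (ha : f a a = 0) (hz : f z a = 0)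
    (ha' : f ((g : Matrix ι ι F) *ᵥ a) ((g : Matrix ι ι F) *ᵥ a) = 0)
    (hz' : f ((g : Matrix ι ι F) *ᵥ z) ((g : Matrix ι ι F) *ᵥ a) = 0) :
    g * uQ hf a z μ ha hz * g⁻¹ =
      uQ hf ((g : Matrix ι ι F) *ᵥ a) ((g : Matrix ι ι F) *ᵥ z) μ ha' hz' := by
  apply gl_ext_mulVec
  intro x
  have e : ∀ y, f x ((g : Matrix ι ι F) *ᵥ y) =
      f (((g⁻¹ : Matrix.GeneralLinearGroup ι F) : Matrix ι ι F) *ᵥ x) y := by
    intro y
    have h1 := (mem_uIso_iff g).mp hg
      (((g⁻¹ : Matrix.GeneralLinearGroup ι F) : Matrix ι ι F) *ᵥ x) y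
    rw [gl_mulVec_inv] at h1
    exact h1
  rw [Units.val_mul, Units.val_mul, ← Matrix.mulVec_mulVec, ← Matrix.mulVec_mulVec, uQ_mulVec,
    uQ_mulVec, e, e]
  simp only [Matrix.mulVec_add, Matrix.mulVec_sub, Matrix.mulVec_smul, gl_mulVec_inv]

/-- The commutator of two elements of the unipotent radical is a transvection. -/
theorem uQ_comm_tv (M : Subgroup (Matrix.GeneralLinearGroup ι F)) (a z v : ι → F) (μ ν : F)
    (ha : f a a = 0) (hz : f z a = 0) (hv : f v a = 0) (h1 : uQ hf a z μ ha hz ∈ M)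
    (h2 : uQ hf a v ν ha hv ∈ M) :
    glT a ((f z v - f v z) • uPhi f a) (uS_aux hf a ha _) ∈ M := by
  have e : uQ hf a v ν ha hv * uQ hf a z μ ha hz *
      glT a ((f z v - f v z) • uPhi f a) (uS_aux hf a ha _) =
      uQ hf a z μ ha hz * uQ hf a v ν ha hv := by
    apply gl_ext_mulVec
    intro x
    have haz : f a z = 0 := uf_eq_zero_symm hf hz
    have hav : f a v = 0 := uf_eq_zero_symm hf hv
    simp only [Units.val_mul, ← Matrix.mulVec_mulVec, uQ_mulVec, uS_mulVec hf a ha]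
    simp only [hf.add_left, uf_sub_left hf, hf.smul_left, ha, hz, hv, haz, hav, mul_zero,
      add_zero, sub_zero]
    module
  have e2 : glT a ((f z v - f v z) • uPhi f a) (uS_aux hf a ha _) =
      (uQ hf a v ν ha hv * uQ hf a z μ ha hz)⁻¹ * (uQ hf a z μ ha hz * uQ hf a v ν ha hv) := by
    rw [← e]; group
  rw [e2]
  exact M.mul_mem (M.inv_mem (M.mul_mem h2 h1)) (M.mul_mem h1 h2)

end Cfsg.Agent.Lib.Helper6
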