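import Mathlib

set_option autoImplicit false

namespace Cfsg.Agent.Lib.Helper6

/-- Burnside's normal complement theorem for a self-normalizing abelian `p`-subgroup. -/
theorem burnside_complement {G : Type*} [Group G] [Finite G] (p : ℕ) [Fact p.Prime]
    (B : Subgroup G) (hB : IsPGroup p B) (hcomm : ∀ a ∈ B, ∀ b ∈ B, a * b = b * a)
    (hN : Subgroup.normalizer (B : Set G) ≤ B) :
    ∃ K : Subgroup G, K.Normal ∧ ¬ p ∣ Nat.card K ∧ ∀ g : G, ∃ k ∈ K, ∃ b ∈ B, g = k * b := by
  obtain ⟨n, hn⟩ := hB.exists_card_eq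
  have h1 := Sylow.card_quotient_normalizer_modEq_card_quotient hn
  have h2 : Nat.card (Subgroup.normalizer (B : Set G) ⧸
      B.comap (Subgroup.normalizer (B : Set G)).subtype) = 1 := by
    have : B.comap (Subgroup.normalizer (B : Set G)).subtype = ⊤ := by
      rw [eq_top_iff]
      intro x _
      exact hN x.2
    rw [this]
    exact Nat.card_eq_one_iff_unique.mpr ⟨QuotientGroup.subsingleton_quotient_top, ⟨1⟩⟩
  rw [h2] at h1
  have hidx : ¬ p ∣ B.index := by
    intro hdvd
    have h3 : Nat.card (G ⧸ B) ≡ 0 [MOD p] := (Nat.modEq_zero_iff_dvd).mpr hdvd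
    have h4 := h1.trans h3
    have h5 : p ∣ 1 := (Nat.modEq_zero_iff_dvd).mp h4
    exact (Fact.out : p.Prime).one_lt.ne' (Nat.dvd_one.mp h5)
  let S : Sylow p G := hB.toSylow hidx
  have hS : Subgroup.normalizer ((S : Subgroup G) : Set G) ≤
      Subgroup.centralizer ((S : Subgroup G) : Set G) := by
    intro g hg
    have hgB : g ∈ B := hN hg
    rw [Subgroup.mem_centralizer_iff]
    intro b hb
    exact hcomm b hb g hgB
  refine ⟨(MonoidHom.transferSylow S hS).ker, inferInstance,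
    MonoidHom.not_dvd_card_ker_transferSylow S hS, fun g => ?_⟩
  have hc := MonoidHom.ker_transferSylow_isComplement' S hS
  obtain ⟨⟨⟨k, hk⟩, ⟨b, hb⟩⟩, e⟩ := hc.2 g
  exact ⟨k, hk, b, hb, e.symm⟩

end Cfsg.Agent.Lib.Helper6
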