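import Cfsg.Agent.Lib.Helper6.ULag

set_option autoImplicit false
set_option linter.unusedSectionVars false
open Cfsg

namespace Cfsg.Agent.Lib.Helper6

open Matrix

variable {F : Type*} [Field F] {n t m : ℕ}

/-- coordinates adapted to a decomposition. -/
structure Coord (D : Fin t → Submodule F (Fin n → F)) (B φ : Fin t → Fin m → Fin n → F) : Prop where
  dual : ∀ i j i' j', φ i j ⬝ᵥ B i' j' = if i = i' ∧ j = j' then 1 else 0
  expand : ∀ x, x = ∑ i, ∑ j, (φ i j ⬝ᵥ x) • B i j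
  mem : ∀ i j, B i j ∈ D i
  vanish : ∀ i x, x ∈ D i → ∀ i' j, i' ≠ i → φ i' j ⬝ᵥ x = 0

theorem exists_coord {D : Fin t → Submodule F (Fin n → F)} (hD : Cfsg.Geo.IsMDecomposition m D) :
    ∃ B φ : Fin t → Fin m → Fin n → F, Coord D B φ ∧ n = t * m := by
  classical
  have hint : DirectSum.IsInternal D :=
    DirectSum.isInternal_submodule_of_iSupIndep_of_iSup_eq_top hD.indep hD.iSup_eq_top
  let v : ∀ i, Module.Basis (Fin m) F (D i) :=
    fun i => Module.finBasisOfFinrankEq F (D i) (hD.finrank_eq i)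
  obtain ⟨b, hb⟩ : ∃ b, b = hint.collectedBasis v := ⟨_, rfl⟩
  have hdot : ∀ (a : Σ _ : Fin t, Fin m) (x : Fin n → F),
      (fun k => b.coord a (Pi.single k 1)) ⬝ᵥ x = b.repr x a := by
    intro a x
    rw [row_of_linear' (b.coord a) x]
    rfl
  refine ⟨fun i j => b ⟨i, j⟩, fun i j => fun k => b.coord ⟨i, j⟩ (Pi.single k 1), ⟨?_, ?_, ?_, ?_⟩,
    ?_⟩
  · intro i j i' j'
    rw [hdot, Module.Basis.repr_self, Finsupp.single_apply]
    by_cases h : i = i' ∧ j = j'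
    · obtain ⟨rfl, rfl⟩ := h
      simp
    · rw [if_neg h, if_neg]
      intro h'
      apply h
      have h1 := congrArg Sigma.fst h'
      simp only at h1
      subst h1
      exact ⟨rfl, (eq_of_heq (Sigma.mk.inj h').2).symm⟩
  · intro x
    simp only [hdot]
    conv_lhs => rw [← b.sum_repr x]
    rw [Fintype.sum_sigma]
  · intro i j
    rw [hb]
    exact hint.collectedBasis_mem v ⟨i, j⟩
  · intro i x hx i' j hne
    rw [hdot, hb]
    exact hint.collectedBasis_repr_of_mem_ne v (Ne.symm hne) hx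
  · have h1 := Module.finrank_eq_card_basis b
    simpa using h1

open Classical in
/-- indicator of a non-zero component. -/
noncomputable def chi (φ : Fin t → Fin m → Fin n → F) (i : Fin t) (x : Fin n → F) : F :=
  if ∃ j, φ i j ⬝ᵥ x ≠ 0 then 1 else 0

/-- the number of non-zero components, in `F`. -/
noncomputable def wt (φ : Fin t → Fin m → Fin n → F) (x : Fin n → F) : F := ∑ i, chi φ i x

section

variable {D : Fin t → Submodule F (Fin n → F)} {B φ : Fin t → Fin m → Fin n → F}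

theorem chi_other (C : Coord D B φ) {k : Fin t} {a : Fin n → F} (ha : a ∈ D k) (i : Fin t)
    (hik : i ≠ k) (x : Fin n → F) : chi φ i (x + a) = chi φ i x := by
  have : ∀ j, φ i j ⬝ᵥ (x + a) = φ i j ⬝ᵥ x := fun j => by
    rw [dotProduct_add, C.vanish k a ha i j hik, add_zero]
  have h2 : (∃ j, φ i j ⬝ᵥ (x + a) ≠ 0) ↔ (∃ j, φ i j ⬝ᵥ x ≠ 0) := by
    constructor
    · rintro ⟨j, hj⟩; exact ⟨j, by rwa [this] at hj⟩
    · rintro ⟨j, hj⟩; exact ⟨j, by rwa [this]⟩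
  unfold chi
  by_cases h : ∃ j, φ i j ⬝ᵥ x ≠ 0
  · rw [if_pos h, if_pos (h2.mpr h)]
  · rw [if_neg h, if_neg (fun h' => h (h2.mp h'))]

theorem wt_add (C : Coord D B φ) {k : Fin t} {a : Fin n → F} (ha : a ∈ D k) (x : Fin n → F) :
    wt φ (x + a) = wt φ x + (chi φ k (x + a) - chi φ k x) := by
  classical
  unfold wt
  have : ∀ i, chi φ i (x + a) = chi φ i x + if i = k then (chi φ k (x + a) - chi φ k x) else 0 := by
    intro i
    by_cases hik : i = k
    · subst hik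
      rw [if_pos rfl]; ring
    · rw [if_neg hik, chi_other C ha i hik, add_zero]
  rw [Finset.sum_congr rfl (fun i _ => this i)]
  simp only [Finset.sum_add_distrib, Finset.sum_ite_eq', Finset.mem_univ, if_true]

open Classical in
theorem wt_eq_card (x : Fin n → F) : wt φ x =
    (((Finset.univ.filter (fun i => ∃ j, φ i j ⬝ᵥ x ≠ 0)).card : ℕ) : F) := by
  unfold wt chi
  rw [Finset.sum_boole]

open Classical in
theorem card_stab_le (C : Coord D B φ) {g : Matrix.GeneralLinearGroup (Fin n) F}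
    (hg : g ∈ Cfsg.Geo.decompositionStabilizer D) (x : Fin n → F) :
    (Finset.univ.filter (fun i => ∃ j, φ i j ⬝ᵥ ((g : Matrix (Fin n) (Fin n) F) *ᵥ x) ≠ 0)).card ≤
      (Finset.univ.filter (fun i => ∃ j, φ i j ⬝ᵥ x ≠ 0)).card := by
  obtain ⟨τ, hτ⟩ := hg
  have key : ∀ i, (∀ j, φ i j ⬝ᵥ x = 0) →
      ∀ j, φ (τ i) j ⬝ᵥ ((g : Matrix (Fin n) (Fin n) F) *ᵥ x) = 0 := by
    intro i hz j
    conv_lhs => rw [C.expand x]
    simp only [Matrix.mulVec_sum, Matrix.mulVec_smul, dotProduct_sum, dotProduct_smul]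
    refine Finset.sum_eq_zero (fun i' _ => Finset.sum_eq_zero (fun j' _ => ?_))
    by_cases h : i' = i
    · subst h; rw [hz j', zero_smul]
    · have hm : (g : Matrix (Fin n) (Fin n) F) *ᵥ B i' j' ∈ D (τ i') := by
        rw [← hτ i']; exact ⟨_, C.mem i' j', rfl⟩
      rw [C.vanish (τ i') _ hm (τ i) j (fun h' => h (τ.injective h').symm), smul_zero]
  refine le_trans (Finset.card_le_card ?_) (Finset.card_image_le (f := τ))
  intro k hk
  rw [Finset.mem_filter] at hk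
  rw [Finset.mem_image]
  refine ⟨τ.symm k, ?_, τ.apply_symm_apply k⟩
  rw [Finset.mem_filter]
  refine ⟨Finset.mem_univ _, ?_⟩
  by_contra hcon
  push Not at hcon
  obtain ⟨j, hj⟩ := hk.2
  apply hj
  have := key (τ.symm k) hcon j
  rwa [τ.apply_symm_apply] at this

theorem wt_stab (C : Coord D B φ) {g : Matrix.GeneralLinearGroup (Fin n) F}
    (hg : g ∈ Cfsg.Geo.decompositionStabilizer D) (x : Fin n → F) :
    wt φ ((g : Matrix (Fin n) (Fin n) F) *ᵥ x) = wt φ x := by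
  rw [wt_eq_card, wt_eq_card]
  congr 1
  apply le_antisymm (card_stab_le C hg x)
  have := card_stab_le C (Subgroup.inv_mem _ hg) ((g : Matrix (Fin n) (Fin n) F) *ᵥ x)
  rwa [gl_inv_mulVec] at this

theorem between (C : Coord D B φ) (ht : 2 ≤ t) (hm : 0 < m)
    (x₀ : Matrix.GeneralLinearGroup (Fin n) F) (hx₀ : x₀ ∈ Cfsg.Geo.specialLinear (Fin n) F)
    (hinv : ∀ x, wt φ ((x₀ : Matrix (Fin n) (Fin n) F) *ᵥ x) = wt φ x)
    (hnot : x₀ ∉ Cfsg.Geo.decompositionStabilizer D) :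
    ∃ K : Subgroup (Matrix.GeneralLinearGroup (Fin n) F),
      Cfsg.Geo.decompositionStabilizer D ⊓ Cfsg.Geo.specialLinear (Fin n) F < K ∧
        K < Cfsg.Geo.specialLinear (Fin n) F := by
  classical
  let K : Subgroup (Matrix.GeneralLinearGroup (Fin n) F) :=
    { carrier := {g | g ∈ Cfsg.Geo.specialLinear (Fin n) F ∧
        ∀ v, wt φ ((g : Matrix (Fin n) (Fin n) F) *ᵥ v) = wt φ v}
      mul_mem' := by
        rintro a b ⟨ha, ha'⟩ ⟨hb, hb'⟩
        refine ⟨Subgroup.mul_mem _ ha hb, fun v => ?_⟩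
        rw [Units.val_mul, ← Matrix.mulVec_mulVec, ha', hb']
      one_mem' := ⟨Subgroup.one_mem _, fun v => by simp⟩
      inv_mem' := by
        rintro a ⟨ha, ha'⟩
        refine ⟨Subgroup.inv_mem _ ha, fun v => ?_⟩
        rw [← ha' (((a⁻¹ : Matrix.GeneralLinearGroup (Fin n) F) :
          Matrix (Fin n) (Fin n) F) *ᵥ v), gl_mulVec_inv] }
  have hKmem : ∀ g, g ∈ K ↔ (g ∈ Cfsg.Geo.specialLinear (Fin n) F ∧
        ∀ v, wt φ ((g : Matrix (Fin n) (Fin n) F) *ᵥ v) = wt φ v) := fun g => Iff.rfl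
  refine ⟨K, ?_, ?_⟩
  · refine lt_of_le_of_ne ?_ ?_
    · intro g hg
      obtain ⟨h1, h2⟩ := Subgroup.mem_inf.mp hg
      exact (hKmem g).mpr ⟨h2, wt_stab C h1⟩
    · intro heq
      have : x₀ ∈ K := (hKmem _).mpr ⟨hx₀, hinv⟩
      rw [← heq] at this
      exact hnot (Subgroup.mem_inf.mp this).1
  · refine lt_of_le_of_ne (fun g hg => ((hKmem g).mp hg).1) ?_
    intro heq
    obtain ⟨i₁, hi₁⟩ : ∃ i₁ : Fin t, i₁ = ⟨0, by omega⟩ := ⟨_, rfl⟩
    obtain ⟨i₂, hi₂⟩ : ∃ i₂ : Fin t, i₂ = ⟨1, by omega⟩ := ⟨_, rfl⟩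
    have hi12 : i₁ ≠ i₂ := by
      rw [hi₁, hi₂]; intro h; simpa using congrArg Fin.val h
    obtain ⟨j₀, -⟩ : ∃ j₀ : Fin m, j₀ = ⟨0, hm⟩ := ⟨_, rfl⟩
    have h0 : φ i₂ j₀ ⬝ᵥ B i₁ j₀ = 0 := by
      rw [C.dual, if_neg (by rintro ⟨h, -⟩; exact hi12 h.symm)]
    have hy := glT_mem_SL (B i₁ j₀) (φ i₂ j₀) h0
    rw [← heq] at hy
    have h1 := ((hKmem _).mp hy).2 (B i₂ j₀)
    rw [glT_mulVec, C.dual, if_pos ⟨rfl, rfl⟩, one_smul, wt_add C (C.mem i₁ j₀)] at h1
    have c1 : chi φ i₁ (B i₂ j₀ + B i₁ j₀) = 1 := by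
      unfold chi
      rw [if_pos]
      refine ⟨j₀, ?_⟩
      rw [dotProduct_add, C.dual, C.dual, if_neg (by rintro ⟨h, -⟩; exact hi12 h),
        if_pos ⟨rfl, rfl⟩]
      simp
    have c2 : chi φ i₁ (B i₂ j₀) = 0 := by
      unfold chi
      rw [if_neg]
      push Not
      intro j
      rw [C.dual, if_neg (by rintro ⟨h, -⟩; exact hi12 h)]
    rw [c1, c2] at h1
    exact one_ne_zero (α := F) (by linear_combination h1)

end

end Cfsg.Agent.Lib.Helper6
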