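import Cfsg.Prelude
import Mathlib

set_option autoImplicit false
set_option linter.unusedSectionVars false
open Cfsg

namespace Cfsg.Agent.Lib.Helper6

open Matrix

variable {F : Type*} [Field F] {ι : Type} [Fintype ι] [DecidableEq ι]
  {f : (ι → F) → (ι → F) → F}

theorem bf_zero_left (hb : Cfsg.Geo.IsBilinearForm f) (v : ι → F) : f 0 v = 0 := by
  have := hb.smul_left 0 0 v
  simpa using this

theorem bf_zero_right (hb : Cfsg.Geo.IsBilinearForm f) (v : ι → F) : f v 0 = 0 := by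
  have := hb.smul_right 0 v 0
  simpa using this

theorem bf_sum_left (hb : Cfsg.Geo.IsBilinearForm f) {κ : Type*} (s : Finset κ) (c : κ → F)
    (x : κ → ι → F) (v : ι → F) : f (∑ j ∈ s, c j • x j) v = ∑ j ∈ s, c j * f (x j) v := by
  classical
  induction s using Finset.induction_on with
  | empty => simp [bf_zero_left hb]
  | insert a s ha ih => rw [Finset.sum_insert ha, Finset.sum_insert ha, hb.add_left,
      hb.smul_left, ih]

theorem bf_sum_right (hb : Cfsg.Geo.IsBilinearForm f) {κ : Type*} (s : Finset κ) (c : κ → F)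
    (x : κ → ι → F) (v : ι → F) : f v (∑ j ∈ s, c j • x j) = ∑ j ∈ s, c j * f v (x j) := by
  classical
  induction s using Finset.induction_on with
  | empty => simp [bf_zero_right hb]
  | insert a s ha ih => rw [Finset.sum_insert ha, Finset.sum_insert ha, hb.add_right,
      hb.smul_right, ih]

/-- an orthogonal basis of a non-degenerate subspace. -/
theorem orthoN (hb : Cfsg.Geo.IsBilinearForm f) (hs : ∀ u v, f u v = f v u) (h2 : (2 : F) ≠ 0)
    (D : Submodule F (ι → F)) {k : ℕ} (hdim : Module.finrank F D = k)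
    (hnd : Cfsg.Geo.IsNondegenerateOn f D) :
    ∃ w : Fin k → (ι → F), (∀ i, w i ∈ D) ∧ (∀ i j, i ≠ j → f (w i) (w j) = 0) ∧
      (∀ i, f (w i) (w i) ≠ 0) ∧ ∀ d ∈ D, ∃ α : Fin k → F, d = ∑ i, α i • w i := by
  classical
  let B : LinearMap.BilinForm F (ι → F) :=
    LinearMap.mk₂ F f hb.add_left hb.smul_left hb.add_right hb.smul_right
  have : Invertible (2 : F) := invertibleOfNonzero h2
  have hsymm : LinearMap.IsSymm (B.restrict D) := ⟨fun x y => hs _ _⟩
  obtain ⟨v, hv⟩ := LinearMap.BilinForm.exists_orthogonal_basis hsymm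
  obtain ⟨v', hv'⟩ : ∃ v' : Module.Basis (Fin k) F D, v' = v.reindex (finCongr hdim) := ⟨_, rfl⟩
  have horth : ∀ i j, i ≠ j → f (v' i : ι → F) (v' j : ι → F) = 0 := by
    intro i j hij
    rw [hv']
    simp only [Module.Basis.reindex_apply]
    exact hv (fun h => hij ((finCongr hdim).symm.injective h))
  have hspan : ∀ d ∈ D, ∃ α : Fin k → F, d = ∑ i, α i • (v' i : ι → F) := by
    intro d hd
    refine ⟨fun i => v'.repr ⟨d, hd⟩ i, ?_⟩
    have := congrArg (fun z : D => (z : ι → F)) (v'.sum_repr ⟨d, hd⟩)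
    simp only [Submodule.coe_sum, Submodule.coe_smul] at this
    exact this.symm
  refine ⟨fun i => (v' i : ι → F), fun i => (v' i).2, horth, ?_, hspan⟩
  intro i h0
  have hne : (v' i : ι → F) ≠ 0 := by
    intro h
    exact v'.ne_zero i (Subtype.ext h)
  obtain ⟨-, x, hx, hfx⟩ := hnd _ (v' i).2 hne
  apply hfx
  obtain ⟨α, rfl⟩ := hspan x hx
  rw [bf_sum_right hb]
  refine Finset.sum_eq_zero (fun j _ => ?_)
  by_cases hij : i = j
  · subst hij; rw [h0, mul_zero]
  · rw [horth i j hij, mul_zero]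

structure Orth3 (f : (ι → F) → (ι → F) → F) (D : Submodule F (ι → F)) (x y z : ι → F) : Prop where
  hx : x ∈ D
  hy : y ∈ D
  hz : z ∈ D
  xy : f x y = 0
  xz : f x z = 0
  yz : f y z = 0
  span : ∀ d ∈ D, ∃ α β γ : F, d = α • x + β • y + γ • z

theorem Orth3.swap23 {D : Submodule F (ι → F)} {x y z : ι → F} (h : Orth3 f D x y z)
    (hs : ∀ u v, f u v = f v u) : Orth3 f D x z y :=
  ⟨h.hx, h.hz, h.hy, h.xz, h.xy, by rw [hs]; exact h.yz, fun d hd => by
    obtain ⟨α, β, γ, rfl⟩ := h.span d hd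
    exact ⟨α, γ, β, by module⟩⟩

theorem Orth3.rot {D : Submodule F (ι → F)} {x y z : ι → F} (h : Orth3 f D x y z)
    (hs : ∀ u v, f u v = f v u) : Orth3 f D y z x :=
  ⟨h.hy, h.hz, h.hx, h.yz, by rw [hs]; exact h.xy, by rw [hs]; exact h.xz, fun d hd => by
    obtain ⟨α, β, γ, rfl⟩ := h.span d hd
    exact ⟨β, γ, α, by module⟩⟩

theorem Orth3.fix {D : Submodule F (ι → F)} {x y z : ι → F} (h : Orth3 f D x y z)
    (hb : Cfsg.Geo.IsBilinearForm f) (hs : ∀ u v, f u v = f v u) (h30 : (3 : F) = 0) {a : F}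
    (hxx : f x x = a) (hyy : f y y = a) :
    Orth3 f D (x + y) (x + (-1 : F) • y) z ∧ f (x + y) (x + y) = -a ∧
      f (x + (-1 : F) • y) (x + (-1 : F) • y) = -a := by
  have hyx : f y x = 0 := by rw [hs]; exact h.xy
  refine ⟨⟨D.add_mem h.hx h.hy, D.add_mem h.hx (D.smul_mem _ h.hy), h.hz, ?_, ?_, ?_, ?_⟩, ?_, ?_⟩
  · simp only [hb.add_left, hb.add_right, hb.smul_left, hb.smul_right, hxx, hyy, h.xy, hyx]; ring
  · simp only [hb.add_left, h.xz, h.yz]; ring
  · simp only [hb.add_left, hb.smul_left, h.xz, h.yz]; ring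
  · intro d hd
    obtain ⟨α, β, γ, rfl⟩ := h.span d hd
    refine ⟨-(α + β), -(α - β), γ, ?_⟩
    have : (-(α + β)) • (x + y) + (-(α - β)) • (x + (-1 : F) • y) + γ • z =
        α • x + β • y + γ • z - ((3 : F) * α) • x - ((3 : F) * β) • y := by module
    rw [this, h30]; simp
  · simp only [hb.add_left, hb.add_right, hxx, hyy, h.xy, hyx]
    linear_combination a * h30
  · simp only [hb.add_left, hb.add_right, hb.smul_left, hb.smul_right, hxx, hyy, h.xy, hyx]
    linear_combination a * h30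

/-- a frame of a non-degenerate three-dimensional space over the field with three elements. -/
structure Frame3 (f : (ι → F) → (ι → F) → F) (D : Submodule F (ι → F)) (κ : F)
    (w : Fin 3 → ι → F) : Prop where
  kap : κ = 1 ∨ κ = -1
  mem : ∀ i, w i ∈ D
  gram : ∀ i j, f (w i) (w j) = if i = j then κ else 0
  span : ∀ d ∈ D, ∃ α : Fin 3 → F, d = ∑ i, α i • w i

theorem Orth3.toFrame {D : Submodule F (ι → F)} {x y z : ι → F} (h : Orth3 f D x y z)
    (hs : ∀ u v, f u v = f v u) {κ : F} (hκ : κ = 1 ∨ κ = -1) (hxx : f x x = κ) (hyy : f y y = κ)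
    (hzz : f z z = κ) : Frame3 f D κ ![x, y, z] where
  kap := hκ
  mem := by
    intro i
    fin_cases i
    · exact h.hx
    · exact h.hy
    · exact h.hz
  gram := by
    have hyx : f y x = 0 := by rw [hs]; exact h.xy
    have hzx : f z x = 0 := by rw [hs]; exact h.xz
    have hzy : f z y = 0 := by rw [hs]; exact h.yz
    intro i j
    fin_cases i <;> fin_cases j <;>
      simp [hxx, hyy, hzz, h.xy, h.xz, h.yz, hyx, hzx, hzy]
  span := by
    intro d hd
    obtain ⟨α, β, γ, rfl⟩ := h.span d hd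
    exact ⟨![α, β, γ], by simp [Fin.sum_univ_three]⟩

theorem exists_frame3 (hb : Cfsg.Geo.IsBilinearForm f) (hs : ∀ u v, f u v = f v u)
    (h3 : ∀ a : F, a = 0 ∨ a = 1 ∨ a = -1) (h30 : (3 : F) = 0)
    (D : Submodule F (ι → F)) (hdim : Module.finrank F D = 3)
    (hnd : Cfsg.Geo.IsNondegenerateOn f D) : ∃ κ w, Frame3 f D κ w := by
  have h2 : (2 : F) ≠ 0 := by
    intro h
    exact one_ne_zero (α := F) (by linear_combination h30 - h)
  obtain ⟨w, hw, horth, hne, hspan⟩ := orthoN hb hs h2 D hdim hnd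
  have h0 : Orth3 f D (w 0) (w 1) (w 2) :=
    ⟨hw 0, hw 1, hw 2, horth 0 1 (by decide), horth 0 2 (by decide), horth 1 2 (by decide),
      fun d hd => by
        obtain ⟨α, rfl⟩ := hspan d hd
        exact ⟨α 0, α 1, α 2, by rw [Fin.sum_univ_three]⟩⟩
  have n0 := (h3 (f (w 0) (w 0))).resolve_left (hne 0)
  have n1 := (h3 (f (w 1) (w 1))).resolve_left (hne 1)
  have n2 := (h3 (f (w 2) (w 2))).resolve_left (hne 2)
  rcases n0 with n0 | n0 <;> rcases n1 with n1 | n1 <;> rcases n2 with n2 | n2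
  · exact ⟨_, _, h0.toFrame hs (Or.inl rfl) n0 n1 n2⟩
  · obtain ⟨h, a1, a2⟩ := h0.fix hb hs h30 n0 n1
    exact ⟨_, _, h.toFrame hs (Or.inr rfl) a1 a2 n2⟩
  · obtain ⟨h, a1, a2⟩ := (h0.swap23 hs).fix hb hs h30 n0 n2
    exact ⟨_, _, h.toFrame hs (Or.inr rfl) a1 a2 n1⟩
  · obtain ⟨h, a1, a2⟩ := (h0.rot hs).fix hb hs h30 n1 n2
    exact ⟨_, _, h.toFrame hs (Or.inl rfl) (by rw [a1, neg_neg]) (by rw [a2, neg_neg]) n0⟩
  · obtain ⟨h, a1, a2⟩ := (h0.rot hs).fix hb hs h30 n1 n2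
    exact ⟨_, _, h.toFrame hs (Or.inr rfl) a1 a2 n0⟩
  · obtain ⟨h, a1, a2⟩ := (h0.swap23 hs).fix hb hs h30 n0 n2
    exact ⟨_, _, h.toFrame hs (Or.inl rfl) (by rw [a1, neg_neg]) (by rw [a2, neg_neg]) n1⟩
  · obtain ⟨h, a1, a2⟩ := h0.fix hb hs h30 n0 n1
    exact ⟨_, _, h.toFrame hs (Or.inl rfl) (by rw [a1, neg_neg]) (by rw [a2, neg_neg]) n2⟩
  · exact ⟨_, _, h0.toFrame hs (Or.inr rfl) n0 n1 n2⟩

namespace Frame3

variable {D : Submodule F (ι → F)} {κ : F} {w : Fin 3 → ι → F}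

theorem kap_ne (h : Frame3 f D κ w) : κ ≠ 0 := by
  rcases h.kap with rfl | rfl
  · exact one_ne_zero
  · exact neg_ne_zero.mpr one_ne_zero

theorem kap_sq (h : Frame3 f D κ w) : κ * κ = 1 := by
  rcases h.kap with rfl | rfl <;> ring

theorem form_sum (h : Frame3 f D κ w) (hb : Cfsg.Geo.IsBilinearForm f) (α β : Fin 3 → F) :
    f (∑ i, α i • w i) (∑ i, β i • w i) = κ * (α 0 * β 0 + α 1 * β 1 + α 2 * β 2) := by
  rw [bf_sum_left hb]
  simp only [bf_sum_right hb, h.gram]
  simp only [Fin.sum_univ_three]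
  simp
  ring

theorem classify (h : Frame3 f D κ w) (hb : Cfsg.Geo.IsBilinearForm f)
    (h3 : ∀ a : F, a = 0 ∨ a = 1 ∨ a = -1) (h30 : (3 : F) = 0) {d : ι → F} (hd : d ∈ D)
    (hdd : f d d = κ) : ∃ (i : Fin 3) (ε : F), (ε = 1 ∨ ε = -1) ∧ d = ε • w i := by
  obtain ⟨α, rfl⟩ := h.span d hd
  rw [h.form_sum hb] at hdd
  have hsum : α 0 * α 0 + α 1 * α 1 + α 2 * α 2 = 1 := by
    apply mul_left_cancel₀ h.kap_ne
    rw [hdd, mul_one]
  rw [Fin.sum_univ_three]
  rcases h3 (α 0) with a0 | a0 | a0 <;> rcases h3 (α 1) with a1 | a1 | a1 <;>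
    rcases h3 (α 2) with a2 | a2 | a2 <;> rw [a0, a1, a2] at hsum ⊢
  all_goals first
    | exact absurd (by linear_combination hsum) (one_ne_zero (α := F))
    | exact absurd (by linear_combination -hsum) (one_ne_zero (α := F))
    | exact absurd (by linear_combination h30 - hsum) (one_ne_zero (α := F))
    | (refine ⟨0, 1, Or.inl rfl, ?_⟩; simp; done)
    | (refine ⟨0, -1, Or.inr rfl, ?_⟩; simp; done)
    | (refine ⟨1, 1, Or.inl rfl, ?_⟩; simp; done)
    | (refine ⟨1, -1, Or.inr rfl, ?_⟩; simp; done)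
    | (refine ⟨2, 1, Or.inl rfl, ?_⟩; simp; done)
    | (refine ⟨2, -1, Or.inr rfl, ?_⟩; simp; done)

theorem no_neg (h : Frame3 f D κ w) (hb : Cfsg.Geo.IsBilinearForm f)
    (h3 : ∀ a : F, a = 0 ∨ a = 1 ∨ a = -1) (h30 : (3 : F) = 0) (r : Fin 3 → ι → F)
    (hr : ∀ i, r i ∈ D) (hrr : ∀ i j, f (r i) (r j) = if i = j then -κ else 0) : False := by
  choose A hA using fun j => h.span (r j) (hr j)
  let M : Matrix (Fin 3) (Fin 3) F := fun i j => A j i
  have hM : Mᵀ * M = -1 := by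
    ext j k
    have h1 := hrr j k
    rw [hA j, hA k, h.form_sum hb] at h1
    rw [Matrix.mul_apply, Fin.sum_univ_three]
    simp only [Matrix.transpose_apply, Matrix.neg_apply, Matrix.one_apply]
    show A j 0 * A k 0 + A j 1 * A k 1 + A j 2 * A k 2 = _
    apply mul_left_cancel₀ h.kap_ne
    rw [h1]
    by_cases hjk : j = k <;> simp [hjk]
  have hdet := congrArg Matrix.det hM
  rw [Matrix.det_mul, Matrix.det_transpose, Matrix.det_neg, Matrix.det_one] at hdet
  simp only [Fintype.card_fin] at hdet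
  have h2 : (2 : F) ≠ 0 := by
    intro h
    exact one_ne_zero (α := F) (by linear_combination h30 - h)
  rcases h3 M.det with d | d | d <;> rw [d] at hdet
  · exact one_ne_zero (α := F) (by linear_combination hdet)
  · exact h2 (by linear_combination hdet)
  · exact h2 (by linear_combination hdet)

end Frame3

end Cfsg.Agent.Lib.Helper6
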