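import Mathlib
import Cfsg.Agent.Lib.Helper6.OSieg
import Cfsg.Agent.S5657

set_option autoImplicit false
set_option linter.unusedSectionVars false

namespace Cfsg.Agent.Lib.Helper6

open Matrix Cfsg QuadraticMap

variable {F : Type*} [Field F] {ι : Type} [Fintype ι] [DecidableEq ι] {Q : (ι → F) → F}

theorem finrank_span_pair_le (x y : ι → F) :
    Module.finrank F (Submodule.span F ({x, y} : Set (ι → F))) ≤ 2 := by
  classical
  have h := finrank_span_finset_le_card (R := F) ({x, y} : Finset (ι → F))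
  rw [Finset.coe_insert, Finset.coe_singleton] at h
  exact h.trans Finset.card_le_two

theorem exists_mem_notMem (A : Submodule F (ι → F)) {j : ℕ} (w : Fin j → ι → F)
    (S : Submodule F (ι → F)) (h : Module.finrank F S + j < Module.finrank F A) :
    ∃ a ∈ A, (∀ i, w i ⬝ᵥ a = 0) ∧ a ∉ S := by
  by_contra hcon
  push Not at hcon
  have hle : A ⊓ LinearMap.ker (rowMap w) ≤ S := by
    rintro a ⟨ha, hk⟩
    exact hcon a ha ((mem_ker_rowMap w a).mp hk)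
  have h1 := Submodule.finrank_mono hle
  have h2 := Submodule.finrank_sup_add_finrank_inf_eq A (LinearMap.ker (rowMap w))
  have h3 := finrank_ker_rowMap w
  have h4 : Module.finrank F ↥(A ⊔ LinearMap.ker (rowMap w)) ≤ Fintype.card ι := by
    rw [← Module.finrank_fintype_fun_eq_card F]
    exact Submodule.finrank_le _
  omega

section pair

variable (hQ : Cfsg.Geo.IsNondegenerateQuadraticForm Q)

theorem ts_polar {A : Submodule F (ι → F)} (hA : ∀ a ∈ A, Q a = 0) {x y : ι → F} (hx : x ∈ A)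
    (hy : y ∈ A) : polar Q x y = 0 := by
  unfold QuadraticMap.polar
  rw [hA _ (A.add_mem hx hy), hA x hx, hA y hy]; ring

/-- The vectors `u ⊥ w` all of whose multiples give Siegel transformations in `M`. -/
def Tset (M : Subgroup (Matrix.GeneralLinearGroup ι F)) (w : ι → F) : Set (ι → F) :=
  {u | polar Q u w = 0 ∧ ∀ c : F, sg hQ w (c • u) ∈ M}

variable {hQ} {M : Subgroup (Matrix.GeneralLinearGroup ι F)}

theorem Tset_add {w u u' : ι → F} (hw : Q w = 0) (hu : u ∈ Tset hQ M w) (hu' : u' ∈ Tset hQ M w) :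
    u + u' ∈ Tset hQ M w := by
  refine ⟨by rw [hQ.polar_bilinear.add_left, hu.1, hu'.1, add_zero], fun c => ?_⟩
  rw [smul_add, ← sg_mul hQ hw (by rw [hQ.polar_bilinear.smul_left, hu.1, mul_zero])
    (by rw [hQ.polar_bilinear.smul_left, hu'.1, mul_zero])]
  exact M.mul_mem (hu.2 c) (hu'.2 c)

theorem Tset_smul {w u : ι → F} (d : F) (hu : u ∈ Tset hQ M w) : d • u ∈ Tset hQ M w := by
  refine ⟨by rw [hQ.polar_bilinear.smul_left, hu.1, mul_zero], fun c => ?_⟩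
  rw [smul_smul]
  exact hu.2 _

theorem Tset_self {w : ι → F} (hw : Q w = 0) : w ∈ Tset hQ M w := by
  refine ⟨by rw [oq_polar_self hQ, hw, mul_zero], fun c => ?_⟩
  rw [sg_self hQ c hw]
  exact M.one_mem

theorem Tset_one {w u : ι → F} (hu : u ∈ Tset hQ M w) : sg hQ w u ∈ M := by
  have := hu.2 1
  rwa [one_smul] at this

theorem Tset_symm {w u : ι → F} (hw : Q w = 0) (hu0 : Q u = 0) (hu : u ∈ Tset hQ M w) :
    w ∈ Tset hQ M u := by
  have hwu : polar Q w u = 0 := by rw [oq_comm]; exact hu.1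
  refine ⟨hwu, fun c => ?_⟩
  rw [← sg_smul_left hQ c hu0 hwu,
    sg_symm hQ hw (by rw [hQ.smul, hu0, mul_zero])
      (by rw [hQ.polar_bilinear.smul_left, hu.1, mul_zero]), ← neg_smul]
  exact hu.2 _

theorem Tset_rule {w u d : ι → F} (hw : Q w = 0) (huw : polar Q u w = 0) (hm : sg hQ w u ∈ M)
    (hd : polar Q d w = 0)
    (hg : ∀ c : F, ∃ g ∈ M, (∀ x, Q ((g : Matrix ι ι F) *ᵥ x) = Q x) ∧
      (g : Matrix ι ι F) *ᵥ w = w ∧ (g : Matrix ι ι F) *ᵥ u = u + c • d) :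
    d ∈ Tset hQ M w := by
  refine ⟨hd, fun c => ?_⟩
  obtain ⟨g, hgM, hgi, hgw, hgu⟩ := hg c
  have h1 := sg_conj hQ g hgi hw huw
  rw [hgw, hgu, ← sg_mul hQ hw huw (by rw [hQ.polar_bilinear.smul_left, hd, mul_zero])] at h1
  have h2 : sg hQ w (c • d) = (sg hQ w u)⁻¹ * (g * sg hQ w u * g⁻¹) := by
    rw [h1]; group
  rw [h2]
  exact M.mul_mem (M.inv_mem hm) (M.mul_mem (M.mul_mem hgM hm) (M.inv_mem hgM))

variable {A B : Submodule F (ι → F)}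

theorem Tset_step (hA : ∀ a ∈ A, Q a = 0) (hB : ∀ b ∈ B, Q b = 0)
    (hP : ∀ a ∈ A, ∀ b ∈ B, polar Q b a = 0 → sg hQ a b ∈ M)
    {w u a b : ι → F} (hw : Q w = 0) (huw : polar Q u w = 0) (hm : sg hQ w u ∈ M)
    (ha : a ∈ A) (hb : b ∈ B) (hba : polar Q b a = 0) (h1 : polar Q w b = 0)
    (h2 : polar Q w a = 0) (h3 : polar Q u a = 0) (h4 : polar Q u b ≠ 0) :
    a ∈ Tset hQ M w := by
  apply Tset_rule hw huw hm (by rw [oq_comm]; exact h2)
  intro c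
  have hba' : polar Q ((c / polar Q u b) • b) a = 0 := by
    rw [hQ.polar_bilinear.smul_left, hba, mul_zero]
  refine ⟨sg hQ a ((c / polar Q u b) • b), hP a ha _ (B.smul_mem _ hb) hba', sg_isom hQ _ _, ?_, ?_⟩
  · rw [sg_mulVec hQ (hA a ha) hba', hQ.polar_bilinear.smul_right, h1, h2]
    simp
  · rw [sg_mulVec hQ (hA a ha) hba', hQ.polar_bilinear.smul_right, h3, div_mul_cancel₀ _ h4]
    simp

section geom

variable (hQ) (hA : ∀ a ∈ A, Q a = 0) (hB : ∀ b ∈ B, Q b = 0)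
  (hdec : ∀ v, ∃ a ∈ A, ∃ b ∈ B, v = a + b)
include hQ hA hB hdec

theorem ts_disj {x : ι → F} (hxA : x ∈ A) (hxB : x ∈ B) : x = 0 := by
  apply oq_nondeg hQ
  intro y
  obtain ⟨a, ha, b, hb, rfl⟩ := hdec y
  rw [hQ.polar_bilinear.add_left, ts_polar hA ha hxA, ts_polar hB hb hxB, add_zero]

theorem ts_perp_mem {v : ι → F} (hv : ∀ b ∈ B, polar Q v b = 0) : v ∈ B := by
  obtain ⟨v₀, hv₀, v₁, hv₁, rfl⟩ := hdec v
  have : v₀ = 0 := by
    apply oq_nondeg hQ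
    intro y
    obtain ⟨a, ha, b, hb, rfl⟩ := hdec y
    have h1 := hv b hb
    rw [hQ.polar_bilinear.add_left, ts_polar hB hv₁ hb, add_zero] at h1
    rw [hQ.polar_bilinear.add_left, ts_polar hA ha hv₀, oq_comm, h1, add_zero]
  rw [this, zero_add]
  exact hv₁

theorem ts_sep (X : Submodule F (ι → F)) (hX : X ≤ A) {y : ι → F} (hyA : y ∈ A) (hy : y ∉ X) :
    ∃ b ∈ B, (∀ x ∈ X, polar Q b x = 0) ∧ polar Q b y ≠ 0 := by
  have hy' : y ∉ X ⊔ B := by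
    intro hmem
    obtain ⟨x, hx, b, hb, hxb⟩ := Submodule.mem_sup.mp hmem
    have hbA : b ∈ A := by
      have : b = y - x := by rw [← hxb]; abel
      rw [this]
      exact A.sub_mem hyA (hX hx)
    have := ts_disj hQ hA hB hdec hbA hb
    rw [this, add_zero] at hxb
    exact hy (hxb ▸ hx)
  obtain ⟨v, hv, hvy⟩ := oq_separate hQ (X ⊔ B) y hy'
  refine ⟨v, ts_perp_mem hQ hA hB hdec (fun b hb => hv b (Submodule.mem_sup_right hb)),
    fun x hx => hv x (Submodule.mem_sup_left hx), hvy⟩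

variable {hQ} (hP : ∀ a ∈ A, ∀ b ∈ B, polar Q b a = 0 → sg hQ a b ∈ M)
include hP

theorem pair_L4 {a a' : ι → F} (ha : a ∈ A) (ha' : a' ∈ A)
    (hind : a' ∉ Submodule.span F ({a} : Set (ι → F))) (hT : a' ∈ Tset hQ M a) :
    ∀ a'' ∈ A, a'' ∈ Tset hQ M a := by
  intro a'' ha''
  by_cases h : a' ∈ Submodule.span F ({a, a''} : Set (ι → F))
  · obtain ⟨x, y, hxy⟩ := Submodule.mem_span_pair.mp h
    have hy : y ≠ 0 := by
      rintro rfl
      apply hind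
      rw [zero_smul, add_zero] at hxy
      rw [← hxy]
      exact Submodule.smul_mem _ _ (Submodule.mem_span_singleton_self a)
    have e : a'' = y⁻¹ • a' + (-(y⁻¹ * x)) • a := by
      rw [← hxy, smul_add, smul_smul, smul_smul, inv_mul_cancel₀ hy]
      module
    rw [e]
    exact Tset_add (hA a ha) (Tset_smul _ hT) (Tset_smul _ (Tset_self (hA a ha)))
  · have hX : Submodule.span F ({a, a''} : Set (ι → F)) ≤ A := by
      rw [Submodule.span_le]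
      rintro z (rfl | rfl)
      · exact ha
      · exact ha''
    obtain ⟨b, hb, hbX, hba'⟩ := ts_sep hQ hA hB hdec _ hX ha' h
    have hba : polar Q b a = 0 := hbX a (Submodule.subset_span (by simp))
    have hba'' : polar Q b a'' = 0 := hbX a'' (Submodule.subset_span (by simp))
    exact Tset_step hA hB hP (hA a ha) hT.1 (Tset_one hT) ha'' hb hba''
      (by rw [oq_comm]; exact hba) (ts_polar hA ha ha'') (ts_polar hA ha' ha'')
      (by rw [oq_comm]; exact hba')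

theorem pair_L6 {a a' : ι → F} (ha : a ∈ A) (ha' : a' ∈ A) (ha0 : a ≠ 0)
    (hind : a' ∉ Submodule.span F ({a} : Set (ι → F))) (hT : a' ∈ Tset hQ M a) :
    ∀ a₂ ∈ A, ∀ u, polar Q u a₂ = 0 → sg hQ a₂ u ∈ M := by
  have h4 := pair_L4 hA hB hdec hP ha ha' hind hT
  have h5 : ∀ a₂ ∈ A, ∀ a'' ∈ A, a'' ∈ Tset hQ M a₂ := by
    intro a₂ ha₂
    by_cases h : a₂ ∈ Submodule.span F ({a} : Set (ι → F))
    · obtain ⟨c, rfl⟩ := Submodule.mem_span_singleton.mp h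
      intro a'' ha''
      refine ⟨ts_polar hA ha'' ha₂, fun d => ?_⟩
      rw [sg_smul_left hQ c (hA a ha) (ts_polar hA (A.smul_mem d ha'') ha), smul_smul]
      exact (h4 a'' ha'').2 _
    · have h6 : a ∈ Tset hQ M a₂ := Tset_symm (hA a ha) (hA a₂ ha₂) (h4 a₂ ha₂)
      apply pair_L4 hA hB hdec hP ha₂ ha _ h6
      intro hmem
      obtain ⟨c, hc⟩ := Submodule.mem_span_singleton.mp hmem
      have hc0 : c ≠ 0 := by
        rintro rfl
        rw [zero_smul] at hc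
        exact ha0 hc.symm
      apply h
      rw [Submodule.mem_span_singleton]
      exact ⟨c⁻¹, by rw [← hc, smul_smul, inv_mul_cancel₀ hc0, one_smul]⟩
  intro a₂ ha₂ u hu
  obtain ⟨u₀, hu₀, u₁, hu₁, rfl⟩ := hdec u
  have h1 : polar Q u₁ a₂ = 0 := by
    rw [hQ.polar_bilinear.add_left, ts_polar hA hu₀ ha₂, zero_add] at hu
    exact hu
  rw [← sg_mul hQ (hA a₂ ha₂) (ts_polar hA hu₀ ha₂) h1]
  exact M.mul_mem (Tset_one (h5 a₂ ha₂ u₀ hu₀)) (hP a₂ ha₂ u₁ hu₁ h1)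

theorem pair_G (hk : 4 < Module.finrank F A) {p₀ r₀ p₁ r₁ : ι → F} (hp₀ : p₀ ∈ A) (hr₀ : r₀ ∈ A)
    (hp₁ : p₁ ∈ B) (hr₁ : r₁ ∈ B) (hp : Q (p₀ + p₁) = 0)
    (hrp : polar Q (r₀ + r₁) (p₀ + p₁) = 0) (hm : sg hQ (p₀ + p₁) (r₀ + r₁) ∈ M)
    (hind : ∀ x y : F, x • p₀ + y • r₀ = 0 → x = 0 ∧ y = 0) :
    ∀ a₂ ∈ A, ∀ u, polar Q u a₂ = 0 → sg hQ a₂ u ∈ M := by
  have hp₀0 : p₀ ≠ 0 := by
    rintro rfl
    have := (hind 1 0 (by simp)).1
    exact one_ne_zero this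
  obtain ⟨a, ha, harow, haS⟩ := exists_mem_notMem A ![oPhi Q (p₀ + p₁), oPhi Q (r₀ + r₁)]
    (Submodule.span F ({p₀, r₀} : Set (ι → F))) (by have := finrank_span_pair_le p₀ r₀; omega)
  have hap : polar Q a (p₀ + p₁) = 0 := by rw [← oPhi_dot hQ]; exact harow 0
  have har : polar Q a (r₀ + r₁) = 0 := by rw [← oPhi_dot hQ]; exact harow 1
  have ha0 : a ≠ 0 := by
    rintro rfl
    exact haS (Submodule.zero_mem _)
  -- first step
  have hX1 : Submodule.span F ({a, p₀} : Set (ι → F)) ≤ A := by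
    rw [Submodule.span_le]
    rintro z (rfl | rfl)
    · exact ha
    · exact hp₀
  have hr₀X : r₀ ∉ Submodule.span F ({a, p₀} : Set (ι → F)) := by
    intro hmem
    obtain ⟨x, y, hxy⟩ := Submodule.mem_span_pair.mp hmem
    by_cases hx : x = 0
    · subst hx
      rw [zero_smul, zero_add] at hxy
      have := (hind y (-1) (by rw [hxy]; simp)).2
      exact one_ne_zero (neg_eq_zero.mp this)
    · apply haS
      rw [Submodule.mem_span_pair]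
      refine ⟨-(x⁻¹ * y), x⁻¹, ?_⟩
      rw [← hxy, smul_add, smul_smul, smul_smul, inv_mul_cancel₀ hx]
      module
  obtain ⟨b, hb, hbX, hbr⟩ := ts_sep hQ hA hB hdec _ hX1 hr₀ hr₀X
  have hba : polar Q b a = 0 := hbX a (Submodule.subset_span (by simp))
  have hbp : polar Q b p₀ = 0 := hbX p₀ (Submodule.subset_span (by simp))
  have s1 : a ∈ Tset hQ M (p₀ + p₁) := by
    apply Tset_step hA hB hP hp hrp hm ha hb hba
    · rw [hQ.polar_bilinear.add_left, oq_comm, hbp, ts_polar hB hp₁ hb, add_zero]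
    · rw [oq_comm]; exact hap
    · rw [oq_comm]; exact har
    · rw [hQ.polar_bilinear.add_left, ts_polar hB hr₁ hb, add_zero, oq_comm]; exact hbr
  have s2 : p₀ + p₁ ∈ Tset hQ M a := Tset_symm hp (hA a ha) s1
  -- second step
  obtain ⟨a', ha', ha'row, ha'S⟩ := exists_mem_notMem A ![oPhi Q (p₀ + p₁)]
    (Submodule.span F ({a, p₀} : Set (ι → F))) (by have := finrank_span_pair_le a p₀; omega)
  have ha'p : polar Q a' (p₀ + p₁) = 0 := by rw [← oPhi_dot hQ]; exact ha'row 0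
  have hX2 : Submodule.span F ({a, a'} : Set (ι → F)) ≤ A := by
    rw [Submodule.span_le]
    rintro z (rfl | rfl)
    · exact ha
    · exact ha'
  have hp₀X : p₀ ∉ Submodule.span F ({a, a'} : Set (ι → F)) := by
    intro hmem
    obtain ⟨x, y, hxy⟩ := Submodule.mem_span_pair.mp hmem
    by_cases hy : y = 0
    · subst hy
      rw [zero_smul, add_zero] at hxy
      have hx : x ≠ 0 := by
        rintro rfl
        rw [zero_smul] at hxy
        exact hp₀0 hxy.symm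
      apply haS
      rw [Submodule.mem_span_pair]
      refine ⟨x⁻¹, 0, ?_⟩
      rw [← hxy, smul_smul, inv_mul_cancel₀ hx]
      simp
    · apply ha'S
      rw [Submodule.mem_span_pair]
      refine ⟨-(y⁻¹ * x), y⁻¹, ?_⟩
      rw [← hxy, smul_add, smul_smul, smul_smul, inv_mul_cancel₀ hy]
      module
  obtain ⟨b', hb', hb'X, hb'p⟩ := ts_sep hQ hA hB hdec _ hX2 hp₀ hp₀X
  have hb'a : polar Q b' a = 0 := hb'X a (Submodule.subset_span (by simp))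
  have hb'a' : polar Q b' a' = 0 := hb'X a' (Submodule.subset_span (by simp))
  have s3 : a' ∈ Tset hQ M a := by
    apply Tset_step hA hB hP (hA a ha) s2.1 (Tset_one s2) ha' hb' hb'a'
    · rw [oq_comm]; exact hb'a
    · exact ts_polar hA ha ha'
    · rw [oq_comm]; exact ha'p
    · rw [hQ.polar_bilinear.add_left, ts_polar hB hp₁ hb', add_zero, oq_comm]; exact hb'p
  have hind' : a' ∉ Submodule.span F ({a} : Set (ι → F)) := by
    intro hmem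
    apply ha'S
    exact Submodule.span_mono (by simp) hmem
  exact pair_L6 hA hB hdec hP ha ha' ha0 hind' s3

end geom

theorem pair_A1 (hQ : Cfsg.Geo.IsNondegenerateQuadraticForm Q)
    (hdec : ∀ v, ∃ a ∈ A, ∃ b ∈ B, v = a + b) (hk : 3 < Module.finrank F B)
    (h : Matrix.GeneralLinearGroup ι F) (a : ι → F) {p₀ p₁ : ι → F} (hp₀0 : p₀ ≠ 0)
    (hp₁0 : p₁ ≠ 0) :
    ∃ b ∈ B, polar Q b a = 0 ∧ ∃ r₀ ∈ A, ∃ r₁ ∈ B, (h : Matrix ι ι F) *ᵥ b = r₀ + r₁ ∧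
      ((∀ x y : F, x • p₀ + y • r₀ = 0 → x = 0 ∧ y = 0) ∨
        (∀ x y : F, x • p₁ + y • r₁ = 0 → x = 0 ∧ y = 0)) := by
  obtain ⟨b, hb, hrow, hbS⟩ := exists_mem_notMem B ![oPhi Q a]
    (Submodule.span F ({((h⁻¹ : Matrix.GeneralLinearGroup ι F) : Matrix ι ι F) *ᵥ p₀,
      ((h⁻¹ : Matrix.GeneralLinearGroup ι F) : Matrix ι ι F) *ᵥ p₁} : Set (ι → F)))
    (by have := finrank_span_pair_le (((h⁻¹ : Matrix.GeneralLinearGroup ι F) : Matrix ι ι F) *ᵥ p₀)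
          (((h⁻¹ : Matrix.GeneralLinearGroup ι F) : Matrix ι ι F) *ᵥ p₁); omega)
  obtain ⟨r₀, hr₀, r₁, hr₁, hr⟩ := hdec ((h : Matrix ι ι F) *ᵥ b)
  refine ⟨b, hb, by rw [← oPhi_dot hQ]; exact hrow 0, r₀, hr₀, r₁, hr₁, hr, ?_⟩
  by_contra hcon
  push Not at hcon
  obtain ⟨⟨x, y, hxy, hne⟩, ⟨x', y', hxy', hne'⟩⟩ := hcon
  have hy : y ≠ 0 := by
    intro hy0
    subst hy0
    rw [zero_smul, add_zero] at hxy
    rcases smul_eq_zero.mp hxy with h0 | h0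
    · exact hne h0 rfl
    · exact hp₀0 h0
  have hy' : y' ≠ 0 := by
    intro hy0
    subst hy0
    rw [zero_smul, add_zero] at hxy'
    rcases smul_eq_zero.mp hxy' with h0 | h0
    · exact hne' h0 rfl
    · exact hp₁0 h0
  have e0 : r₀ = (-(y⁻¹ * x)) • p₀ := by
    have : y⁻¹ • (x • p₀ + y • r₀) = 0 := by rw [hxy, smul_zero]
    rw [smul_add, smul_smul, smul_smul, inv_mul_cancel₀ hy, one_smul] at this
    rw [neg_smul]
    exact eq_neg_of_add_eq_zero_right this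
  have e1 : r₁ = (-(y'⁻¹ * x')) • p₁ := by
    have : y'⁻¹ • (x' • p₁ + y' • r₁) = 0 := by rw [hxy', smul_zero]
    rw [smul_add, smul_smul, smul_smul, inv_mul_cancel₀ hy', one_smul] at this
    rw [neg_smul]
    exact eq_neg_of_add_eq_zero_right this
  apply hbS
  rw [Submodule.mem_span_pair]
  refine ⟨-(y⁻¹ * x), -(y'⁻¹ * x'), ?_⟩
  rw [← Matrix.mulVec_smul, ← Matrix.mulVec_smul, ← Matrix.mulVec_add, ← e0, ← e1, ← hr,
    gl_inv_mulVec]

theorem pair_K (hA : ∀ a ∈ A, Q a = 0) (hB : ∀ b ∈ B, Q b = 0)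
    (hdec : ∀ v, ∃ a ∈ A, ∃ b ∈ B, v = a + b)
    (hP : ∀ a ∈ A, ∀ b ∈ B, polar Q b a = 0 → sg hQ a b ∈ M)
    (hkA : 4 < Module.finrank F A) (hkB : 4 < Module.finrank F B)
    {h : Matrix.GeneralLinearGroup ι F} (hhM : h ∈ M)
    (hhi : ∀ x, Q ((h : Matrix ι ι F) *ᵥ x) = Q x) {a : ι → F} (ha : a ∈ A)
    (h1 : (h : Matrix ι ι F) *ᵥ a ∉ A) (h2 : (h : Matrix ι ι F) *ᵥ a ∉ B) :
    (∀ a₂ ∈ A, ∀ u, polar Q u a₂ = 0 → sg hQ a₂ u ∈ M) ∨
      (∀ b₂ ∈ B, ∀ u, polar Q u b₂ = 0 → sg hQ b₂ u ∈ M) := by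
  obtain ⟨p₀, hp₀, p₁, hp₁, hp⟩ := hdec ((h : Matrix ι ι F) *ᵥ a)
  have hp₀0 : p₀ ≠ 0 := by
    rintro rfl
    apply h2
    rw [hp, zero_add]; exact hp₁
  have hp₁0 : p₁ ≠ 0 := by
    rintro rfl
    apply h1
    rw [hp, add_zero]; exact hp₀
  obtain ⟨b, hb, hba, r₀, hr₀, r₁, hr₁, hr, hcase⟩ := pair_A1 hQ hdec (by omega) h a hp₀0 hp₁0
  have hm : sg hQ ((h : Matrix ι ι F) *ᵥ a) ((h : Matrix ι ι F) *ᵥ b) ∈ M := by
    rw [← sg_conj hQ h hhi (hA a ha) hba]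
    exact M.mul_mem (M.mul_mem hhM (hP a ha b hb hba)) (M.inv_mem hhM)
  have hq : Q ((h : Matrix ι ι F) *ᵥ a) = 0 := by rw [hhi, hA a ha]
  have hpol : polar Q ((h : Matrix ι ι F) *ᵥ b) ((h : Matrix ι ι F) *ᵥ a) = 0 := by
    rw [oq_polar_of_isom h hhi, hba]
  rw [hp, hr] at hm hpol
  rw [hp] at hq
  rcases hcase with hind | hind
  · left
    exact pair_G hA hB hdec hP hkA hp₀ hr₀ hp₁ hr₁ hq hpol hm hind
  · right
    have hdec' : ∀ v, ∃ b ∈ B, ∃ a ∈ A, v = b + a := by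
      intro v
      obtain ⟨x, hx, y, hy, rfl⟩ := hdec v
      exact ⟨y, hy, x, hx, add_comm _ _⟩
    have hP' : ∀ b ∈ B, ∀ a ∈ A, polar Q a b = 0 → sg hQ b a ∈ M := by
      intro b hb a ha hab
      rw [sg_symm hQ (hA a ha) (hB b hb) (by rw [oq_comm]; exact hab)]
      exact hP a ha (-b) (B.neg_mem hb) (by rw [oq_neg_left hQ, oq_comm, hab, neg_zero])
    rw [add_comm p₀ p₁, add_comm r₀ r₁] at hm hpol
    rw [add_comm p₀ p₁] at hq
    exact pair_G hB hA hdec' hP' hkB hp₁ hr₁ hp₀ hr₀ hq hpol hm hind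

/-- A pair of complementary totally singular subspaces: a subgroup containing the Siegel
transformations stabilising both, a swap, and an isometry moving the pair contains all Siegel
transformations. -/
theorem tspair_all (hA : ∀ a ∈ A, Q a = 0) (hB : ∀ b ∈ B, Q b = 0)
    (hdec : ∀ v, ∃ a ∈ A, ∃ b ∈ B, v = a + b)
    (hP : ∀ a ∈ A, ∀ b ∈ B, polar Q b a = 0 → sg hQ a b ∈ M)
    (hkA : 4 < Module.finrank F A) (hkB : 4 < Module.finrank F B)
    {s : Matrix.GeneralLinearGroup ι F} (hsM : s ∈ M)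
    (hsi : ∀ x, Q ((s : Matrix ι ι F) *ᵥ x) = Q x)
    (hsA : ∀ x ∈ A, (s : Matrix ι ι F) *ᵥ x ∈ B) (hsB : ∀ x ∈ B, (s : Matrix ι ι F) *ᵥ x ∈ A)
    {h : Matrix.GeneralLinearGroup ι F} (hhM : h ∈ M)
    (hhi : ∀ x, Q ((h : Matrix ι ι F) *ᵥ x) = Q x)
    (hns1 : ¬ ((∀ x ∈ A, (h : Matrix ι ι F) *ᵥ x ∈ A) ∧ (∀ x ∈ B, (h : Matrix ι ι F) *ᵥ x ∈ B)))
    (hns2 : ¬ ((∀ x ∈ A, (h : Matrix ι ι F) *ᵥ x ∈ B) ∧ (∀ x ∈ B, (h : Matrix ι ι F) *ᵥ x ∈ A))) :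
    ∀ w u, Q w = 0 → polar Q u w = 0 → sg hQ w u ∈ M := by
  have hdec' : ∀ v, ∃ b ∈ B, ∃ a ∈ A, v = b + a := by
    intro v
    obtain ⟨x, hx, y, hy, rfl⟩ := hdec v
    exact ⟨y, hy, x, hx, add_comm _ _⟩
  have hP' : ∀ b ∈ B, ∀ a ∈ A, polar Q a b = 0 → sg hQ b a ∈ M := by
    intro b hb a ha hab
    rw [sg_symm hQ (hA a ha) (hB b hb) (by rw [oq_comm]; exact hab)]
    exact hP a ha (-b) (B.neg_mem hb) (by rw [oq_neg_left hQ, oq_comm, hab, neg_zero])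
  have hneA : ∃ a ∈ A, a ≠ 0 := by
    by_contra hcon
    push Not at hcon
    have : A = ⊥ := (Submodule.eq_bot_iff A).mpr hcon
    rw [this, finrank_bot] at hkA
    omega
  have hneB : ∃ b ∈ B, b ≠ 0 := by
    by_contra hcon
    push Not at hcon
    have : B = ⊥ := (Submodule.eq_bot_iff B).mpr hcon
    rw [this, finrank_bot] at hkB
    omega
  have hK : (∀ a₂ ∈ A, ∀ u, polar Q u a₂ = 0 → sg hQ a₂ u ∈ M) ∨
      (∀ b₂ ∈ B, ∀ u, polar Q u b₂ = 0 → sg hQ b₂ u ∈ M) := by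
    by_cases hmA : ∃ a ∈ A, (h : Matrix ι ι F) *ᵥ a ∉ A ∧ (h : Matrix ι ι F) *ᵥ a ∉ B
    · obtain ⟨a, ha, h1, h2⟩ := hmA
      exact pair_K hA hB hdec hP hkA hkB hhM hhi ha h1 h2
    by_cases hmB : ∃ b ∈ B, (h : Matrix ι ι F) *ᵥ b ∉ B ∧ (h : Matrix ι ι F) *ᵥ b ∉ A
    · obtain ⟨b, hb, h1, h2⟩ := hmB
      exact (pair_K hB hA hdec' hP' hkB hkA hhM hhi hb h1 h2).symm
    exfalso
    push Not at hmA hmB
    have cA := Cfsg.Agent.S5657.sub_union A A B (h : Matrix ι ι F) (fun x hx => by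
      by_cases hx' : (h : Matrix ι ι F) *ᵥ x ∈ A
      · exact Or.inl hx'
      · exact Or.inr (hmA x hx hx'))
    have cB := Cfsg.Agent.S5657.sub_union B B A (h : Matrix ι ι F) (fun x hx => by
      by_cases hx' : (h : Matrix ι ι F) *ᵥ x ∈ B
      · exact Or.inl hx'
      · exact Or.inr (hmB x hx hx'))
    have hsurj : ∀ (X : Submodule F (ι → F)), (∀ x ∈ A, (h : Matrix ι ι F) *ᵥ x ∈ X) →
        (∀ x ∈ B, (h : Matrix ι ι F) *ᵥ x ∈ X) → ∀ y, y ∈ X := by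
      intro X h1 h2 y
      obtain ⟨x₀, hx₀, x₁, hx₁, hx⟩ :=
        hdec (((h⁻¹ : Matrix.GeneralLinearGroup ι F) : Matrix ι ι F) *ᵥ y)
      have : y = (h : Matrix ι ι F) *ᵥ x₀ + (h : Matrix ι ι F) *ᵥ x₁ := by
        rw [← Matrix.mulVec_add, ← hx, gl_mulVec_inv]
      rw [this]
      exact X.add_mem (h1 x₀ hx₀) (h2 x₁ hx₁)
    rcases cA with cA | cA <;> rcases cB with cB | cB
    · exact hns1 ⟨cA, cB⟩
    · obtain ⟨b, hb, hb0⟩ := hneB
      exact hb0 (ts_disj hQ hA hB hdec (hsurj A cA cB b) hb)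
    · obtain ⟨a, ha, ha0⟩ := hneA
      exact ha0 (ts_disj hQ hA hB hdec ha (hsurj B cA cB a))
    · exact hns2 ⟨cA, cB⟩
  have transfer : ∀ (X Y : Submodule F (ι → F)), (∀ x ∈ Y, Q x = 0) →
      (∀ x ∈ Y, (s : Matrix ι ι F) *ᵥ x ∈ X) →
      (∀ a₂ ∈ X, ∀ u, polar Q u a₂ = 0 → sg hQ a₂ u ∈ M) →
      (∀ b₂ ∈ Y, ∀ u, polar Q u b₂ = 0 → sg hQ b₂ u ∈ M) := by
    intro X Y hY hs hX b₂ hb₂ u hu
    have h1 := hX _ (hs b₂ hb₂) ((s : Matrix ι ι F) *ᵥ u) (by rw [oq_polar_of_isom s hsi, hu])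
    rw [← sg_conj hQ s hsi (hY b₂ hb₂) hu] at h1
    have h2 := M.mul_mem (M.mul_mem (M.inv_mem hsM) h1) hsM
    have e : s⁻¹ * (s * sg hQ b₂ u * s⁻¹) * s = sg hQ b₂ u := by group
    rwa [e] at h2
  have hboth : (∀ a₂ ∈ A, ∀ u, polar Q u a₂ = 0 → sg hQ a₂ u ∈ M) ∧
      (∀ b₂ ∈ B, ∀ u, polar Q u b₂ = 0 → sg hQ b₂ u ∈ M) := by
    rcases hK with hK | hK
    · exact ⟨hK, transfer A B hB hsB hK⟩
    · exact ⟨transfer B A hA hsA hK, hK⟩
  obtain ⟨hallA, hallB⟩ := hboth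
  intro w u hw huw
  obtain ⟨x₀, hx₀, x₁, hx₁, rfl⟩ := hdec w
  by_cases h0 : x₀ = 0
  · subst h0
    rw [zero_add] at huw ⊢
    exact hallB x₁ hx₁ u huw
  have hx01 : polar Q x₀ x₁ = 0 := by
    rw [oq_add Q, hA x₀ hx₀, hB x₁ hx₁] at hw
    linear_combination hw
  obtain ⟨b, hb, -, hbx⟩ := ts_sep hQ hA hB hdec ⊥ bot_le hx₀ (by
    rw [Submodule.mem_bot]; exact h0)
  obtain ⟨v, hv, hvx⟩ : ∃ v ∈ B, polar Q x₀ v = 1 :=
    ⟨(polar Q b x₀)⁻¹ • b, B.smul_mem _ hb, by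
      rw [hQ.polar_bilinear.smul_right, oq_comm x₀ b, inv_mul_cancel₀ hbx]⟩
  have hvx₁ : polar Q v x₁ = 0 := ts_polar hB hv hx₁
  have hgM : sg hQ x₁ v ∈ M := hallB x₁ hx₁ v hvx₁
  have hgx : (sg hQ x₁ v : Matrix ι ι F) *ᵥ x₀ = x₀ + x₁ := by
    rw [sg_mulVec hQ (hB x₁ hx₁) hvx₁, hvx, hx01]
    simp
  have hu' : polar Q (((sg hQ x₁ v)⁻¹ : Matrix.GeneralLinearGroup ι F) *ᵥ u : ι → F) x₀ = 0 := by
    rw [← oq_polar_of_isom (sg hQ x₁ v) (sg_isom hQ x₁ v), gl_mulVec_inv, hgx]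
    exact huw
  have h1 := sg_conj hQ (sg hQ x₁ v) (sg_isom hQ x₁ v) (hA x₀ hx₀) hu'
  rw [hgx, gl_mulVec_inv] at h1
  rw [← h1]
  exact M.mul_mem (M.mul_mem hgM (hallA x₀ hx₀ _ hu')) (M.inv_mem hgM)

end pair

end Cfsg.Agent.Lib.Helper6
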