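import Mathlib
import Cfsg.Prelude.Def_GeometricClasses
import Cfsg.Agent.Lib.Helper6.UQ
import Cfsg.Agent.Lib.Helper6.SubfieldGL
import Cfsg.Agent.Lib.Helper6.OForm

set_option autoImplicit false
set_option linter.unusedSectionVars false

namespace Cfsg.Agent.Lib.Helper6

open Matrix Cfsg QuadraticMap

variable {F : Type*} [Field F] {ι : Type} [Fintype ι] [DecidableEq ι]
  {σ : F ≃+* F} {f : (ι → F) → (ι → F) → F}

/-- The chart of the rational structure. -/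
def rE (F₀ : Subfield F) (P : Matrix.GeneralLinearGroup ι F) (u : ι → F₀) : ι → F :=
  (P : Matrix ι ι F) *ᵥ (fun i => (u i : F))

section chart

variable (F₀ : Subfield F) (P : Matrix.GeneralLinearGroup ι F)

theorem rE_add (u v : ι → F₀) : rE F₀ P (u + v) = rE F₀ P u + rE F₀ P v := by
  unfold rE
  rw [← Matrix.mulVec_add]
  congr 1

theorem rE_smul (c : F₀) (u : ι → F₀) : rE F₀ P (c • u) = (c : F) • rE F₀ P u := by
  unfold rE
  rw [← Matrix.mulVec_smul]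
  congr 1

theorem rE_zero : rE F₀ P 0 = 0 := by
  unfold rE
  have : (fun i => (((0 : ι → F₀) i : F₀) : F)) = 0 := by
    funext i; simp
  rw [this, Matrix.mulVec_zero]

theorem rE_injective : Function.Injective (rE F₀ P) := by
  intro u v h
  unfold rE at h
  have h1 := congrArg (fun z => ((P⁻¹ : Matrix.GeneralLinearGroup ι F) : Matrix ι ι F) *ᵥ z) h
  simp only [gl_inv_mulVec] at h1
  funext i
  exact Subtype.ext (congrFun h1 i)

theorem rE_sum {κ : Type*} (s : Finset κ) (c : κ → F₀) (w : κ → ι → F₀) :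
    rE F₀ P (∑ j ∈ s, c j • w j) = ∑ j ∈ s, (c j : F) • rE F₀ P (w j) := by
  classical
  induction s using Finset.induction_on with
  | empty => simp [rE_zero]
  | insert a s ha ih => rw [Finset.sum_insert ha, Finset.sum_insert ha, rE_add, rE_smul, ih]

variable (hfix : ∀ a : F, a ∈ F₀ ↔ σ a = a)
include hfix

theorem rE_J (u : ι → F₀) : sJ σ P (rE F₀ P u) = rE F₀ P u := by
  rw [sJ_eq_iff]
  intro i
  unfold rE
  rw [gl_inv_mulVec]
  exact (hfix _).mp (u i).2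

theorem rE_surj (v : ι → F) (hv : sJ σ P v = v) : ∃ u, rE F₀ P u = v := by
  rw [sJ_eq_iff] at hv
  refine ⟨fun i => ⟨_, (hfix _).mpr (hv i)⟩, ?_⟩
  unfold rE
  exact gl_mulVec_inv P v

end chart

section form

variable (hf : Cfsg.Geo.IsUnitaryForm σ f) (F₀ : Subfield F) (P : Matrix.GeneralLinearGroup ι F)
  (hfix : ∀ a : F, a ∈ F₀ ↔ σ a = a)
  (hsym : ∀ u v, sJ σ P u = u → sJ σ P v = v → σ (f u v) = f u v)

/-- The quadratic form `u ↦ f(u,u)` on the rational structure. -/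
def rQ (u : ι → F₀) : F₀ :=
  ⟨f (rE F₀ P u) (rE F₀ P u), (hfix _).mpr (hsym _ _ (rE_J F₀ P hfix u) (rE_J F₀ P hfix u))⟩

theorem rQ_coe (u : ι → F₀) : ((rQ F₀ P hfix hsym u : F₀) : F) = f (rE F₀ P u) (rE F₀ P u) := rfl

include hf in
theorem rQ_polar_coe (u v : ι → F₀) :
    ((polar (rQ F₀ P hfix hsym) u v : F₀) : F) = 2 * f (rE F₀ P u) (rE F₀ P v) := by
  unfold QuadraticMap.polar
  have h1 : f (rE F₀ P v) (rE F₀ P u) = f (rE F₀ P u) (rE F₀ P v) := by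
    rw [hf.herm, hsym _ _ (rE_J F₀ P hfix u) (rE_J F₀ P hfix v)]
  simp only [Subfield.coe_sub, rQ_coe, rE_add, hf.add_left, uf_add_right hf, h1]
  ring

include hf in
theorem rQ_nondeg (h2 : (2 : F) ≠ 0) :
    Cfsg.Geo.IsNondegenerateQuadraticForm (rQ F₀ P hfix hsym) := by
  have hval : ∀ u v, σ (f (rE F₀ P u) (rE F₀ P v)) = f (rE F₀ P u) (rE F₀ P v) := fun u v =>
    hsym _ _ (rE_J F₀ P hfix u) (rE_J F₀ P hfix v)
  refine ⟨fun c v => ?_, ⟨?_, ?_, ?_, ?_⟩, ?_⟩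
  · apply Subtype.ext
    rw [Subfield.coe_mul, SubmonoidClass.coe_pow, rQ_coe, rQ_coe, rE_smul, hf.smul_left,
      uf_smul_right hf, (hfix _).mp c.2]
    ring
  · intro x y v
    apply Subtype.ext
    rw [Subfield.coe_add, rQ_polar_coe hf, rQ_polar_coe hf, rQ_polar_coe hf, rE_add, hf.add_left]
    ring
  · intro c x v
    apply Subtype.ext
    rw [Subfield.coe_mul, rQ_polar_coe hf, rQ_polar_coe hf, rE_smul, hf.smul_left]
    ring
  · intro v x y
    apply Subtype.ext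
    rw [Subfield.coe_add, rQ_polar_coe hf, rQ_polar_coe hf, rQ_polar_coe hf, rE_add,
      uf_add_right hf]
    ring
  · intro c v x
    apply Subtype.ext
    rw [Subfield.coe_mul, rQ_polar_coe hf, rQ_polar_coe hf, rE_smul, uf_smul_right hf,
      (hfix _).mp c.2]
    ring
  · have key : ∀ v : ι → F₀, v ≠ 0 → ∃ x, polar (rQ F₀ P hfix hsym) x v ≠ 0 := by
      intro v hv
      have hne : rE F₀ P v ≠ 0 := by
        intro h
        apply hv
        apply rE_injective F₀ P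
        rw [h, rE_zero]
      obtain ⟨ω, hω⟩ := uf_exists_not_fixed hf
      obtain ⟨⟨x, hx⟩, -⟩ := hf.nondegenerate _ hne
      obtain ⟨x₁, x₂, h1, h2', rfl⟩ := sJ_parts σ P hf.involutive ω hω x
      rw [hf.add_left, hf.smul_left] at hx
      obtain ⟨w₁, rfl⟩ := rE_surj F₀ P hfix x₁ h1
      obtain ⟨w₂, rfl⟩ := rE_surj F₀ P hfix x₂ h2'
      by_cases h0 : f (rE F₀ P w₁) (rE F₀ P v) = 0
      · refine ⟨w₂, fun h => ?_⟩
        have h3 := congrArg (fun z : F₀ => (z : F)) h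
        simp only [rQ_polar_coe hf, Subfield.coe_zero] at h3
        have h4 := (mul_eq_zero.mp h3).resolve_left h2
        apply hx
        rw [h0, h4]; ring
      · refine ⟨w₁, fun h => ?_⟩
        have h3 := congrArg (fun z : F₀ => (z : F)) h
        simp only [rQ_polar_coe hf, Subfield.coe_zero] at h3
        exact h0 ((mul_eq_zero.mp h3).resolve_left h2)
    intro v hv
    obtain ⟨x, hx⟩ := key v hv
    exact ⟨⟨x, hx⟩, ⟨x, by rw [oq_comm]; exact hx⟩⟩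

include hf in
theorem rQ_polar_eq_zero (h2 : (2 : F) ≠ 0) (u v : ι → F₀) :
    polar (rQ F₀ P hfix hsym) u v = 0 ↔ f (rE F₀ P u) (rE F₀ P v) = 0 := by
  constructor
  · intro h
    have h3 := congrArg (fun z : F₀ => (z : F)) h
    simp only [rQ_polar_coe hf, Subfield.coe_zero] at h3
    exact (mul_eq_zero.mp h3).resolve_left h2
  · intro h
    apply Subtype.ext
    rw [rQ_polar_coe hf, h, mul_zero, Subfield.coe_zero]

theorem two_ne_zero_sub (h2 : (2 : F) ≠ 0) : (2 : F₀) ≠ 0 := by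
  intro h
  apply h2
  have := congrArg (fun z : F₀ => (z : F)) h
  have e : ((2 : F₀) : F) = 2 := by norm_cast
  simp only [e, Subfield.coe_zero] at this
  exact this

theorem notMem_span_of_rE {k : ℕ} (w : Fin k → ι → F₀) (b : ι → F₀)
    (h : rE F₀ P b ∉ Submodule.span F (Set.range (fun i => rE F₀ P (w i)))) :
    b ∉ Submodule.span F₀ (Set.range w) := by
  intro hmem
  apply h
  obtain ⟨c, hc⟩ := (Submodule.mem_span_range_iff_exists_fun F₀).mp hmem
  rw [Submodule.mem_span_range_iff_exists_fun]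
  refine ⟨fun i => (c i : F), ?_⟩
  rw [← hc, rE_sum]

variable [Finite F] (h2 : (2 : F) ≠ 0)
include hf hfix hsym h2

theorem rat_exists_ns {k : ℕ} (hk : 2 * k < Fintype.card ι) (x : Fin k → ι → F)
    (hx : ∀ i, sJ σ P (x i) = x i) :
    ∃ c, sJ σ P c = c ∧ f c c ≠ 0 ∧ ∀ i, f c (x i) = 0 := by
  have hQ := rQ_nondeg hf F₀ P hfix hsym h2
  choose w hw using fun i => rE_surj F₀ P hfix (x i) (hx i)
  obtain ⟨c, hc, hc'⟩ := oq_exists_ns hQ hk (fun i => oPhi (rQ F₀ P hfix hsym) (w i))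
  refine ⟨rE F₀ P c, rE_J F₀ P hfix c, ?_, fun i => ?_⟩
  · intro h
    apply hc'
    apply Subtype.ext
    rw [rQ_coe, h, Subfield.coe_zero]
  · rw [← hw i, ← rQ_polar_eq_zero hf F₀ P hfix hsym h2, ← oPhi_dot hQ]
    exact hc i

theorem rat_exists_value {k : ℕ} (hk : 2 * (k + 1) < Fintype.card ι) (x : Fin k → ι → F)
    (hx : ∀ i, sJ σ P (x i) = x i) (t : F) (ht : σ t = t) :
    ∃ c, sJ σ P c = c ∧ f c c = t ∧ ∀ i, f c (x i) = 0 := by
  have hQ := rQ_nondeg hf F₀ P hfix hsym h2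
  choose w hw using fun i => rE_surj F₀ P hfix (x i) (hx i)
  obtain ⟨c, hc, hc'⟩ := oq_exists_value hQ (two_ne_zero_sub F₀ h2) hk
    (fun i => oPhi (rQ F₀ P hfix hsym) (w i)) ⟨t, (hfix t).mpr ht⟩
  refine ⟨rE F₀ P c, rE_J F₀ P hfix c, ?_, fun i => ?_⟩
  · have := congrArg (fun z : F₀ => (z : F)) hc'
    simpa only [rQ_coe] using this
  · rw [← hw i, ← rQ_polar_eq_zero hf F₀ P hfix hsym h2, ← oPhi_dot hQ]
    exact hc i

theorem rat_exists₂ {k : ℕ} (hk : 2 * (k + 3) < Fintype.card ι) (x : Fin k → ι → F)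
    (hx : ∀ i, sJ σ P (x i) = x i) (b₁ b₂ : ι → F) (hb₁ : sJ σ P b₁ = b₁) (hb₂ : sJ σ P b₂ = b₂)
    (hn₁ : b₁ ∉ Submodule.span F (Set.range x)) (hn₂ : b₂ ∉ Submodule.span F (Set.range x)) :
    ∃ c, sJ σ P c = c ∧ f c c ≠ 0 ∧ (∀ i, f c (x i) = 0) ∧ f c b₁ ≠ 0 ∧ f c b₂ ≠ 0 := by
  have hQ := rQ_nondeg hf F₀ P hfix hsym h2
  choose w hw using fun i => rE_surj F₀ P hfix (x i) (hx i)
  obtain ⟨w₁, rfl⟩ := rE_surj F₀ P hfix b₁ hb₁
  obtain ⟨w₂, rfl⟩ := rE_surj F₀ P hfix b₂ hb₂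
  have hxw : x = fun i => rE F₀ P (w i) := by funext i; exact (hw i).symm
  rw [hxw] at hn₁ hn₂
  obtain ⟨c, hc, hcx, hc1, hc2⟩ := oq_exists₂ hQ hk w w₁ w₂ (notMem_span_of_rE F₀ P w w₁ hn₁)
    (notMem_span_of_rE F₀ P w w₂ hn₂)
  refine ⟨rE F₀ P c, rE_J F₀ P hfix c, ?_, fun i => ?_, ?_, ?_⟩
  · intro h
    apply hc
    apply Subtype.ext
    rw [rQ_coe, h, Subfield.coe_zero]
  · rw [← hw i, ← rQ_polar_eq_zero hf F₀ P hfix hsym h2]
    exact hcx i
  · rw [Ne, ← rQ_polar_eq_zero hf F₀ P hfix hsym h2]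
    exact hc1
  · rw [Ne, ← rQ_polar_eq_zero hf F₀ P hfix hsym h2]
    exact hc2

theorem rat_separate {k : ℕ} (x : Fin k → ι → F) (hx : ∀ i, sJ σ P (x i) = x i) (b : ι → F)
    (hb : sJ σ P b = b) (hn : b ∉ Submodule.span F (Set.range x)) :
    ∃ c, sJ σ P c = c ∧ (∀ i, f c (x i) = 0) ∧ f c b ≠ 0 := by
  have hQ := rQ_nondeg hf F₀ P hfix hsym h2
  choose w hw using fun i => rE_surj F₀ P hfix (x i) (hx i)
  obtain ⟨w₁, rfl⟩ := rE_surj F₀ P hfix b hb
  have hxw : x = fun i => rE F₀ P (w i) := by funext i; exact (hw i).symm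
  rw [hxw] at hn
  obtain ⟨c, hcx, hc1⟩ := oq_separate hQ _ w₁ (notMem_span_of_rE F₀ P w w₁ hn)
  refine ⟨rE F₀ P c, rE_J F₀ P hfix c, fun i => ?_, ?_⟩
  · rw [← hw i, ← rQ_polar_eq_zero hf F₀ P hfix hsym h2]
    exact hcx _ (Submodule.subset_span ⟨i, rfl⟩)
  · rw [Ne, ← rQ_polar_eq_zero hf F₀ P hfix hsym h2]
    exact hc1

end form

end Cfsg.Agent.Lib.Helper6
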