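import Mathlib
import Cfsg.Prelude.Def_GeometricClasses
import Cfsg.Agent.Lib.Helper6.URat
import Cfsg.Agent.Lib.Helper6.OTsPair

set_option autoImplicit false
set_option linter.unusedSectionVars false

namespace Cfsg.Agent.Lib.Helper6

open Matrix Cfsg

variable {F : Type*} [Field F] {ι : Type} [Fintype ι] [DecidableEq ι]

/-! ### linear algebra over an arbitrary field -/

section lin

variable {k : Type*} [Field k]

theorem ex_dual (a b : ι → k) (h : a ∉ Submodule.span k {b}) :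
    ∃ u : ι → k, a ⬝ᵥ u = 1 ∧ b ⬝ᵥ u = 0 := by
  obtain ⟨w, hw0, hw1⟩ := exists_row _ a h
  exact ⟨w, by rw [dotProduct_comm]; exact hw1,
    by rw [dotProduct_comm]; exact hw0 b (Submodule.mem_span_singleton_self b)⟩

theorem ex_perp {j : ℕ} (rows : Fin j → ι → k) (S : Submodule k (ι → k))
    (h : Module.finrank k S + j < Fintype.card ι) :
    ∃ a : ι → k, (∀ i, rows i ⬝ᵥ a = 0) ∧ a ∉ S := by
  obtain ⟨a, -, ha, hS⟩ := exists_mem_notMem (⊤ : Submodule k (ι → k)) rows S (by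
    rw [finrank_top, Module.finrank_fintype_fun_eq_card]; exact h)
  exact ⟨a, ha, hS⟩

theorem ex_perp_ne {j : ℕ} (rows : Fin j → ι → k) (h : j < Fintype.card ι) :
    ∃ a : ι → k, (∀ i, rows i ⬝ᵥ a = 0) ∧ a ≠ 0 := by
  obtain ⟨a, ha, hS⟩ := ex_perp rows ⊥ (by rw [finrank_bot]; omega)
  exact ⟨a, ha, fun h0 => hS (by rw [h0]; exact Submodule.zero_mem _)⟩

theorem ex_perp_pair {j : ℕ} (rows : Fin j → ι → k) (x y : ι → k)
    (h : 2 + j < Fintype.card ι) :
    ∃ a : ι → k, (∀ i, rows i ⬝ᵥ a = 0) ∧ a ∉ Submodule.span k {x} ∧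
      a ∉ Submodule.span k {y} ∧ a ≠ 0 := by
  obtain ⟨a, ha, hS⟩ := ex_perp rows (Submodule.span k {x, y}) (by
    have := finrank_span_pair_le x y
    omega)
  refine ⟨a, ha, fun h1 => hS ?_, fun h1 => hS ?_, fun h0 => hS ?_⟩
  · exact Submodule.span_mono (by simp) h1
  · exact Submodule.span_mono (by simp) h1
  · rw [h0]; exact Submodule.zero_mem _

end lin

/-! ### commutators of transvections -/

theorem THas.comm {H : Subgroup (Matrix.GeneralLinearGroup ι F)} {v φ v' φ' : ι → F}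
    (h1 : THas H v φ) (h2 : THas H v' φ') (hφ : φ ⬝ᵥ v = 0) (hφ' : φ' ⬝ᵥ v' = 0)
    (hc : φ' ⬝ᵥ v = 0) : THas H v ((φ ⬝ᵥ v') • φ') := by
  have m1 := h1.mem hφ
  have m2 := h2.mem hφ'
  have h0 : ((φ ⬝ᵥ v') • φ') ⬝ᵥ v = 0 := by rw [smul_dotProduct, hc, smul_zero]
  apply THas_of_mem h0
  have e : glT v ((φ ⬝ᵥ v') • φ') h0 =
      glT v φ hφ * glT v' φ' hφ' * (glT v φ hφ)⁻¹ * (glT v' φ' hφ')⁻¹ := by
    rw [eq_mul_inv_iff_mul_eq, eq_mul_inv_iff_mul_eq]
    apply gl_ext_mulVec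
    intro x
    simp only [Units.val_mul, ← Matrix.mulVec_mulVec, glT_mulVec, dotProduct_add,
      dotProduct_smul, smul_dotProduct, hφ, hφ', hc, smul_eq_mul, mul_zero, add_zero]
    module
  rw [e]
  exact H.mul_mem (H.mul_mem (H.mul_mem m1 m2) (H.inv_mem m1)) (H.inv_mem m2)

/-! ### rational covectors -/

/-- The chart of the rational covectors. -/
def rC (F₀ : Subfield F) (P : Matrix.GeneralLinearGroup ι F) (w : ι → F₀) : ι → F :=
  (fun i => (w i : F)) ᵥ* ((P⁻¹ : Matrix.GeneralLinearGroup ι F) : Matrix ι ι F)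

section chart

variable (F₀ : Subfield F) (P : Matrix.GeneralLinearGroup ι F)

theorem rC_dot (w : ι → F₀) (x : ι → F) : rC F₀ P w ⬝ᵥ x =
    (fun i => (w i : F)) ⬝ᵥ (((P⁻¹ : Matrix.GeneralLinearGroup ι F) : Matrix ι ι F) *ᵥ x) := by
  unfold rC
  rw [← Matrix.dotProduct_mulVec]

theorem rC_dot_rE (w u : ι → F₀) : rC F₀ P w ⬝ᵥ rE F₀ P u = ((w ⬝ᵥ u : F₀) : F) := by
  rw [rC_dot]
  unfold rE
  rw [gl_inv_mulVec]
  simp [dotProduct]

theorem rC_add (u v : ι → F₀) : rC F₀ P (u + v) = rC F₀ P u + rC F₀ P v := by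
  unfold rC
  rw [← Matrix.add_vecMul]
  congr 1

theorem rC_smul (c : F₀) (u : ι → F₀) : rC F₀ P (c • u) = (c : F) • rC F₀ P u := by
  unfold rC
  rw [← Matrix.smul_vecMul]
  congr 1

theorem rC_zero : rC F₀ P 0 = 0 := by
  unfold rC
  have : (fun i => (((0 : ι → F₀) i : F₀) : F)) = 0 := by
    funext i; simp
  rw [this, Matrix.zero_vecMul]

theorem rC_single_dot (i : ι) (x : ι → F) : rC F₀ P (Pi.single i 1) ⬝ᵥ x =
    (((P⁻¹ : Matrix.GeneralLinearGroup ι F) : Matrix ι ι F) *ᵥ x) i := by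
  rw [rC_dot]
  have : (fun j => (((Pi.single i 1 : ι → F₀) j : F₀) : F)) = Pi.single i 1 := by
    funext j
    by_cases h : j = i
    · subst h; simp
    · simp [h]
  rw [this, single_one_dotProduct]

theorem rat_rE (u : ι → F₀) : Rat F₀ P (rE F₀ P u) := rat_mulVec F₀ P _ (fun i => (u i).2)

theorem exists_rE_of_rat {x : ι → F} (h : Rat F₀ P x) : ∃ u, rE F₀ P u = x := by
  refine ⟨fun i => ⟨_, h i⟩, ?_⟩
  unfold rE
  exact gl_mulVec_inv P x

theorem rE_of_forall {x : ι → F} (h : ∀ w, rC F₀ P w ⬝ᵥ x ∈ F₀) : ∃ u, rE F₀ P u = x := by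
  apply exists_rE_of_rat
  intro i
  rw [← rC_single_dot F₀ P]
  exact h _

theorem rE_single (j : ι) : rE F₀ P (Pi.single j 1) = (P : Matrix ι ι F) *ᵥ Pi.single j 1 := by
  unfold rE
  congr 1
  funext i
  by_cases h : i = j
  · subst h; simp
  · simp [h]

theorem rC_of_forall {χ : ι → F} (h : ∀ u, χ ⬝ᵥ rE F₀ P u ∈ F₀) : ∃ w, rC F₀ P w = χ := by
  refine ⟨fun j => ⟨_, h (Pi.single j 1)⟩, ?_⟩
  unfold rC
  have : (fun j => χ ⬝ᵥ rE F₀ P (Pi.single j 1)) = χ ᵥ* (P : Matrix ι ι F) := by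
    funext j
    rw [rE_single, Matrix.dotProduct_mulVec, dotProduct_single_one]
  simp only [this]
  rw [Matrix.vecMul_vecMul, ← Units.val_mul, mul_inv_cancel, Units.val_one, Matrix.vecMul_one]

theorem rE_ne_zero {u : ι → F₀} (h : u ≠ 0) : rE F₀ P u ≠ 0 := by
  intro h0
  apply h
  apply rE_injective F₀ P
  rw [h0, rE_zero]

theorem rC_injective : Function.Injective (rC F₀ P) := by
  intro u v h
  funext i
  have h1 := congrArg (fun z => z ⬝ᵥ rE F₀ P (Pi.single i 1)) h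
  simp only [rC_dot_rE, dotProduct_single_one] at h1
  exact Subtype.ext h1

theorem rC_ne_zero {u : ι → F₀} (h : u ≠ 0) : rC F₀ P u ≠ 0 := by
  intro h0
  apply h
  apply rC_injective F₀ P
  rw [h0, rC_zero]

/-- a vector killed by all rational covectors vanishing at `u` is a multiple of `u`. -/
theorem eq_smul_of_perp {u : ι → F₀} (hu : u ≠ 0) {x : ι → F}
    (h : ∀ w : ι → F₀, w ⬝ᵥ u = 0 → rC F₀ P w ⬝ᵥ x = 0) : ∃ c : F, x = c • rE F₀ P u := by
  obtain ⟨k, hk⟩ : ∃ k, u k ≠ 0 := by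
    by_contra hcon
    push Not at hcon
    exact hu (funext hcon)
  have hk' : ((u k : F₀) : F) ≠ 0 := by
    intro h0
    exact hk (Subtype.ext h0)
  obtain ⟨z, hz⟩ : ∃ z, z = ((P⁻¹ : Matrix.GeneralLinearGroup ι F) : Matrix ι ι F) *ᵥ x := ⟨_, rfl⟩
  have key : ∀ j, z j = (z k / (u k : F)) * (u j : F) := by
    intro j
    have h1 := h (Pi.single j 1 - (u j / u k) • Pi.single k 1) (by
      rw [sub_dotProduct, smul_dotProduct, single_one_dotProduct, single_one_dotProduct,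
        smul_eq_mul, div_mul_cancel₀ _ hk, sub_self])
    rw [sub_eq_add_neg, ← neg_smul, rC_add, rC_smul, add_dotProduct, smul_dotProduct,
      rC_single_dot, rC_single_dot, ← hz] at h1
    simp only [smul_eq_mul, Subfield.coe_neg, Subfield.coe_div] at h1
    field_simp
    field_simp at h1
    linear_combination h1
  refine ⟨z k / (u k : F), ?_⟩
  unfold rE
  rw [← Matrix.mulVec_smul]
  have : (z k / (u k : F)) • (fun i => ((u i : F₀) : F)) = z := by
    funext j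
    rw [Pi.smul_apply, smul_eq_mul, key j]
  rw [this, hz, gl_mulVec_inv]

/-- rational transvections lie in the subfield group. -/
theorem glT_rat_mem (u w : ι → F₀) (h' : rC F₀ P w ⬝ᵥ rE F₀ P u = 0) :
    glT (rE F₀ P u) (rC F₀ P w) h' ∈
      Cfsg.Geo.subfieldSubgroup F₀ P ⊓ Cfsg.Geo.specialLinear ι F := by
  refine Subgroup.mem_inf.mpr ⟨?_, glT_mem_SL _ _ _⟩
  apply mem_subfieldSubgroup_of F₀ P _ 1 one_ne_zero
  intro x hx
  obtain ⟨y, rfl⟩ := exists_rE_of_rat F₀ P hx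
  rw [inv_one, one_smul, glT_mulVec, rC_dot_rE, ← rE_smul, ← rE_add]
  exact rat_rE F₀ P _

theorem THas_rat {M : Subgroup (Matrix.GeneralLinearGroup ι F)}
    (hM : Cfsg.Geo.subfieldSubgroup F₀ P ⊓ Cfsg.Geo.specialLinear ι F ≤ M) (u w : ι → F₀)
    (h : w ⬝ᵥ u = 0) : THas M (rE F₀ P u) (rC F₀ P w) := by
  have h' : rC F₀ P w ⬝ᵥ rE F₀ P u = 0 := by rw [rC_dot_rE, h]; rfl
  exact THas_of_mem h' (hM (glT_rat_mem F₀ P u w h'))

end chart

end Cfsg.Agent.Lib.Helper6
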