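import Mathlib
import Cfsg.Agent.Lib.Helper6.OTsPair
import Cfsg.Agent.Lib.Helper6.SubRat

set_option autoImplicit false
set_option linter.unusedSectionVars false

namespace Cfsg.Agent.Lib.Helper6

open Matrix Cfsg QuadraticMap

variable {F : Type*} [Field F] {ι : Type} [Fintype ι] [DecidableEq ι] {Q : (ι → F) → F}

/-- a singular vector orthogonal to few vectors and not orthogonal to another one. -/
theorem ex_sing [Finite F] (hQ : Cfsg.Geo.IsNondegenerateQuadraticForm Q) {k : ℕ}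
    (hk : 2 * k + 3 ≤ Fintype.card ι) (a : Fin k → ι → F) (p : ι → F)
    (hp : p ∉ Submodule.span F (Set.range a)) :
    ∃ s, Q s = 0 ∧ (∀ i, polar Q s (a i) = 0) ∧ polar Q s p ≠ 0 := by
  have hfr : Module.finrank F (Submodule.span F (Set.range a)) ≤ k := by
    have := finrank_range_le_card (R := F) a
    simpa [Set.finrank] using this
  obtain ⟨e, f, hpair, he, hf⟩ := Cfsg.Agent.Lib.Helper16.exists_hpair_orth (toQF_nondeg hQ)
    (Submodule.span F (Set.range a)) (by
      rw [Module.finrank_fintype_fun_eq_card]; omega)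
  obtain ⟨x, hxa, hxp⟩ := oq_separate hQ _ p hp
  let X : Submodule F (ι → F) :=
    LinearMap.BilinForm.orthogonal (QuadraticMap.polarBilin (toQF hQ))
      (Submodule.span F (Set.range a))
  have hmem : ∀ z, z ∈ X ↔ ∀ y ∈ Submodule.span F (Set.range a), polar Q y z = 0 := by
    intro z
    exact LinearMap.BilinForm.mem_orthogonal_iff
  obtain ⟨s, hsX, hs0, hsp⟩ := Cfsg.Agent.Lib.Helper16.exists_sing_of_functional hpair X
    ((hmem e).mpr he) ((hmem f).mpr hf) (QuadraticMap.polarBilin (toQF hQ) p) x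
    ((hmem x).mpr (fun y hy => by rw [oq_comm]; exact hxa y hy))
    (by
      show polar Q p x ≠ 0
      rw [oq_comm]; exact hxp)
  refine ⟨s, hs0, fun i => ?_, ?_⟩
  · rw [oq_comm]
    exact (hmem s).mp hsX _ (Submodule.subset_span ⟨i, rfl⟩)
  · rw [oq_comm]
    exact hsp

/-- The data of a quadratic extension field acting on a quadratic space, with the adjoint
inducing the non-trivial automorphism. -/
structure KData (Q : (ι → F) → F) (J : Matrix ι ι F) (t N : F) : Prop where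
  adj : ∀ u v, polar Q (J *ᵥ u) v = t * polar Q u v - polar Q u (J *ᵥ v)
  norm : ∀ v, Q (J *ᵥ v) = N * Q v
  tr : ∀ v, polar Q v (J *ᵥ v) = t * Q v
  sq : ∀ v, J *ᵥ (J *ᵥ v) = t • (J *ᵥ v) - N • v
  aniso : ∀ x y : F, x ^ 2 + t * x * y + N * y ^ 2 = 0 → x = 0 ∧ y = 0

namespace KData

variable {J : Matrix ι ι F} {t N : F} (D : KData Q J t N)
  (hQ : Cfsg.Geo.IsNondegenerateQuadraticForm Q)
include D

theorem polarJJ (u v : ι → F) : polar Q (J *ᵥ u) (J *ᵥ v) = N * polar Q u v := by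
  unfold QuadraticMap.polar
  rw [← Matrix.mulVec_add, D.norm, D.norm, D.norm]; ring

theorem adj' (u v : ι → F) : polar Q u (J *ᵥ v) = t * polar Q u v - polar Q (J *ᵥ u) v := by
  rw [D.adj]; ring

theorem no_eigen {v : ι → F} {c : F} (h : J *ᵥ v = c • v) : v = 0 := by
  by_contra hv
  have h1 := D.sq v
  rw [h, Matrix.mulVec_smul, h] at h1
  have h2 : (c ^ 2 + t * c * (-1) + N * (-1) ^ 2) • v = 0 := by
    have : (c ^ 2 + t * c * (-1) + N * (-1) ^ 2) • v = c • c • v - (t • c • v - N • v) := by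
      module
    rw [this, h1, sub_self]
  rcases smul_eq_zero.mp h2 with h3 | h3
  · have := (D.aniso c (-1) h3).2
    exact one_ne_zero (neg_eq_zero.mp this)
  · exact hv h3

theorem comb_eq_zero {v : ι → F} (hv : v ≠ 0) {x y : F} (h : x • v + y • J *ᵥ v = 0) :
    x = 0 ∧ y = 0 := by
  by_cases hy : y = 0
  · subst hy
    rw [zero_smul, add_zero] at h
    exact ⟨(smul_eq_zero.mp h).resolve_right hv, rfl⟩
  · exfalso
    apply hv
    apply D.no_eigen (c := -(y⁻¹ * x))
    have : J *ᵥ v = y⁻¹ • (x • v + y • J *ᵥ v) - (y⁻¹ * x) • v := by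
      rw [smul_add, smul_smul, smul_smul, inv_mul_cancel₀ hy, one_smul]; abel
    rw [this, h, smul_zero, zero_sub, neg_smul]

/-- the `K`-line spanned by a vector. -/
def Ksp (J : Matrix ι ι F) (v : ι → F) : Submodule F (ι → F) :=
  Submodule.span F {v, J *ᵥ v}

omit D in
theorem mem_Ksp {v z : ι → F} : z ∈ Ksp J v ↔ ∃ x y : F, x • v + y • J *ᵥ v = z :=
  Submodule.mem_span_pair

theorem J_mem_Ksp {v z : ι → F} (h : z ∈ Ksp J v) : J *ᵥ z ∈ Ksp J v := by
  obtain ⟨x, y, rfl⟩ := mem_Ksp.mp h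
  rw [mem_Ksp]
  refine ⟨-(y * N), x + y * t, ?_⟩
  rw [Matrix.mulVec_add, Matrix.mulVec_smul, Matrix.mulVec_smul, D.sq]
  module

/-- `K`-lines are closed under division. -/
theorem Kinv {v e : ι → F} {x y : F} (h : x • v + y • J *ᵥ v ∈ Ksp J e) (hxy : ¬ (x = 0 ∧ y = 0)) :
    v ∈ Ksp J e := by
  have hn : x ^ 2 + t * x * y + N * y ^ 2 ≠ 0 := fun h0 => hxy (D.aniso x y h0)
  have h1 := D.J_mem_Ksp h
  have h2 : (x ^ 2 + t * x * y + N * y ^ 2) • v =
      (x + t * y) • (x • v + y • J *ᵥ v) - y • J *ᵥ (x • v + y • J *ᵥ v) := by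
    rw [Matrix.mulVec_add, Matrix.mulVec_smul, Matrix.mulVec_smul, D.sq]
    module
  have h3 : (x ^ 2 + t * x * y + N * y ^ 2) • v ∈ Ksp J e := by
    rw [h2]
    exact Submodule.sub_mem _ (Submodule.smul_mem _ _ h) (Submodule.smul_mem _ _ h1)
  have := Submodule.smul_mem _ (x ^ 2 + t * x * y + N * y ^ 2)⁻¹ h3
  rwa [smul_smul, inv_mul_cancel₀ hn, one_smul] at this

omit D in
theorem self_mem_Ksp (v : ι → F) : v ∈ Ksp J v := Submodule.subset_span (by simp)

theorem Ksymm {v z : ι → F} (hz : z ≠ 0) (h : z ∈ Ksp J v) : v ∈ Ksp J z := by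
  obtain ⟨x, y, hxy⟩ := mem_Ksp.mp h
  apply D.Kinv (x := x) (y := y)
  · rw [hxy]; exact self_mem_Ksp z
  · rintro ⟨rfl, rfl⟩
    apply hz
    rw [← hxy]; simp

include hQ in
theorem Q_comb (v : ι → F) (x y : F) :
    Q (x • v + y • J *ᵥ v) = (x ^ 2 + t * x * y + N * y ^ 2) * Q v := by
  rw [oq_add Q, hQ.smul, hQ.smul, D.norm, hQ.polar_bilinear.smul_left,
    hQ.polar_bilinear.smul_right, D.tr]
  ring

include hQ in
theorem N_ne_zero : N ≠ 0 := by
  intro h
  have := (D.aniso 0 1 (by rw [h]; ring)).2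
  exact one_ne_zero this

end KData

end Cfsg.Agent.Lib.Helper6
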