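import Mathlib
import Cfsg.Agent.Lib.Helper6.KStr

set_option autoImplicit false
set_option linter.unusedSectionVars false

namespace Cfsg.Agent.Lib.Helper6

open Matrix Cfsg QuadraticMap

variable {F : Type*} [Field F] {ι : Type} [Fintype ι] [DecidableEq ι] {Q : (ι → F) → F}

section tset

variable {hQ : Cfsg.Geo.IsNondegenerateQuadraticForm Q}
  {M : Subgroup (Matrix.GeneralLinearGroup ι F)}

theorem Tset_map {g : Matrix.GeneralLinearGroup ι F} (hgM : g ∈ M)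
    (hg : ∀ x, Q ((g : Matrix ι ι F) *ᵥ x) = Q x) {w u : ι → F} (hw : Q w = 0)
    (hu : u ∈ Tset hQ M w) :
    (g : Matrix ι ι F) *ᵥ u ∈ Tset hQ M ((g : Matrix ι ι F) *ᵥ w) := by
  refine ⟨by rw [oq_polar_of_isom g hg]; exact hu.1, fun c => ?_⟩
  rw [← Matrix.mulVec_smul, ← sg_conj hQ g hg hw
    (by rw [hQ.polar_bilinear.smul_left, hu.1, mul_zero])]
  exact M.mul_mem (M.mul_mem hgM (hu.2 c)) (M.inv_mem hgM)

theorem Tset_neg {w u : ι → F} (hu : u ∈ Tset hQ M w) : -u ∈ Tset hQ M w := by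
  have := Tset_smul (-1) hu
  rwa [neg_one_smul] at this

theorem Tset_sub {w u u' : ι → F} (hw : Q w = 0) (hu : u ∈ Tset hQ M w)
    (hu' : u' ∈ Tset hQ M w) : u - u' ∈ Tset hQ M w := by
  rw [sub_eq_add_neg]
  exact Tset_add hw hu (Tset_neg hu')

end tset

namespace KData

variable {J : Matrix ι ι F} {t N : F} (D : KData Q J t N)
  (hQ : Cfsg.Geo.IsNondegenerateQuadraticForm Q)
include D

theorem tau_formula {d : ι → F} (hd : Q d = 0) (c : F) (z : ι → F) :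
    (sg hQ d (c • J *ᵥ d) : Matrix ι ι F) *ᵥ z =
      z + (c * polar Q z (J *ᵥ d)) • d - (c * polar Q z d) • J *ᵥ d := by
  have h1 : polar Q (c • J *ᵥ d) d = 0 := by
    rw [hQ.polar_bilinear.smul_left, oq_comm, D.tr, hd]; ring
  rw [sg_mulVec hQ hd h1, hQ.polar_bilinear.smul_right, hQ.smul, D.norm, hd]
  module

theorem tau_comm {d : ι → F} (hd : Q d = 0) (c : F) (z : ι → F) :
    (sg hQ d (c • J *ᵥ d) : Matrix ι ι F) *ᵥ (J *ᵥ z) =
      J *ᵥ ((sg hQ d (c • J *ᵥ d) : Matrix ι ι F) *ᵥ z) := by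
  rw [D.tau_formula hQ hd, D.tau_formula hQ hd, D.polarJJ, D.adj, Matrix.mulVec_sub,
    Matrix.mulVec_add, Matrix.mulVec_smul, Matrix.mulVec_smul, D.sq]
  module

theorem E_formula {w b : ι → F} (hw : Q w = 0) (hbw : polar Q b w = 0)
    (hbJ : polar Q b (J *ᵥ w) = 0) (z : ι → F) :
    ((sg hQ w (-(J *ᵥ b)) * sg hQ (J *ᵥ w) b : Matrix.GeneralLinearGroup ι F) :
      Matrix ι ι F) *ᵥ z =
      z + (polar Q z b - Q b * polar Q z (J *ᵥ w)) • J *ᵥ w - polar Q z (J *ᵥ w) • b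
        + (-polar Q z (J *ᵥ b) + t * Q b * polar Q z (J *ᵥ w) - N * Q b * polar Q z w) • w
        + polar Q z w • J *ᵥ b := by
  have hJw : Q (J *ᵥ w) = 0 := by rw [D.norm, hw, mul_zero]
  have h1 : polar Q (-(J *ᵥ b)) w = 0 := by
    rw [oq_neg_left hQ, D.adj, hbw, hbJ]; ring
  have e1 : polar Q (J *ᵥ w) w = 0 := by rw [oq_comm, D.tr, hw, mul_zero]
  have e2 : polar Q (J *ᵥ w) (J *ᵥ b) = 0 := by rw [D.polarJJ, oq_comm, hbw, mul_zero]
  rw [Units.val_mul, ← Matrix.mulVec_mulVec, sg_mulVec hQ hJw hbJ, sg_mulVec hQ hw h1]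
  simp only [hQ.polar_bilinear.add_left, hQ.polar_bilinear.smul_left, oq_neg_right hQ,
    oq_neg hQ, D.norm, e1, e2, hbw, D.tr]
  module

theorem E_comm {w b : ι → F} (hw : Q w = 0) (hbw : polar Q b w = 0)
    (hbJ : polar Q b (J *ᵥ w) = 0) (z : ι → F) :
    ((sg hQ w (-(J *ᵥ b)) * sg hQ (J *ᵥ w) b : Matrix.GeneralLinearGroup ι F) :
      Matrix ι ι F) *ᵥ (J *ᵥ z) =
    J *ᵥ (((sg hQ w (-(J *ᵥ b)) * sg hQ (J *ᵥ w) b : Matrix.GeneralLinearGroup ι F) :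
      Matrix ι ι F) *ᵥ z) := by
  rw [D.E_formula hQ hw hbw hbJ, D.E_formula hQ hw hbw hbJ]
  simp only [D.polarJJ, D.adj z, Matrix.mulVec_sub, Matrix.mulVec_add, Matrix.mulVec_smul, D.sq]
  module

section closure

variable [Fintype F] (hn : 5 ≤ Fintype.card ι) {M : Subgroup (Matrix.GeneralLinearGroup ι F)}
  (hP : ∀ g ∈ Cfsg.Geo.omegaGL Q, (∀ z, (g : Matrix ι ι F) *ᵥ (J *ᵥ z) =
    J *ᵥ ((g : Matrix ι ι F) *ᵥ z)) → g ∈ M)
include hn hP

theorem J_mem_Tset {d : ι → F} (hd : Q d = 0) : J *ᵥ d ∈ Tset hQ M d :=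
  ⟨by rw [oq_comm, D.tr, hd, mul_zero],
    fun c => hP _ (sg_mem_omega hQ hn _ _) (D.tau_comm hQ hd c)⟩

theorem Ksp_le_Tset {d z : ι → F} (hd : Q d = 0) (hz : z ∈ Ksp J d) : z ∈ Tset hQ M d := by
  obtain ⟨x, y, rfl⟩ := mem_Ksp.mp hz
  exact Tset_add hd (Tset_smul x (Tset_self hd)) (Tset_smul y (D.J_mem_Tset hQ hn hP hd))

/-- the basic closure rule. -/
theorem rule {w u a : ι → F} (hw : Q w = 0) (hu : u ∈ Tset hQ M w) (ha : Q a = 0)
    (haw : polar Q a w = 0) (haJ : polar Q a (J *ᵥ w) = 0) :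
    polar Q u (J *ᵥ a) • a - polar Q u a • J *ᵥ a ∈ Tset hQ M w := by
  have hg := (D.J_mem_Tset hQ hn hP ha).2 1
  have h1 := Tset_map hg (sg_isom hQ _ _) hw hu
  have e1 : polar Q w (J *ᵥ a) = 0 := by
    rw [D.adj', oq_comm w a, haw, oq_comm _ a, haJ]; ring
  rw [D.tau_formula hQ ha, D.tau_formula hQ ha, e1, oq_comm w a, haw] at h1
  simp only [mul_zero, zero_smul, add_zero, sub_zero, one_mul] at h1
  have h2 := Tset_sub hw h1 hu
  have e : u + polar Q u (J *ᵥ a) • a - polar Q u a • J *ᵥ a - u =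
      polar Q u (J *ᵥ a) • a - polar Q u a • J *ᵥ a := by abel
  rwa [e] at h2

/-- a good pair makes the point full. -/
theorem claimA {w u : ι → F} (hw : Q w = 0) (hu : u ∈ Tset hQ M w)
    (hgood : polar Q u (J *ᵥ w) ≠ 0) (x : ι → F) (hx : polar Q x w = 0) : x ∈ Tset hQ M w := by
  have hJw : Q (J *ᵥ w) = 0 := by rw [D.norm, hw, mul_zero]
  have step : ∀ b, polar Q b w = 0 → polar Q b (J *ᵥ w) = 0 → b ∈ Tset hQ M w := by
    intro b hbw hbJ
    have hgM : sg hQ w (-(J *ᵥ b)) * sg hQ (J *ᵥ w) b ∈ M :=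
      hP _ (Subgroup.mul_mem _ (sg_mem_omega hQ hn _ _) (sg_mem_omega hQ hn _ _))
        (D.E_comm hQ hw hbw hbJ)
    have hgi : ∀ z, Q (((sg hQ w (-(J *ᵥ b)) * sg hQ (J *ᵥ w) b :
        Matrix.GeneralLinearGroup ι F) : Matrix ι ι F) *ᵥ z) = Q z := by
      intro z
      rw [Units.val_mul, ← Matrix.mulVec_mulVec, sg_isom hQ, sg_isom hQ]
    have h1 := Tset_map hgM hgi hw hu
    have e1 : polar Q w (J *ᵥ b) = 0 := by
      rw [D.adj', oq_comm w b, hbw, oq_comm _ b, hbJ]; ring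
    have e2 : polar Q w w = 0 := by rw [oq_polar_self hQ, hw, mul_zero]
    rw [D.E_formula hQ hw hbw hbJ, D.E_formula hQ hw hbw hbJ, D.tr, hw, oq_comm w b, hbw, e1, e2,
      hu.1] at h1
    simp only [mul_zero, zero_smul, add_zero, sub_zero, neg_zero] at h1
    -- h1 : u + c₁ • J w - β • b + c₂ • w ∈ Tset w
    have h2 := Tset_sub hw (Tset_add hw (Tset_add hw hu
      (Tset_smul (polar Q u b - Q b * polar Q u (J *ᵥ w)) (D.J_mem_Tset hQ hn hP hw)))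
      (Tset_smul (-polar Q u (J *ᵥ b) + t * Q b * polar Q u (J *ᵥ w)) (Tset_self hw))) h1
    have h3 := Tset_smul (polar Q u (J *ᵥ w))⁻¹ h2
    have e : (polar Q u (J *ᵥ w))⁻¹ • (u + (polar Q u b - Q b * polar Q u (J *ᵥ w)) • J *ᵥ w +
        (-polar Q u (J *ᵥ b) + t * Q b * polar Q u (J *ᵥ w)) • w -
        (u + (polar Q u b - Q b * polar Q u (J *ᵥ w)) • J *ᵥ w - polar Q u (J *ᵥ w) • b +
          (-polar Q u (J *ᵥ b) + t * Q b * polar Q u (J *ᵥ w)) • w)) = b := by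
      have : u + (polar Q u b - Q b * polar Q u (J *ᵥ w)) • J *ᵥ w +
        (-polar Q u (J *ᵥ b) + t * Q b * polar Q u (J *ᵥ w)) • w -
        (u + (polar Q u b - Q b * polar Q u (J *ᵥ w)) • J *ᵥ w - polar Q u (J *ᵥ w) • b +
          (-polar Q u (J *ᵥ b) + t * Q b * polar Q u (J *ᵥ w)) • w) =
          polar Q u (J *ᵥ w) • b := by abel
      rw [this, smul_smul, inv_mul_cancel₀ hgood, one_smul]
    rwa [e] at h3
  have hb := step (x - (polar Q x (J *ᵥ w) / polar Q u (J *ᵥ w)) • u)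
    (by rw [oq_sub_left hQ, hQ.polar_bilinear.smul_left, hx, hu.1]; ring)
    (by rw [oq_sub_left hQ, hQ.polar_bilinear.smul_left, div_mul_cancel₀ _ hgood, sub_self])
  have := Tset_add hw hb (Tset_smul (polar Q x (J *ᵥ w) / polar Q u (J *ᵥ w)) hu)
  rwa [sub_add_cancel] at this

end closure

end KData

end Cfsg.Agent.Lib.Helper6
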