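import Mathlib
import Cfsg.Agent.Lib.Helper6.KElem

set_option autoImplicit false
set_option linter.unusedSectionVars false

namespace Cfsg.Agent.Lib.Helper6

open Matrix Cfsg QuadraticMap

variable {F : Type*} [Field F] {ι : Type} [Fintype ι] [DecidableEq ι] {Q : (ι → F) → F}

theorem ex_sing0 [Finite F] (hQ : Cfsg.Geo.IsNondegenerateQuadraticForm Q)
    (hk : 3 ≤ Fintype.card ι) (p : ι → F) (hp : p ≠ 0) : ∃ s, Q s = 0 ∧ polar Q s p ≠ 0 := by
  obtain ⟨s, hs, -, hsp⟩ := ex_sing hQ (k := 0) (by omega) Fin.elim0 p (by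
    rw [Set.range_eq_empty, Submodule.span_empty, Submodule.mem_bot]; exact hp)
  exact ⟨s, hs, hsp⟩

namespace KData

variable {J : Matrix ι ι F} {t N : F} (D : KData Q J t N)
  (hQ : Cfsg.Geo.IsNondegenerateQuadraticForm Q)
include D

section closure

variable [Fintype F] (hn : 13 ≤ Fintype.card ι) {M : Subgroup (Matrix.GeneralLinearGroup ι F)}
  (hP : ∀ g ∈ Cfsg.Geo.omegaGL Q, (∀ z, (g : Matrix ι ι F) *ᵥ (J *ᵥ z) =
    J *ᵥ ((g : Matrix ι ι F) *ᵥ z)) → g ∈ M)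
include hn hP

theorem claimB1 {w u : ι → F} (hw : Q w = 0) (hw0 : w ≠ 0) (hu : u ∈ Tset hQ M w)
    (hbad : polar Q u (J *ᵥ w) = 0) (hQu : Q u ≠ 0) :
    ∃ y v, Q y = 0 ∧ v ∈ Tset hQ M y ∧ polar Q v (J *ᵥ y) ≠ 0 := by
  obtain ⟨x, hx, hxw⟩ := ex_sing0 hQ (by omega) w hw0
  have hg := Tset_one hu
  refine ⟨(sg hQ w u : Matrix ι ι F) *ᵥ x, (sg hQ w u : Matrix ι ι F) *ᵥ (J *ᵥ x),
    by rw [sg_isom hQ, hx], Tset_map hg (sg_isom hQ _ _) hx (D.J_mem_Tset hQ (by omega) hP hx), ?_⟩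
  have e1 : polar Q x x = 0 := by
    rw [oq_polar_self hQ, hx]; ring
  have e2 : polar Q w (J *ᵥ x) = polar Q (J *ᵥ x) w := oq_comm _ _
  have e3 : polar Q w (J *ᵥ w) = 0 := by rw [D.tr, hw, mul_zero]
  have e4 : polar Q w (J *ᵥ u) = 0 := by
    rw [D.adj', oq_comm w u, hu.1, oq_comm _ u, hbad]; ring
  have e5 : polar Q u (J *ᵥ x) = polar Q (J *ᵥ x) u := oq_comm _ _
  have key : polar Q ((sg hQ w u : Matrix ι ι F) *ᵥ (J *ᵥ x))
      (J *ᵥ ((sg hQ w u : Matrix ι ι F) *ᵥ x)) =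
      -Q u * ((polar Q (J *ᵥ x) w) ^ 2 + t * polar Q (J *ᵥ x) w * (-polar Q x w) +
        N * (-polar Q x w) ^ 2) := by
    rw [sg_mulVec hQ hw hu.1, sg_mulVec hQ hw hu.1]
    simp only [Matrix.mulVec_add, Matrix.mulVec_smul, hQ.polar_bilinear.add_left,
      hQ.polar_bilinear.add_right, hQ.polar_bilinear.smul_left, hQ.polar_bilinear.smul_right,
      D.polarJJ x, e1, e2, e3, e4, e5, hbad, D.tr u]
    ring
  rw [key]
  intro h0
  rcases mul_eq_zero.mp h0 with h1 | h1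
  · exact hQu (neg_eq_zero.mp h1)
  · exact hxw (neg_eq_zero.mp (D.aniso _ _ h1).2)

theorem claimB2 {w u : ι → F} (hw : Q w = 0) (hu : u ∈ Tset hQ M w)
    (hbad : polar Q u (J *ᵥ w) = 0) (hQu : Q u = 0) (hnK : u ∉ Ksp J w) :
    ∃ u', u' ∈ Tset hQ M w ∧ polar Q u' (J *ᵥ w) = 0 ∧ Q u' ≠ 0 := by
  have hJu : ∀ c₀ c₁ c₂ : F, c₀ • w + c₁ • J *ᵥ w + c₂ • u ≠ J *ᵥ u := by
    intro c₀ c₁ c₂ h
    apply hnK
    apply D.Kinv (x := -c₂) (y := 1)
    · rw [← h, mem_Ksp]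
      exact ⟨c₀, c₁, by module⟩
    · rintro ⟨-, h1⟩
      exact one_ne_zero h1
  obtain ⟨a, ha, haa, haJu⟩ := ex_sing hQ (k := 3) (by omega) ![w, J *ᵥ w, u] (J *ᵥ u) (by
    rw [Submodule.mem_span_range_iff_exists_fun]
    rintro ⟨c, hc⟩
    rw [Fin.sum_univ_three] at hc
    exact hJu _ _ _ hc)
  have haw : polar Q a w = 0 := haa 0
  have haJw : polar Q a (J *ᵥ w) = 0 := haa 1
  have hau : polar Q a u = 0 := haa 2
  have huJa : polar Q u (J *ᵥ a) = -polar Q a (J *ᵥ u) := by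
    rw [D.adj', oq_comm u a, hau, oq_comm _ a]; ring
  have haT : a ∈ Tset hQ M w := by
    have h1 := D.rule hQ (by omega) hP hw hu ha haw haJw
    rw [oq_comm u a, hau, zero_smul, sub_zero, huJa] at h1
    have h2 := Tset_smul (-polar Q a (J *ᵥ u))⁻¹ h1
    rwa [smul_smul, inv_mul_cancel₀ (neg_ne_zero.mpr haJu), one_smul] at h2
  have e1 : polar Q w (J *ᵥ u) = 0 := by
    rw [D.adj', oq_comm w u, hu.1, oq_comm _ u, hbad]; ring
  obtain ⟨b, hb, hbb, hba⟩ := ex_sing hQ (k := 4) (by omega)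
    ![w, J *ᵥ w, u, J *ᵥ u - a] a (by
    rw [Submodule.mem_span_range_iff_exists_fun]
    rintro ⟨c, hc⟩
    rw [Fin.sum_univ_four] at hc
    simp only [Matrix.cons_val_zero, Matrix.cons_val_one, Matrix.cons_val] at hc
    have h1 := congrArg (fun z => polar Q z (J *ᵥ u)) hc
    simp only [hQ.polar_bilinear.add_left, hQ.polar_bilinear.smul_left, oq_sub_left hQ, e1,
      D.polarJJ, oq_comm w u, hu.1, D.tr, hQu, oq_polar_self hQ] at h1
    have h2 : (1 + c 3) * polar Q a (J *ᵥ u) = 0 := by linear_combination -h1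
    have h3 : c 3 = -1 := by
      rcases mul_eq_zero.mp h2 with h | h
      · linear_combination h
      · exact absurd h haJu
    rw [h3] at hc
    apply hJu (c 0) (c 1) (c 2)
    have : c 0 • w + c 1 • J *ᵥ w + c 2 • u =
        (c 0 • w + c 1 • J *ᵥ w + c 2 • u + (-1 : F) • (J *ᵥ u - a)) + (J *ᵥ u - a) := by
      module
    rw [this, hc]; abel)
  have hbw : polar Q b w = 0 := hbb 0
  have hbJw : polar Q b (J *ᵥ w) = 0 := hbb 1
  have hbu : polar Q b u = 0 := hbb 2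
  have hb3 : polar Q b (J *ᵥ u) = polar Q b a := by
    have := hbb 3
    simp only [Matrix.cons_val] at this
    rw [oq_sub_right hQ] at this
    exact sub_eq_zero.mp this
  have h1 := D.rule hQ (by omega) hP hw haT hb hbw hbJw
  refine ⟨u + (polar Q a (J *ᵥ b) • b - polar Q a b • J *ᵥ b), Tset_add hw hu h1, ?_, ?_⟩
  · rw [hQ.polar_bilinear.add_left, oq_sub_left hQ, hQ.polar_bilinear.smul_left,
      hQ.polar_bilinear.smul_left, hbad, hbJw, D.polarJJ, hbw]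
    ring
  · have e2 : polar Q a (J *ᵥ b) • b - polar Q a b • J *ᵥ b =
        polar Q a (J *ᵥ b) • b + (-polar Q a b) • J *ᵥ b := by module
    have e3 : polar Q u (J *ᵥ b) = -polar Q b a := by
      rw [D.adj', oq_comm u b, hbu, oq_comm _ b, hb3]; ring
    rw [oq_add Q, hQu, e2, D.Q_comb hQ, hb, hQ.polar_bilinear.add_right,
      hQ.polar_bilinear.smul_right, hQ.polar_bilinear.smul_right, oq_comm u b, hbu, e3,
      oq_comm a b]
    have : 0 + (polar Q a (J *ᵥ b) ^ 2 + t * polar Q a (J *ᵥ b) * -polar Q b a +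
        N * (-polar Q b a) ^ 2) * 0 + (polar Q a (J *ᵥ b) * 0 + -polar Q b a * -polar Q b a) =
        polar Q b a ^ 2 := by ring
    rw [this]
    exact pow_ne_zero 2 hba

include hQ in
/-- a singular vector orthogonal to `d`, `d'` and outside their `K`-lines. -/
theorem ex_conn (d d' : ι → F) :
    ∃ e, Q e = 0 ∧ polar Q e d = 0 ∧ polar Q e d' = 0 ∧ e ∉ Ksp J d ∧ e ∉ Ksp J d' := by
  have hfr : Module.finrank F (Submodule.span F (Set.range ![d, d'])) ≤ 2 := by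
    have := finrank_range_le_card (R := F) ![d, d']
    simpa [Set.finrank] using this
  obtain ⟨p, hp, hpS⟩ := ex_perp
    ![oPhi Q d, oPhi Q (J *ᵥ d), oPhi Q d', oPhi Q (J *ᵥ d')]
    (Submodule.span F (Set.range ![d, d'])) (by omega)
  have hp0 : polar Q p d = 0 := by rw [← oPhi_dot hQ]; exact hp 0
  have hp1 : polar Q p (J *ᵥ d) = 0 := by rw [← oPhi_dot hQ]; exact hp 1
  have hp2 : polar Q p d' = 0 := by rw [← oPhi_dot hQ]; exact hp 2
  have hp3 : polar Q p (J *ᵥ d') = 0 := by rw [← oPhi_dot hQ]; exact hp 3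
  obtain ⟨e, he, hee, hep⟩ := ex_sing hQ (k := 2) (by omega) ![d, d'] p hpS
  refine ⟨e, he, hee 0, hee 1, fun h => hep ?_, fun h => hep ?_⟩
  · obtain ⟨x, y, rfl⟩ := mem_Ksp.mp h
    rw [hQ.polar_bilinear.add_left, hQ.polar_bilinear.smul_left, hQ.polar_bilinear.smul_left,
      oq_comm d p, hp0, oq_comm _ p, hp1]
    ring
  · obtain ⟨x, y, rfl⟩ := mem_Ksp.mp h
    rw [hQ.polar_bilinear.add_left, hQ.polar_bilinear.smul_left, hQ.polar_bilinear.smul_left,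
      oq_comm d' p, hp2, oq_comm _ p, hp3]
    ring

omit hn hP [Fintype F] in
theorem compare {ψ : Matrix ι ι F} {d e : ι → F} (hd : d ≠ 0) (he : e ∉ Ksp J d)
    {α β α' β' α'' β'' : F} (h1 : ψ *ᵥ d = α • d + β • J *ᵥ d)
    (h2 : ψ *ᵥ e = α' • e + β' • J *ᵥ e)
    (h3 : ψ *ᵥ (d + e) = α'' • (d + e) + β'' • J *ᵥ (d + e)) : α = α' ∧ β = β' := by
  rw [Matrix.mulVec_add, Matrix.mulVec_add, h1, h2] at h3
  have h4 : (α' - α'') • e + (β' - β'') • J *ᵥ e = (α'' - α) • d + (β'' - β) • J *ᵥ d := by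
    have : (α' - α'') • e + (β' - β'') • J *ᵥ e - ((α'' - α) • d + (β'' - β) • J *ᵥ d) =
        (α • d + β • J *ᵥ d + (α' • e + β' • J *ᵥ e)) -
          (α'' • (d + e) + β'' • (J *ᵥ d + J *ᵥ e)) := by module
    rw [h3, sub_self] at this
    exact sub_eq_zero.mp this
  have h5 : α' - α'' = 0 ∧ β' - β'' = 0 := by
    by_contra hc
    apply he
    apply D.Kinv _ hc
    rw [h4, mem_Ksp]
    exact ⟨_, _, rfl⟩
  rw [h5.1, h5.2, zero_smul, zero_smul, add_zero] at h4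
  have h6 := D.comb_eq_zero hd h4.symm
  constructor
  · linear_combination -h5.1 - h6.1
  · linear_combination -h5.2 - h6.2

theorem stageA {h : Matrix.GeneralLinearGroup ι F} (hhM : h ∈ M)
    (hhi : ∀ x, Q ((h : Matrix ι ι F) *ᵥ x) = Q x)
    (hall : ∀ w, w ≠ 0 → Q w = 0 → ∀ u ∈ Tset hQ M w, u ∈ Ksp J w) :
    ∃ α β : F, ∀ z, ((h⁻¹ : Matrix.GeneralLinearGroup ι F) : Matrix ι ι F) *ᵥ
      (J *ᵥ ((h : Matrix ι ι F) *ᵥ z)) = α • z + β • J *ᵥ z := by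
  obtain ⟨ψ, hψ⟩ : ∃ ψ : Matrix ι ι F, ∀ z, ψ *ᵥ z =
      ((h⁻¹ : Matrix.GeneralLinearGroup ι F) : Matrix ι ι F) *ᵥ
      (J *ᵥ ((h : Matrix ι ι F) *ᵥ z)) :=
    ⟨((h⁻¹ : Matrix.GeneralLinearGroup ι F) : Matrix ι ι F) * J * (h : Matrix ι ι F), fun z => by
      rw [← Matrix.mulVec_mulVec, ← Matrix.mulVec_mulVec]⟩
  simp only [← hψ]
  have hhi' : ∀ x, Q (((h⁻¹ : Matrix.GeneralLinearGroup ι F) : Matrix ι ι F) *ᵥ x) = Q x := by
    intro x
    rw [← hhi, gl_mulVec_inv]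
  have hK : ∀ d, d ≠ 0 → Q d = 0 → ∃ α β : F, ψ *ᵥ d = α • d + β • J *ᵥ d := by
    intro d hd0 hd
    have h1 : Q ((h : Matrix ι ι F) *ᵥ d) = 0 := by rw [hhi, hd]
    have h2 := Tset_map (M.inv_mem hhM) hhi' h1 (D.J_mem_Tset hQ (by omega) hP h1)
    rw [gl_inv_mulVec] at h2
    obtain ⟨x, y, hxy⟩ := mem_Ksp.mp (hall d hd0 hd _ h2)
    exact ⟨x, y, by rw [hψ, hxy]⟩
  obtain ⟨p₀, hp₀⟩ : ∃ p₀ : ι → F, p₀ ≠ 0 := by
    have : Nonempty ι := by
      rw [← Fintype.card_pos_iff]; omega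
    obtain ⟨i⟩ := this
    exact ⟨Pi.single i 1, by simp⟩
  obtain ⟨d₀, hd₀, hd₀p⟩ := ex_sing0 hQ (by omega) p₀ hp₀
  have hd₀0 : d₀ ≠ 0 := by
    rintro rfl
    exact hd₀p (oq_zero_left hQ _)
  obtain ⟨α, β, hαβ⟩ := hK d₀ hd₀0 hd₀
  have hsing : ∀ z, Q z = 0 → ψ *ᵥ z = α • z + β • J *ᵥ z := by
    intro z hz
    by_cases hz0 : z = 0
    · subst hz0; simp
    obtain ⟨e, he, hed, hez, heK, heK'⟩ := D.ex_conn hQ hn hP d₀ z
    have he0 : e ≠ 0 := by
      rintro rfl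
      exact heK (Submodule.zero_mem _)
    obtain ⟨α₁, β₁, h1⟩ := hK e he0 he
    obtain ⟨α₂, β₂, h2⟩ := hK z hz0 hz
    have hs1 : Q (d₀ + e) = 0 := by rw [oq_add Q, hd₀, he, oq_comm, hed]; ring
    have hs2 : Q (z + e) = 0 := by rw [oq_add Q, hz, he, oq_comm, hez]; ring
    have hne1 : d₀ + e ≠ 0 := by
      intro h0
      apply heK
      have : e = (-1 : F) • d₀ + (0 : F) • J *ᵥ d₀ := by
        rw [zero_smul, add_zero, neg_one_smul]
        exact eq_neg_of_add_eq_zero_right h0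
      rw [this, mem_Ksp]
      exact ⟨_, _, rfl⟩
    have hne2 : z + e ≠ 0 := by
      intro h0
      apply heK'
      have : e = (-1 : F) • z + (0 : F) • J *ᵥ z := by
        rw [zero_smul, add_zero, neg_one_smul]
        exact eq_neg_of_add_eq_zero_right h0
      rw [this, mem_Ksp]
      exact ⟨_, _, rfl⟩
    obtain ⟨α₃, β₃, h3⟩ := hK _ hne1 hs1
    obtain ⟨α₄, β₄, h4⟩ := hK _ hne2 hs2
    obtain ⟨c1, c2⟩ := D.compare hd₀0 heK hαβ h1 h3
    obtain ⟨c3, c4⟩ := D.compare hz0 heK' h2 h1 h4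
    rw [h2, c3, c4, c1, c2]
  refine ⟨α, β, fun z => ?_⟩
  by_contra hne
  obtain ⟨i, hi⟩ : ∃ i, (ψ *ᵥ z) i ≠ (α • z + β • J *ᵥ z) i := by
    by_contra hc
    push Not at hc
    exact hne (funext hc)
  obtain ⟨r, hr⟩ : ∃ r : ι → F, ∀ x, r ⬝ᵥ x = (ψ *ᵥ x) i - (α • x + β • J *ᵥ x) i := by
    refine ⟨ψ i - α • Pi.single i 1 - β • J i, fun x => ?_⟩
    rw [sub_dotProduct, sub_dotProduct, smul_dotProduct, smul_dotProduct, single_one_dotProduct]
    simp only [Matrix.mulVec, Pi.add_apply, Pi.smul_apply, smul_eq_mul]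
    ring
  obtain ⟨p, hp⟩ := oPhi_surj hQ r
  have hp0 : p ≠ 0 := by
    rintro rfl
    rw [oPhi_zero hQ] at hp
    have := hr z
    rw [← hp, zero_dotProduct] at this
    exact hi (sub_eq_zero.mp this.symm)
  obtain ⟨s, hs, hsp⟩ := ex_sing0 hQ (by omega) p hp0
  apply hsp
  rw [← oPhi_dot hQ, hp, hr, hsing s hs, sub_self]

theorem full_step {y z : ι → F} (hy : Q y = 0) (hy0 : y ≠ 0) (hz : Q z = 0) (hzy : z ∉ Ksp J y)
    (hfull : ∀ x, polar Q x y = 0 → x ∈ Tset hQ M y) :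
    ∀ x, polar Q x z = 0 → x ∈ Tset hQ M z := by
  obtain ⟨x, hx, hxx, hxJ⟩ := ex_sing hQ (k := 3) (by omega)
    ![y, z, J *ᵥ z - J *ᵥ y] (J *ᵥ y) (by
    rw [Submodule.mem_span_range_iff_exists_fun]
    rintro ⟨c, hc⟩
    rw [Fin.sum_univ_three] at hc
    simp only [Matrix.cons_val_zero, Matrix.cons_val_one, Matrix.cons_val] at hc
    have h1 : c 1 • z + c 2 • J *ᵥ z = (-c 0) • y + (1 + c 2) • J *ᵥ y := by
      have : c 1 • z + c 2 • J *ᵥ z - ((-c 0) • y + (1 + c 2) • J *ᵥ y) =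
          (c 0 • y + c 1 • z + c 2 • (J *ᵥ z - J *ᵥ y)) - J *ᵥ y := by module
      rw [hc, sub_self] at this
      exact sub_eq_zero.mp this
    have h2 : c 1 = 0 ∧ c 2 = 0 := by
      by_contra hcon
      apply hzy
      apply D.Kinv _ hcon
      rw [h1, mem_Ksp]
      exact ⟨_, _, rfl⟩
    rw [h2.1, h2.2, zero_smul, zero_smul, add_zero, add_zero] at h1
    have h3 := D.comb_eq_zero hy0 h1.symm
    exact one_ne_zero h3.2)
  have hxy : polar Q x y = 0 := hxx 0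
  have hxz : polar Q x z = 0 := hxx 1
  have hxJz : polar Q x (J *ᵥ z) = polar Q x (J *ᵥ y) := by
    have := hxx 2
    simp only [Matrix.cons_val] at this
    rw [oq_sub_right hQ] at this
    exact sub_eq_zero.mp this
  have h1 : y ∈ Tset hQ M x := Tset_symm hy hx (hfull x hxy)
  have h2 : polar Q y (J *ᵥ x) ≠ 0 := by
    rw [D.adj', oq_comm y x, hxy, oq_comm _ x]
    simpa using hxJ
  have hfx := D.claimA hQ (by omega) hP hx h1 h2
  have h3 : x ∈ Tset hQ M z := Tset_symm hx hz (hfx z (by rw [oq_comm]; exact hxz))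
  exact D.claimA hQ (by omega) hP hz h3 (by rw [hxJz]; exact hxJ)

theorem main (hnew : ∃ w u, w ≠ 0 ∧ Q w = 0 ∧ u ∈ Tset hQ M w ∧ u ∉ Ksp J w) :
    Cfsg.Geo.omegaGL Q ≤ M := by
  obtain ⟨w, u, hw0, hw, hu, huK⟩ := hnew
  have hgood : ∃ y v, Q y = 0 ∧ v ∈ Tset hQ M y ∧ polar Q v (J *ᵥ y) ≠ 0 := by
    by_cases h1 : polar Q u (J *ᵥ w) = 0
    · by_cases h2 : Q u = 0
      · obtain ⟨u', hu', h3, h4⟩ := D.claimB2 hQ hn hP hw hu h1 h2 huK
        exact D.claimB1 hQ hn hP hw hw0 hu' h3 h4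
      · exact D.claimB1 hQ hn hP hw hw0 hu h1 h2
    · exact ⟨w, u, hw, hu, h1⟩
  obtain ⟨y, v, hy, hv, hvy⟩ := hgood
  have hy0 : y ≠ 0 := by
    rintro rfl
    rw [Matrix.mulVec_zero, oq_zero_right hQ] at hvy
    exact hvy rfl
  have hfy := D.claimA hQ (by omega) hP hy hv hvy
  apply omegaGL_le_of_sg hQ (by omega) M
  intro z x hz hxz
  by_cases hz0 : z = 0
  · subst hz0
    have : sg hQ 0 x = 1 := by
      apply gl_ext_mulVec
      intro a
      rw [sg_mulVec hQ hz hxz, oq_zero_right hQ]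
      simp
    rw [this]
    exact M.one_mem
  · obtain ⟨e, he, -, -, heK, heK'⟩ := D.ex_conn hQ hn hP y z
    have he0 : e ≠ 0 := by
      rintro rfl
      exact heK (Submodule.zero_mem _)
    have hfe := D.full_step hQ hn hP hy hy0 he heK hfy
    have hfz := D.full_step hQ hn hP he he0 hz (fun h => heK' (D.Ksymm hz0 h)) hfe
    exact Tset_one (hfz x hxz)

end closure

end KData

end Cfsg.Agent.Lib.Helper6
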