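import Mathlib
import Cfsg.Agent.Lib.Helper6.KClaim

set_option autoImplicit false
set_option linter.unusedSectionVars false

namespace Cfsg.Agent.Lib.Helper6

open Matrix Cfsg QuadraticMap

variable {F : Type*} [Field F] {ι : Type} [Fintype ι] [DecidableEq ι] {Q : (ι → F) → F}

/-- a degree two field subalgebra is spanned by `1` and any non-scalar element. -/
theorem span_of_not_scalar [Nonempty ι] {K : Subalgebra F (Matrix ι ι F)}
    (hfr : Module.finrank F K = 2) {ω : Matrix ι ι F} (hω : ω ∈ K)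
    (hns : ∀ c : F, ω ≠ c • (1 : Matrix ι ι F)) :
    (∀ s t : F, s • (1 : Matrix ι ι F) + t • ω = 0 → s = 0 ∧ t = 0) ∧
    ∀ k ∈ K, ∃ x y : F, k = x • (1 : Matrix ι ι F) + y • ω := by
  have hli0 : ∀ s t : F, s • (1 : Matrix ι ι F) + t • ω = 0 → s = 0 ∧ t = 0 := by
    intro s t hst
    by_cases ht : t = 0
    · subst ht
      rw [zero_smul, add_zero] at hst
      exact ⟨(smul_eq_zero.mp hst).resolve_right one_ne_zero, rfl⟩
    · exfalso
      apply hns (-(t⁻¹ * s))
      have : ω = t⁻¹ • (s • (1 : Matrix ι ι F) + t • ω) - (t⁻¹ * s) • (1 : Matrix ι ι F) := by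
        rw [smul_add, smul_smul, smul_smul, inv_mul_cancel₀ ht, one_smul]; abel
      rw [this, hst, smul_zero, zero_sub, neg_smul]
  refine ⟨hli0, ?_⟩
  have hli : LinearIndependent F ![(1 : Matrix ι ι F), ω] := by
    rw [LinearIndependent.pair_iff]
    exact hli0
  have hS : Submodule.span F (Set.range ![(1 : Matrix ι ι F), ω]) ≤ Subalgebra.toSubmodule K := by
    rw [Submodule.span_le]
    rintro _ ⟨i, rfl⟩
    fin_cases i
    · exact K.one_mem
    · exact hω
  have hfr2 : Module.finrank F (Submodule.span F (Set.range ![(1 : Matrix ι ι F), ω])) = 2 := by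
    rw [finrank_span_eq_card hli]; simp
  have heq := Submodule.eq_of_le_of_finrank_eq hS (by
    rw [hfr2, Subalgebra.finrank_toSubmodule, hfr])
  intro k hk
  have hk' : k ∈ Submodule.span F (Set.range ![(1 : Matrix ι ι F), ω]) := by
    rw [heq]; exact hk
  rw [Submodule.mem_span_range_iff_exists_fun] at hk'
  obtain ⟨c, hc⟩ := hk'
  exact ⟨c 0, c 1, by rw [← hc, Fin.sum_univ_two]; rfl⟩

theorem exists_KData [Nonempty ι] (hQ : Cfsg.Geo.IsNondegenerateQuadraticForm Q)
    (K : Subalgebra F (Matrix ι ι F)) (hK : Cfsg.Geo.IsFieldSubalgebra 2 K)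
    (hac : Cfsg.Geo.IsAdjointClosedFor (polar Q) K)
    (hnsa : ¬ Cfsg.Geo.IsSelfAdjointFor (polar Q) K)
    (hsc : ∀ k ∈ K, ∃ c : F, ∀ v : ι → F, Q (k *ᵥ v) = c * Q v) :
    ∃ (J : Matrix ι ι F) (t N : F), KData Q J t N ∧ J ∈ K ∧
      ∀ k ∈ K, ∃ x y : F, k = x • (1 : Matrix ι ι F) + y • J := by
  unfold Cfsg.Geo.IsSelfAdjointFor at hnsa
  push Not at hnsa
  obtain ⟨ω, hω, u₀, v₀, huv⟩ := hnsa
  obtain ⟨ω', hω', hadj⟩ := hac ω hω
  have hns : ∀ c : F, ω ≠ c • (1 : Matrix ι ι F) := by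
    rintro c rfl
    apply huv
    rw [Matrix.smul_mulVec, Matrix.smul_mulVec, Matrix.one_mulVec, Matrix.one_mulVec,
      hQ.polar_bilinear.smul_left, hQ.polar_bilinear.smul_right]
  obtain ⟨hli, hspan⟩ := span_of_not_scalar hK.finrank_eq hω hns
  have hadj' : ∀ u v, polar Q (ω' *ᵥ u) v = polar Q u (ω *ᵥ v) := by
    intro u v
    rw [oq_comm, ← hadj, oq_comm]
  -- self-adjoint elements are scalars
  have hsa : ∀ s ∈ K, (∀ u v, polar Q (s *ᵥ u) v = polar Q u (s *ᵥ v)) →
      ∃ x : F, s = x • (1 : Matrix ι ι F) := by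
    intro s hs hss
    obtain ⟨x, y, rfl⟩ := hspan s hs
    by_cases hy : y = 0
    · subst hy
      exact ⟨x, by rw [zero_smul, add_zero]⟩
    · exfalso
      apply huv
      have := hss u₀ v₀
      simp only [Matrix.add_mulVec, Matrix.smul_mulVec, Matrix.one_mulVec,
        hQ.polar_bilinear.add_left, hQ.polar_bilinear.add_right, hQ.polar_bilinear.smul_left,
        hQ.polar_bilinear.smul_right] at this
      exact mul_left_cancel₀ hy (add_left_cancel this)
  obtain ⟨t, ht⟩ := hsa (ω + ω') (K.add_mem hω hω') (by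
    intro u v
    rw [Matrix.add_mulVec, Matrix.add_mulVec, hQ.polar_bilinear.add_left,
      hQ.polar_bilinear.add_right, hadj, hadj', add_comm])
  obtain ⟨N, hN⟩ := hsa (ω * ω') (K.mul_mem hω hω') (by
    intro u v
    rw [← Matrix.mulVec_mulVec, ← Matrix.mulVec_mulVec, hadj, hadj'])
  have hω'v : ∀ v, ω' *ᵥ v = t • v - ω *ᵥ v := by
    intro v
    have := congrArg (fun A => A *ᵥ v) ht
    simp only [Matrix.add_mulVec, Matrix.smul_mulVec, Matrix.one_mulVec] at this
    rw [← this]; abel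
  have hNv : ∀ v, ω *ᵥ (ω' *ᵥ v) = N • v := by
    intro v
    have := congrArg (fun A => A *ᵥ v) hN
    simp only [Matrix.smul_mulVec, Matrix.one_mulVec, ← Matrix.mulVec_mulVec] at this
    exact this
  have hNv' : ∀ v, ω' *ᵥ (ω *ᵥ v) = N • v := by
    intro v
    rw [Matrix.mulVec_mulVec, hK.comm ω' hω' ω hω, ← Matrix.mulVec_mulVec, hNv]
  have fadj : ∀ u v, polar Q (ω *ᵥ u) v = t * polar Q u v - polar Q u (ω *ᵥ v) := by
    intro u v
    rw [hadj, hω'v, oq_sub_right hQ, hQ.polar_bilinear.smul_right]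
  have fsq : ∀ v, ω *ᵥ (ω *ᵥ v) = t • (ω *ᵥ v) - N • v := by
    intro v
    have := hNv v
    rw [hω'v, Matrix.mulVec_sub, Matrix.mulVec_smul] at this
    rw [← this]; abel
  -- a pair with non-zero product
  obtain ⟨a₀, b₀, hab⟩ : ∃ a₀ b₀ : ι → F, polar Q a₀ b₀ ≠ 0 := by
    obtain ⟨i⟩ := (inferInstance : Nonempty ι)
    obtain ⟨⟨x, hx⟩, -⟩ := hQ.nondegenerate (Pi.single i 1) (by simp)
    exact ⟨x, _, hx⟩
  have fnorm : ∀ v, Q (ω *ᵥ v) = N * Q v := by
    obtain ⟨c, hc⟩ := hsc ω hω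
    have h1 : polar Q (ω *ᵥ a₀) (ω *ᵥ b₀) = c * polar Q a₀ b₀ := by
      unfold QuadraticMap.polar
      rw [← Matrix.mulVec_add, hc, hc, hc]; ring
    have h2 : polar Q (ω *ᵥ a₀) (ω *ᵥ b₀) = N * polar Q a₀ b₀ := by
      rw [hadj, hNv', hQ.polar_bilinear.smul_right]
    have h3 : c = N := mul_right_cancel₀ hab (h1.symm.trans h2)
    rw [← h3]; exact hc
  have ftr : ∀ v, polar Q v (ω *ᵥ v) = t * Q v := by
    obtain ⟨c, hc⟩ := hsc (1 + ω) (K.add_mem K.one_mem hω)
    have h1 : ∀ v, polar Q v (ω *ᵥ v) = (c - 1 - N) * Q v := by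
      intro v
      have := hc v
      rw [Matrix.add_mulVec, Matrix.one_mulVec, oq_add Q, fnorm] at this
      linear_combination this
    have h2 : polar Q a₀ (ω *ᵥ b₀) + polar Q b₀ (ω *ᵥ a₀) = (c - 1 - N) * polar Q a₀ b₀ := by
      have e := h1 (a₀ + b₀)
      rw [Matrix.mulVec_add, hQ.polar_bilinear.add_left, hQ.polar_bilinear.add_right,
        hQ.polar_bilinear.add_right, h1, h1, oq_add Q] at e
      linear_combination e
    have h3 : c - 1 - N = t := by
      rw [oq_comm b₀, fadj] at h2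
      apply mul_right_cancel₀ hab
      linear_combination -h2
    intro v
    rw [h1, h3]
  have faniso : ∀ x y : F, x ^ 2 + t * x * y + N * y ^ 2 = 0 → x = 0 ∧ y = 0 := by
    intro x y hxy
    have hω'eq : ω' = t • (1 : Matrix ι ι F) - ω := by rw [← ht]; abel
    have hprod : (x • (1 : Matrix ι ι F) + y • ω) * (x • (1 : Matrix ι ι F) + y • ω') = 0 := by
      have : (x • (1 : Matrix ι ι F) + y • ω) * (x • (1 : Matrix ι ι F) + y • ω') =
          (x * x) • (1 : Matrix ι ι F) + (x * y) • (ω + ω') + (y * y) • (ω * ω') := by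
        simp only [add_mul, mul_add, Matrix.smul_mul, Matrix.mul_smul, Matrix.one_mul,
          Matrix.mul_one, smul_smul, smul_add]
        rw [mul_comm y x]
        abel
      rw [this, ht, hN, smul_smul, smul_smul, ← add_smul, ← add_smul]
      have e : x * x + x * y * t + y * y * N = 0 := by linear_combination hxy
      rw [e, zero_smul]
    by_cases h0 : x • (1 : Matrix ι ι F) + y • ω = 0
    · exact hli x y h0
    · obtain ⟨z, hz, hz1⟩ := hK.inv _ (K.add_mem (K.smul_mem K.one_mem x) (K.smul_mem hω y)) h0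
      have h1 : x • (1 : Matrix ι ι F) + y • ω' = 0 := by
        have hcomm := hK.comm _ (K.add_mem (K.smul_mem K.one_mem x) (K.smul_mem hω y)) z hz
        calc x • (1 : Matrix ι ι F) + y • ω'
            = (z * (x • (1 : Matrix ι ι F) + y • ω)) * (x • (1 : Matrix ι ι F) + y • ω') := by
              rw [← hcomm, hz1, Matrix.one_mul]
          _ = 0 := by rw [Matrix.mul_assoc, hprod, Matrix.mul_zero]
      rw [hω'eq] at h1
      have h2 : (x + y * t) • (1 : Matrix ι ι F) + (-y) • ω = 0 := by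
        rw [← h1]; module
      obtain ⟨h3, h4⟩ := hli _ _ h2
      have hy : y = 0 := neg_eq_zero.mp h4
      subst hy
      exact ⟨by simpa using h3, rfl⟩
  exact ⟨ω, t, N, ⟨fadj, fnorm, ftr, fsq, faniso⟩, hω, hspan⟩

theorem mem_normalizer_of_conj {K : Subalgebra F (Matrix ι ι F)} {J : Matrix ι ι F}
    (hspan : ∀ k ∈ K, ∃ x y : F, k = x • (1 : Matrix ι ι F) + y • J)
    (g : Matrix.GeneralLinearGroup ι F)
    (h1 : (g : Matrix ι ι F) * J * ((g⁻¹ : Matrix.GeneralLinearGroup ι F) : Matrix ι ι F) ∈ K)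
    (h2 : ((g⁻¹ : Matrix.GeneralLinearGroup ι F) : Matrix ι ι F) * J * (g : Matrix ι ι F) ∈ K) :
    g ∈ Cfsg.Geo.subalgebraNormalizer K := by
  have e1 : (g : Matrix ι ι F) * ((g⁻¹ : Matrix.GeneralLinearGroup ι F) : Matrix ι ι F) = 1 :=
    Units.mul_inv g
  have e2 : ((g⁻¹ : Matrix.GeneralLinearGroup ι F) : Matrix ι ι F) * (g : Matrix ι ι F) = 1 :=
    Units.inv_mul g
  intro k
  constructor
  · intro hk
    obtain ⟨x, y, rfl⟩ := hspan k hk
    have : (g : Matrix ι ι F) * (x • (1 : Matrix ι ι F) + y • J) *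
        ((g⁻¹ : Matrix.GeneralLinearGroup ι F) : Matrix ι ι F) =
        x • (1 : Matrix ι ι F) + y • ((g : Matrix ι ι F) * J *
          ((g⁻¹ : Matrix.GeneralLinearGroup ι F) : Matrix ι ι F)) := by
      simp only [mul_add, add_mul, Matrix.mul_smul, Matrix.smul_mul, Matrix.mul_one, e1]
    rw [this]
    exact K.add_mem (K.smul_mem K.one_mem x) (K.smul_mem h1 y)
  · intro hk
    obtain ⟨x, y, hxy⟩ := hspan _ hk
    have : k = x • (1 : Matrix ι ι F) + y • (((g⁻¹ : Matrix.GeneralLinearGroup ι F) :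
        Matrix ι ι F) * J * (g : Matrix ι ι F)) := by
      have h3 : k = ((g⁻¹ : Matrix.GeneralLinearGroup ι F) : Matrix ι ι F) *
          ((g : Matrix ι ι F) * k * ((g⁻¹ : Matrix.GeneralLinearGroup ι F) : Matrix ι ι F)) *
          (g : Matrix ι ι F) := by
        simp only [Matrix.mul_assoc, e2, Matrix.mul_one]
        rw [← Matrix.mul_assoc, e2, Matrix.one_mul]
      rw [h3, hxy]
      simp only [mul_add, add_mul, Matrix.mul_smul, Matrix.smul_mul, Matrix.mul_one, e2]
    rw [this]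
    exact K.add_mem (K.smul_mem K.one_mem x) (K.smul_mem h2 y)

end Cfsg.Agent.Lib.Helper6
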