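import Mathlib
import Cfsg.Prelude.Def_GeometricClasses
import Cfsg.Agent.Lib.Helper6.SubRat

set_option autoImplicit false
set_option linter.unusedSectionVars false

namespace Cfsg.Agent.Lib.Helper6

open Matrix Cfsg

variable {F : Type*} [Field F] {ι : Type} [Fintype ι] [DecidableEq ι]

theorem notMem_span_symm {k : Type*} [Field k] {a b : ι → k} (h : a ∉ Submodule.span k {b})
    (hb : b ≠ 0) : b ∉ Submodule.span k {a} := by
  intro hmem
  obtain ⟨c, hc⟩ := Submodule.mem_span_singleton.mp hmem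
  have hc0 : c ≠ 0 := by
    rintro rfl
    rw [zero_smul] at hc
    exact hb hc.symm
  apply h
  rw [Submodule.mem_span_singleton]
  exact ⟨c⁻¹, by rw [← hc, smul_smul, inv_mul_cancel₀ hc0, one_smul]⟩

theorem THas_sum {H : Subgroup (Matrix.GeneralLinearGroup ι F)} {κ : Type*} (s : Finset κ)
    (v : ι → F) (f : κ → ι → F) (h : ∀ j ∈ s, THas H v (f j)) (h0 : ∀ j ∈ s, f j ⬝ᵥ v = 0) :
    THas H v (∑ j ∈ s, f j) := by
  classical
  induction s using Finset.induction_on with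
  | empty => simpa using THas_zero_right v
  | insert a s ha ih =>
    rw [Finset.sum_insert ha]
    exact (h a (Finset.mem_insert_self a s)).add
      (ih (fun j hj => h j (Finset.mem_insert_of_mem hj))
        (fun j hj => h0 j (Finset.mem_insert_of_mem hj))) (h0 a (Finset.mem_insert_self a s))

theorem centreSet_sum {H : Subgroup (Matrix.GeneralLinearGroup ι F)} {κ : Type*} (s : Finset κ)
    (f : κ → ι → F) (h : ∀ j ∈ s, f j ∈ centreSet H) : ∑ j ∈ s, f j ∈ centreSet H := by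
  classical
  induction s using Finset.induction_on with
  | empty => simpa using centreSet_zero
  | insert a s ha ih =>
    rw [Finset.sum_insert ha]
    exact centreSet_add (h a (Finset.mem_insert_self a s))
      (ih (fun j hj => h j (Finset.mem_insert_of_mem hj)))

section

variable (F₀ : Subfield F) (P : Matrix.GeneralLinearGroup ι F)

theorem covec_ext {φ ψ : ι → F}
    (h : ∀ i, φ ⬝ᵥ rE F₀ P (Pi.single i 1) = ψ ⬝ᵥ rE F₀ P (Pi.single i 1)) : φ = ψ := by
  have h1 : φ ᵥ* (P : Matrix ι ι F) = ψ ᵥ* (P : Matrix ι ι F) := by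
    funext i
    have := h i
    rw [rE_single, Matrix.dotProduct_mulVec, Matrix.dotProduct_mulVec, dotProduct_single_one,
      dotProduct_single_one] at this
    exact this
  have h2 := congrArg (fun z => z ᵥ* ((P⁻¹ : Matrix.GeneralLinearGroup ι F) : Matrix ι ι F)) h1
  simpa only [Matrix.vecMul_vecMul, ← Units.val_mul, mul_inv_cancel, Units.val_one,
    Matrix.vecMul_one] using h2

theorem vec_ext {x y : ι → F}
    (h : ∀ i, rC F₀ P (Pi.single i 1) ⬝ᵥ x = rC F₀ P (Pi.single i 1) ⬝ᵥ y) : x = y := by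
  have h1 : ((P⁻¹ : Matrix.GeneralLinearGroup ι F) : Matrix ι ι F) *ᵥ x =
      ((P⁻¹ : Matrix.GeneralLinearGroup ι F) : Matrix ι ι F) *ᵥ y := by
    funext i
    have := h i
    rwa [rC_single_dot, rC_single_dot] at this
  have h2 := congrArg (fun z => (P : Matrix ι ι F) *ᵥ z) h1
  simpa only [gl_mulVec_inv] using h2

theorem single_dot_single (i j : ι) :
    rC F₀ P (Pi.single i 1) ⬝ᵥ rE F₀ P (Pi.single j 1) = if i = j then 1 else 0 := by
  rw [rC_dot_rE, single_one_dotProduct]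
  by_cases h : i = j
  · subst h; simp
  · simp [h]

theorem covec_expand (φ : ι → F) :
    φ = ∑ j, (φ ⬝ᵥ rE F₀ P (Pi.single j 1)) • rC F₀ P (Pi.single j 1) := by
  apply covec_ext F₀ P
  intro i
  rw [sum_dotProduct]
  simp only [smul_dotProduct, single_dot_single, smul_eq_mul, mul_ite, mul_one, mul_zero]
  simp

theorem vec_expand (x : ι → F) :
    x = ∑ j, (rC F₀ P (Pi.single j 1) ⬝ᵥ x) • rE F₀ P (Pi.single j 1) := by
  apply vec_ext F₀ P
  intro i
  rw [dotProduct_sum]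
  simp only [dotProduct_smul, single_dot_single, smul_eq_mul, mul_ite, mul_one, mul_zero]
  simp

/-- The parameters `c` such that `M` contains all transvections `1 + c v φ` with `v`, `φ`
rational. -/
def ringSet (M : Subgroup (Matrix.GeneralLinearGroup ι F)) : Set F :=
  {c | ∀ u w : ι → F₀, w ⬝ᵥ u = 0 → THas M (rE F₀ P u) (c • rC F₀ P w)}

variable {F₀ P} {M : Subgroup (Matrix.GeneralLinearGroup ι F)}

theorem rat_dot_zero {u w : ι → F₀} (h : w ⬝ᵥ u = 0) (c : F) :
    (c • rC F₀ P w) ⬝ᵥ rE F₀ P u = 0 := by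
  rw [smul_dotProduct, rC_dot_rE, h]; simp

theorem rat_dot_zero' {u w : ι → F₀} (h : w ⬝ᵥ u = 0) : rC F₀ P w ⬝ᵥ rE F₀ P u = 0 := by
  rw [rC_dot_rE, h]; rfl

theorem rat_dot_one {u w : ι → F₀} (h : w ⬝ᵥ u = 1) : rC F₀ P w ⬝ᵥ rE F₀ P u = 1 := by
  rw [rC_dot_rE, h]; rfl

theorem ringSet_add {c c' : F} (hc : c ∈ ringSet F₀ P M) (hc' : c' ∈ ringSet F₀ P M) :
    c + c' ∈ ringSet F₀ P M := by
  intro u w h
  rw [add_smul]
  exact (hc u w h).add (hc' u w h) (rat_dot_zero h c)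

theorem ringSet_neg {c : F} (hc : c ∈ ringSet F₀ P M) : -c ∈ ringSet F₀ P M := by
  intro u w h
  rw [neg_smul]
  exact (hc u w h).neg (rat_dot_zero h c)

theorem ringSet_zero : (0 : F) ∈ ringSet F₀ P M := by
  intro u w _
  rw [zero_smul]
  exact THas_zero_right _

theorem ringSet_mul (hn : 4 ≤ Fintype.card ι) {c c' : F} (hc : c ∈ ringSet F₀ P M)
    (hc' : c' ∈ ringSet F₀ P M) : c * c' ∈ ringSet F₀ P M := by
  intro u w h
  obtain ⟨u'', hu'', hns, -, -⟩ := ex_perp_pair ![w] u u (by omega)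
  obtain ⟨w'', h1, h2⟩ := ex_dual u'' u hns
  have hwu'' : w ⬝ᵥ u'' = 0 := hu'' 0
  rw [dotProduct_comm] at h1 h2
  have t1 := hc u w'' h2
  have t2 := hc' u'' w hwu''
  have t3 := t1.comm t2 (rat_dot_zero h2 c) (rat_dot_zero hwu'' c') (rat_dot_zero h c')
  rwa [smul_dotProduct, rat_dot_one h1, smul_eq_mul, mul_one, smul_smul] at t3

variable (hM : Cfsg.Geo.subfieldSubgroup F₀ P ⊓ Cfsg.Geo.specialLinear ι F ≤ M)
include hM

theorem ringSet_of_mem {c : F} (hc : c ∈ F₀) : c ∈ ringSet F₀ P M := by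
  intro u w h
  have := THas_rat F₀ P hM u ((⟨c, hc⟩ : F₀) • w) (by rw [smul_dotProduct, h, smul_zero])
  rwa [rC_smul] at this

theorem ring_T1 {c : F} {u w w' u' : ι → F₀} (h : THas M (rE F₀ P u) (c • rC F₀ P w))
    (hwu : w ⬝ᵥ u = 0) (hw'u : w' ⬝ᵥ u = 0) (h1 : w ⬝ᵥ u' = 1) (h2 : w' ⬝ᵥ u' = 0) :
    THas M (rE F₀ P u) (c • rC F₀ P w') := by
  have t2 := THas_rat F₀ P hM u' w' h2
  have t3 := h.comm t2 (rat_dot_zero hwu c) (rat_dot_zero' h2) (rat_dot_zero' hw'u)
  rwa [smul_dotProduct, rat_dot_one h1, smul_eq_mul, mul_one] at t3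

theorem ring_T2 {c : F} {u w w' u' : ι → F₀} (h : THas M (rE F₀ P u) (c • rC F₀ P w))
    (hwu : w ⬝ᵥ u = 0) (hwu' : w ⬝ᵥ u' = 0) (h1 : w' ⬝ᵥ u = 1) (h2 : w' ⬝ᵥ u' = 0) :
    THas M (rE F₀ P u') (c • rC F₀ P w) := by
  have t1 := THas_rat F₀ P hM u' w' h2
  have t3 := t1.comm h (rat_dot_zero' h2) (rat_dot_zero hwu c) (rat_dot_zero hwu' c)
  rwa [rat_dot_one h1, one_smul] at t3

theorem ringSet_of_THas (hn : 6 ≤ Fintype.card ι) {c : F} {u₀ w₀ : ι → F₀} (hu₀ : u₀ ≠ 0)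
    (hw₀ : w₀ ≠ 0) (h0 : w₀ ⬝ᵥ u₀ = 0) (h : THas M (rE F₀ P u₀) (c • rC F₀ P w₀)) :
    c ∈ ringSet F₀ P M := by
  intro u w huw
  by_cases hu : u = 0
  · rw [hu, rE_zero]; exact THas_zero_left _
  by_cases hw : w = 0
  · rw [hw, rC_zero, smul_zero]; exact THas_zero_right _
  obtain ⟨u₁, -, hu₁a, hu₁b, hu₁0⟩ := ex_perp_pair (j := 0) Fin.elim0 u₀ u (by omega)
  obtain ⟨w₁, hw₁, hw₁a, hw₁b, hw₁0⟩ := ex_perp_pair ![u₀, u₁, u] w₀ w (by omega)
  have e0 : w₁ ⬝ᵥ u₀ = 0 := by rw [dotProduct_comm]; exact hw₁ 0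
  have e1 : w₁ ⬝ᵥ u₁ = 0 := by rw [dotProduct_comm]; exact hw₁ 1
  have e2 : w₁ ⬝ᵥ u = 0 := by rw [dotProduct_comm]; exact hw₁ 2
  obtain ⟨x₁, a1, a2⟩ := ex_dual w₀ w₁ (notMem_span_symm hw₁a hw₀)
  have s1 := ring_T1 hM h h0 e0 a1 a2
  obtain ⟨x₂, b1, b2⟩ := ex_dual u₀ u₁ (notMem_span_symm hu₁a hu₀)
  rw [dotProduct_comm] at b1 b2
  have s2 := ring_T2 hM s1 e0 e1 b1 b2
  obtain ⟨x₃, c1, c2⟩ := ex_dual u₁ u hu₁b
  rw [dotProduct_comm] at c1 c2
  have s3 := ring_T2 hM s2 e1 e2 c1 c2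
  obtain ⟨x₄, d1, d2⟩ := ex_dual w₁ w hw₁b
  exact ring_T1 hM s3 e2 huw d1 d2

/-- a transvection of `M` with rational centre. -/
theorem ringSet_of_centre (hn : 6 ≤ Fintype.card ι) {u : ι → F₀} (hu : u ≠ 0) {χ : ι → F}
    (hχ : χ ⬝ᵥ rE F₀ P u = 0) (h : THas M (rE F₀ P u) χ) (u' : ι → F₀) :
    χ ⬝ᵥ rE F₀ P u' ∈ ringSet F₀ P M := by
  obtain ⟨w', hw', hw'0⟩ := ex_perp_ne ![u, u'] (by omega)
  have e0 : w' ⬝ᵥ u = 0 := by rw [dotProduct_comm]; exact hw' 0
  have e1 : w' ⬝ᵥ u' = 0 := by rw [dotProduct_comm]; exact hw' 1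
  have t := h.comm (THas_rat F₀ P hM u' w' e1) hχ (rat_dot_zero' e1) (rat_dot_zero' e0)
  exact ringSet_of_THas hM hn hu hw'0 e0 t

/-- a transvection of `M` with rational axis. -/
theorem ringSet_of_axis (hn : 6 ≤ Fintype.card ι) {w : ι → F₀} (hw : w ≠ 0) {x : ι → F}
    (hx : rC F₀ P w ⬝ᵥ x = 0) (h : THas M x (rC F₀ P w)) (w' : ι → F₀) :
    rC F₀ P w' ⬝ᵥ x ∈ ringSet F₀ P M := by
  obtain ⟨u', hu', hu'0⟩ := ex_perp_ne ![w, w'] (by omega)
  have e0 : w ⬝ᵥ u' = 0 := hu' 0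
  have e1 : w' ⬝ᵥ u' = 0 := hu' 1
  have t := (THas_rat F₀ P hM u' w' e1).comm h (rat_dot_zero' e1) hx (rat_dot_zero' e0)
  exact ringSet_of_THas hM hn hu'0 hw e0 t

omit hM in
theorem SL_le_of_ringSet [Nontrivial ι] (h : ∀ c, c ∈ ringSet F₀ P M) :
    Cfsg.Geo.specialLinear ι F ≤ M := by
  apply specialLinear_le_of_centreSet
  have hb : ∀ k, rE F₀ P (Pi.single k 1) ∈ centreSet M := by
    intro k φ hφ
    rw [covec_expand F₀ P φ]
    apply THas_sum
    · intro j _
      by_cases hjk : j = k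
      · rw [hjk, hφ, zero_smul]; exact THas_zero_right _
      · apply h
        rw [single_one_dotProduct]
        simp [hjk]
    · intro j _
      by_cases hjk : j = k
      · rw [hjk, hφ, zero_smul, zero_dotProduct]
      · rw [smul_dotProduct, single_dot_single, if_neg hjk, smul_zero]
  intro v
  rw [vec_expand F₀ P v]
  apply centreSet_sum
  intro j _
  exact centreSet_smul (hb j) _

end

/-! ### intermediate fields -/

theorem subfield_dichotomy [Fintype F] (F₀ L : Subfield F) (h : F₀ ≤ L) (r : ℕ) (hr : r.Prime)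
    (hcard : Fintype.card F = Nat.card F₀ ^ r) : L = F₀ ∨ L = ⊤ := by
  classical
  let _ : Algebra F₀ L := (Subfield.inclusion h).toAlgebra
  have h1 : Fintype.card L = Fintype.card F₀ ^ Module.finrank F₀ L :=
    Module.card_eq_pow_finrank
  have h2 : Fintype.card F = Fintype.card L ^ Module.finrank L F :=
    Module.card_eq_pow_finrank
  rw [Nat.card_eq_fintype_card] at hcard
  rw [h1, ← pow_mul, hcard] at h2
  have h3 : r = Module.finrank F₀ L * Module.finrank L F :=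
    Nat.pow_right_injective (Fintype.one_lt_card (α := F₀)) h2
  rcases (Nat.dvd_prime hr).mp ⟨_, h3⟩ with h4 | h4
  · left
    rw [h4, pow_one] at h1
    symm
    apply SetLike.coe_injective
    apply Set.eq_of_subset_of_ncard_le h
    · rw [← Nat.card_coe_set_eq, ← Nat.card_coe_set_eq]
      show Nat.card L ≤ Nat.card F₀
      rw [Nat.card_eq_fintype_card, Nat.card_eq_fintype_card, h1]
  · right
    rw [h4] at h1
    rw [← hcard] at h1
    apply SetLike.coe_injective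
    rw [Subfield.coe_top]
    apply Set.eq_of_subset_of_ncard_le (Set.subset_univ _)
    · rw [Set.ncard_univ, ← Nat.card_coe_set_eq]
      show Nat.card F ≤ Nat.card L
      rw [Nat.card_eq_fintype_card, Nat.card_eq_fintype_card, h1]

section

variable [Fintype F] {F₀ : Subfield F} {P : Matrix.GeneralLinearGroup ι F}
  {M : Subgroup (Matrix.GeneralLinearGroup ι F)}
  (hM : Cfsg.Geo.subfieldSubgroup F₀ P ⊓ Cfsg.Geo.specialLinear ι F ≤ M)
include hM

theorem ringSet_pow (hn : 4 ≤ Fintype.card ι) {c : F} (hc : c ∈ ringSet F₀ P M) (k : ℕ) :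
    c ^ k ∈ ringSet F₀ P M := by
  induction k with
  | zero => rw [pow_zero]; exact ringSet_of_mem hM F₀.one_mem
  | succ k ih => rw [pow_succ]; exact ringSet_mul hn ih hc

/-- the parameters form a subfield. -/
def ringField (hn : 4 ≤ Fintype.card ι) : Subfield F where
  carrier := ringSet F₀ P M
  mul_mem' := fun ha hb => ringSet_mul hn ha hb
  one_mem' := ringSet_of_mem hM F₀.one_mem
  add_mem' := fun ha hb => ringSet_add ha hb
  zero_mem' := ringSet_zero
  neg_mem' := fun ha => ringSet_neg ha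
  inv_mem' := by
    intro c hc
    by_cases h0 : c = 0
    · rw [h0, _root_.inv_zero]; exact ringSet_zero
    · have h1 := FiniteField.pow_card_sub_one_eq_one c h0
      have h2 : 2 ≤ Fintype.card F := Fintype.one_lt_card
      have h3 : c⁻¹ = c ^ (Fintype.card F - 2) := by
        have h4 : c ^ (Fintype.card F - 2) * c = 1 := by
          rw [← pow_succ]
          have : Fintype.card F - 2 + 1 = Fintype.card F - 1 := by omega
          rw [this, h1]
        exact (eq_inv_of_mul_eq_one_left h4).symm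
      rw [h3]
      exact ringSet_pow hM hn hc _

theorem SL_le_of_irrational (hn : 6 ≤ Fintype.card ι) (r : ℕ) (hr : r.Prime)
    (hcard : Fintype.card F = Nat.card F₀ ^ r) {c : F} (hc : c ∈ ringSet F₀ P M) (hc' : c ∉ F₀) :
    Cfsg.Geo.specialLinear ι F ≤ M := by
  have hnt : Nontrivial ι := by
    rw [← Fintype.one_lt_card_iff_nontrivial]; omega
  have hle : F₀ ≤ ringField hM (by omega) := fun a ha => ringSet_of_mem hM ha
  rcases subfield_dichotomy F₀ (ringField hM (by omega)) hle r hr hcard with h | h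
  · exfalso
    apply hc'
    rw [← h]
    exact hc
  · apply SL_le_of_ringSet (F₀ := F₀) (P := P)
    intro a
    have : a ∈ ringField hM (by omega) := by rw [h]; trivial
    exact this

end

end Cfsg.Agent.Lib.Helper6
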