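import Mathlib
import Cfsg.Prelude.Def_GeometricClasses
import Cfsg.Agent.Lib.Helper6.SubRing
import Cfsg.Agent.Lib.Helper6.BurnsideT

set_option autoImplicit false
set_option linter.unusedSectionVars false

namespace Cfsg.Agent.Lib.Helper6

open Matrix Cfsg

variable {F : Type*} [Field F] {ι : Type} [Fintype ι] [DecidableEq ι]

theorem vecMul_inv_dot (g : Matrix.GeneralLinearGroup ι F) (φ x : ι → F) :
    (φ ᵥ* ((g⁻¹ : Matrix.GeneralLinearGroup ι F) : Matrix ι ι F)) ⬝ᵥ ((g : Matrix ι ι F) *ᵥ x) =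
      φ ⬝ᵥ x := by
  rw [← Matrix.dotProduct_mulVec, gl_inv_mulVec]

theorem vecMul_inv_dot' (g : Matrix.GeneralLinearGroup ι F) (φ x : ι → F) :
    (φ ᵥ* ((g⁻¹ : Matrix.GeneralLinearGroup ι F) : Matrix ι ι F)) ⬝ᵥ x =
      φ ⬝ᵥ (((g⁻¹ : Matrix.GeneralLinearGroup ι F) : Matrix ι ι F) *ᵥ x) := by
  rw [← Matrix.dotProduct_mulVec]

theorem gl_mulVec_ne_zero (g : Matrix.GeneralLinearGroup ι F) {x : ι → F} (hx : x ≠ 0) :
    (g : Matrix ι ι F) *ᵥ x ≠ 0 := by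
  intro h0
  apply hx
  have := gl_inv_mulVec g x
  rw [h0, Matrix.mulVec_zero] at this
  exact this.symm

section

variable {F₀ : Subfield F} {P : Matrix.GeneralLinearGroup ι F}
  {M : Subgroup (Matrix.GeneralLinearGroup ι F)}
  (hM : Cfsg.Geo.subfieldSubgroup F₀ P ⊓ Cfsg.Geo.specialLinear ι F ≤ M)
  (hn : 6 ≤ Fintype.card ι) (NW : ∀ c, c ∈ ringSet F₀ P M → c ∈ F₀)
include hM hn NW

/-- an element of `M` mapping a rational point to a rational point lies in the subfield group. -/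
theorem mem_of_map_rat {g : Matrix.GeneralLinearGroup ι F} (hg : g ∈ M) {u u₁ : ι → F₀}
    (hu : u ≠ 0) {c : F} (hc : c ≠ 0) (e : (g : Matrix ι ι F) *ᵥ rE F₀ P u = c • rE F₀ P u₁) :
    g ∈ Cfsg.Geo.subfieldSubgroup F₀ P := by
  have hu₁ : u₁ ≠ 0 := by
    rintro rfl
    rw [rE_zero, smul_zero] at e
    exact gl_mulVec_ne_zero g (rE_ne_zero F₀ P hu) e
  apply mem_subfieldSubgroup_of F₀ P g c hc
  intro x hx
  obtain ⟨y, rfl⟩ := exists_rE_of_rat F₀ P hx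
  obtain ⟨w, hw, hw0⟩ := ex_perp_ne ![u, y] (by omega)
  have e0 : w ⬝ᵥ u = 0 := by rw [dotProduct_comm]; exact hw 0
  have e1 : w ⬝ᵥ y = 0 := by rw [dotProduct_comm]; exact hw 1
  have ta := (THas_rat F₀ P hM u w e0).conj hg
  rw [e, THas_smul_iff] at ta
  have hχ : (c • (rC F₀ P w ᵥ* ((g⁻¹ : Matrix.GeneralLinearGroup ι F) : Matrix ι ι F))) ⬝ᵥ
      rE F₀ P u₁ = 0 := by
    rw [smul_dotProduct, ← dotProduct_smul, ← e, vecMul_inv_dot, rat_dot_zero' e0]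
  obtain ⟨w₂, hw₂⟩ := rC_of_forall F₀ P (fun u' => NW _ (ringSet_of_centre hM hn hu₁ hχ ta u'))
  have e3 : rC F₀ P w ᵥ* ((g⁻¹ : Matrix.GeneralLinearGroup ι F) : Matrix ι ι F) =
      c⁻¹ • rC F₀ P w₂ := by
    rw [hw₂, smul_smul, inv_mul_cancel₀ hc, one_smul]
  have hw₂0 : w₂ ≠ 0 := by
    rintro rfl
    rw [rC_zero, smul_zero] at e3
    have h1 := congrArg (fun z => z ᵥ* (g : Matrix ι ι F)) e3
    simp only [Matrix.vecMul_vecMul, ← Units.val_mul, inv_mul_cancel, Units.val_one,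
      Matrix.vecMul_one, Matrix.zero_vecMul] at h1
    exact rC_ne_zero F₀ P hw0 h1
  have tb := (THas_rat F₀ P hM y w e1).conj hg
  rw [e3, ← THas_smul_iff] at tb
  have hx0 : rC F₀ P w₂ ⬝ᵥ (c⁻¹ • ((g : Matrix ι ι F) *ᵥ rE F₀ P y)) = 0 := by
    rw [dotProduct_smul, ← smul_dotProduct, ← e3, vecMul_inv_dot, rat_dot_zero' e1]
  obtain ⟨y', hy'⟩ := rE_of_forall F₀ P (fun w' => NW _ (ringSet_of_axis hM hn hw₂0 hx0 tb w'))
  rw [← hy']
  exact rat_rE F₀ P y'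

/-- elements of `M` outside the subfield group are in general position. -/
theorem generic_of_notMem {g : Matrix.GeneralLinearGroup ι F} (hg : g ∈ M)
    (hgP : g ∉ Cfsg.Geo.subfieldSubgroup F₀ P) {u w : ι → F₀} (hu : u ≠ 0) (hw : w ≠ 0) :
    rC F₀ P w ⬝ᵥ ((g : Matrix ι ι F) *ᵥ rE F₀ P u) ≠ 0 := by
  intro h0
  obtain ⟨y, hy, hy0⟩ := ex_perp_ne ![w] (by omega)
  have hwy : w ⬝ᵥ y = 0 := hy 0
  by_cases hall : ∀ w₃ : ι → F₀, w₃ ⬝ᵥ u = 0 → rC F₀ P w₃ ⬝ᵥ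
      (((g⁻¹ : Matrix.GeneralLinearGroup ι F) : Matrix ι ι F) *ᵥ rE F₀ P y) = 0
  · obtain ⟨c, hc⟩ := eq_smul_of_perp F₀ P hu hall
    have hc0 : c ≠ 0 := by
      rintro rfl
      rw [zero_smul] at hc
      exact gl_mulVec_ne_zero g⁻¹ (rE_ne_zero F₀ P hy0) hc
    have h1 := mem_of_map_rat hM hn NW (M.inv_mem hg) hy0 hc0 hc
    exact hgP (by simpa using (Cfsg.Geo.subfieldSubgroup F₀ P).inv_mem h1)
  · push Not at hall
    obtain ⟨w₃, hw₃, hs⟩ := hall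
    have t1 := (THas_rat F₀ P hM u w₃ hw₃).conj hg
    have t2 := THas_rat F₀ P hM y w hwy
    have t3 := t1.comm t2 (by rw [vecMul_inv_dot, rat_dot_zero' hw₃]) (rat_dot_zero' hwy) h0
    rw [vecMul_inv_dot', ← THas_smul_iff] at t3
    obtain ⟨u₂, hu₂⟩ := rE_of_forall F₀ P (fun w' => NW _ (ringSet_of_axis hM hn hw
      (by rw [dotProduct_smul, h0, smul_zero]) t3 w'))
    apply hgP
    apply mem_of_map_rat hM hn NW hg hu (inv_ne_zero hs) (u₁ := u₂)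
    rw [hu₂, smul_smul, inv_mul_cancel₀ hs, one_smul]

end

end Cfsg.Agent.Lib.Helper6
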