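import Mathlib
import Cfsg.Agent.Lib.Helper6.KExtract
import Cfsg.Agent.Lib.Helper6.SpMax
import Cfsg.Agent.Lib.Helper6.SubGen

set_option autoImplicit false
set_option linter.unusedSectionVars false

namespace Cfsg.Agent.Lib.Helper6

open Matrix Cfsg QuadraticMap

variable {F : Type*} [Field F] {m : ℕ}

/-- a skew-adjoint generator of a quadratic extension field acting on the symplectic space. -/
structure SData (m : ℕ) (J : Matrix (Fin m ⊕ Fin m) (Fin m ⊕ Fin m) F) (ε : F) : Prop where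
  two : (2 : F) ≠ 0
  adj : ∀ u v, sympForm m F (J *ᵥ u) v = - sympForm m F u (J *ᵥ v)
  sq : ∀ v, J *ᵥ (J *ᵥ v) = ε • v
  aniso : ∀ x y : F, x ^ 2 - ε * y ^ 2 = 0 → x = 0 ∧ y = 0

/-- the associated quadratic form. -/
def SQ (J : Matrix (Fin m ⊕ Fin m) (Fin m ⊕ Fin m) F) (v : Fin m ⊕ Fin m → F) : F :=
  sympForm m F v (J *ᵥ v)

namespace SData

variable {J : Matrix (Fin m ⊕ Fin m) (Fin m ⊕ Fin m) F} {ε : F} (S : SData m J ε)
include S

theorem eps_ne : ε ≠ 0 := by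
  intro h
  have := (S.aniso 0 1 (by rw [h]; ring)).2
  exact one_ne_zero this

theorem sym (u v : Fin m ⊕ Fin m → F) :
    sympForm m F u (J *ᵥ v) = sympForm m F v (J *ᵥ u) := by
  rw [sympForm_swap, S.adj, neg_neg]

theorem JJ (u v : Fin m ⊕ Fin m → F) :
    sympForm m F (J *ᵥ u) (J *ᵥ v) = -(ε * sympForm m F u v) := by
  rw [S.adj, S.sq, sympForm_smul_right]

theorem polar_eq (u v : Fin m ⊕ Fin m → F) :
    polar (SQ J) u v = 2 * sympForm m F u (J *ᵥ v) := by
  unfold QuadraticMap.polar SQ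
  rw [Matrix.mulVec_add, sympForm_add_left, sympForm_add_right, sympForm_add_right, S.sym v u]
  ring

theorem J_ne_zero {v : Fin m ⊕ Fin m → F} (hv : v ≠ 0) : J *ᵥ v ≠ 0 := by
  intro h
  have := S.sq v
  rw [h, Matrix.mulVec_zero] at this
  exact hv ((smul_eq_zero.mp this.symm).resolve_left S.eps_ne)

theorem nondeg : Cfsg.Geo.IsNondegenerateQuadraticForm (SQ J) := by
  refine ⟨fun c v => ?_, ⟨fun x y v => ?_, fun c x v => ?_, fun v x y => ?_, fun c v x => ?_⟩,
    fun v hv => ?_⟩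
  · unfold SQ
    rw [Matrix.mulVec_smul, sympForm_smul_left, sympForm_smul_right]; ring
  · rw [S.polar_eq, S.polar_eq, S.polar_eq, sympForm_add_left]; ring
  · rw [S.polar_eq, S.polar_eq, sympForm_smul_left]; ring
  · rw [S.polar_eq, S.polar_eq, S.polar_eq, Matrix.mulVec_add, sympForm_add_right]; ring
  · rw [S.polar_eq, S.polar_eq, Matrix.mulVec_smul, sympForm_smul_right]; ring
  · obtain ⟨y, hy⟩ := exists_sympForm_eq_one m (J *ᵥ v) (S.J_ne_zero hv)
    have h1 : sympForm m F y (J *ᵥ v) = -1 := by rw [sympForm_swap, hy]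
    refine ⟨⟨y, ?_⟩, ⟨y, ?_⟩⟩
    · rw [S.polar_eq, h1]
      simpa using S.two
    · rw [S.polar_eq, S.sym, h1]
      simpa using S.two

theorem toKData : KData (SQ J) J 0 (-ε) := by
  refine ⟨fun u v => ?_, fun v => ?_, fun v => ?_, fun v => ?_, fun x y h => ?_⟩
  · rw [S.polar_eq, S.polar_eq, S.polar_eq, S.adj]; ring
  · unfold SQ
    rw [S.adj, S.sq, sympForm_smul_right]; ring
  · rw [S.polar_eq, S.sq, sympForm_smul_right, sympForm_self]; ring
  · rw [S.sq]; module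
  · exact S.aniso x y (by linear_combination h)

/-- isotropic vectors orthogonal (for the alternating form) to few vectors. -/
theorem ex_iso [Finite F] {k : ℕ} (hk : 2 * k + 3 ≤ 2 * m) (a : Fin k → Fin m ⊕ Fin m → F)
    (p : Fin m ⊕ Fin m → F) (hp : p ∉ Submodule.span F (Set.range a)) :
    ∃ s, sympForm m F s (J *ᵥ s) = 0 ∧ (∀ i, sympForm m F s (a i) = 0) ∧
      sympForm m F s p ≠ 0 := by
  have hε := S.eps_ne
  obtain ⟨s, hs, hsa, hsp⟩ := ex_sing S.nondeg (k := k) (by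
    rw [Fintype.card_sum, Fintype.card_fin]; omega) (fun i => J *ᵥ a i) (J *ᵥ p) (by
    rw [Submodule.mem_span_range_iff_exists_fun]
    rintro ⟨c, hc⟩
    apply hp
    rw [Submodule.mem_span_range_iff_exists_fun]
    refine ⟨c, ?_⟩
    have h1 := congrArg (fun z => J *ᵥ z) hc
    simp only [Matrix.mulVec_sum, Matrix.mulVec_smul, S.sq] at h1
    have h2 : ε • (∑ i, c i • a i) = ε • p := by
      rw [← h1, Finset.smul_sum]
      apply Finset.sum_congr rfl
      intro i _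
      rw [smul_comm]
    exact smul_right_injective _ hε h2)
  refine ⟨s, hs, fun i => ?_, fun h => hsp ?_⟩
  · have := hsa i
    rw [S.polar_eq, S.sq, sympForm_smul_right] at this
    rcases mul_eq_zero.mp this with h | h
    · exact absurd h S.two
    · exact (mul_eq_zero.mp h).resolve_left hε
  · rw [S.polar_eq, S.sq, sympForm_smul_right, h]; ring

/-- the unitary transvection. -/
def tau (m : ℕ) (J : Matrix (Fin m ⊕ Fin m) (Fin m ⊕ Fin m) F) (ε : F) (x : Fin m ⊕ Fin m → F)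
    (c : F) : Matrix.GeneralLinearGroup (Fin m ⊕ Fin m) F :=
  tvGL m (J *ᵥ x) c * tvGL m x (-(c * ε))

omit S in
theorem tau_mem (x : Fin m ⊕ Fin m → F) (c : F) : tau m J ε x c ∈ spGL m F :=
  (spGL m F).mul_mem (tvGL_mem m _ _) (tvGL_mem m _ _)

omit S in
theorem tau_formula {x : Fin m ⊕ Fin m → F} (hx : sympForm m F x (J *ᵥ x) = 0) (c : F)
    (z : Fin m ⊕ Fin m → F) :
    (tau m J ε x c : Matrix (Fin m ⊕ Fin m) (Fin m ⊕ Fin m) F) *ᵥ z =
      z + (c * sympForm m F z (J *ᵥ x)) • J *ᵥ x - (c * ε * sympForm m F z x) • x := by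
  unfold tau
  rw [Units.val_mul, ← Matrix.mulVec_mulVec, tvGL_mulVec, tvGL_mulVec, sympForm_add_left,
    sympForm_smul_left, hx]
  module

theorem tau_comm {x : Fin m ⊕ Fin m → F} (hx : sympForm m F x (J *ᵥ x) = 0) (c : F)
    (z : Fin m ⊕ Fin m → F) :
    (tau m J ε x c : Matrix (Fin m ⊕ Fin m) (Fin m ⊕ Fin m) F) *ᵥ (J *ᵥ z) =
      J *ᵥ ((tau m J ε x c : Matrix (Fin m ⊕ Fin m) (Fin m ⊕ Fin m) F) *ᵥ z) := by
  rw [tau_formula hx, tau_formula hx, Matrix.mulVec_sub, Matrix.mulVec_add, Matrix.mulVec_smul,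
    Matrix.mulVec_smul, S.sq, S.JJ, S.adj]
  module

omit S in
theorem tau_fix {x : Fin m ⊕ Fin m → F} (hx : sympForm m F x (J *ᵥ x) = 0) (c : F)
    {z : Fin m ⊕ Fin m → F} (h1 : sympForm m F z x = 0) (h2 : sympForm m F z (J *ᵥ x) = 0) :
    (tau m J ε x c : Matrix (Fin m ⊕ Fin m) (Fin m ⊕ Fin m) F) *ᵥ z = z := by
  rw [tau_formula hx, h1, h2]
  simp

section closure

variable [Fintype F] (hm : 7 ≤ m) {M : Subgroup (Matrix.GeneralLinearGroup (Fin m ⊕ Fin m) F)}
  (hP : ∀ g ∈ spGL m F, (∀ z, (g : Matrix (Fin m ⊕ Fin m) (Fin m ⊕ Fin m) F) *ᵥ (J *ᵥ z) =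
    J *ᵥ ((g : Matrix (Fin m ⊕ Fin m) (Fin m ⊕ Fin m) F) *ᵥ z)) → g ∈ M)
include hm hP

omit hm [Fintype F] in
theorem tau_mem_M {x : Fin m ⊕ Fin m → F} (hx : sympForm m F x (J *ᵥ x) = 0) (c : F) :
    tau m J ε x c ∈ M := hP _ (tau_mem x c) (S.tau_comm hx c)

omit hm [Fintype F] in
theorem stepB1 {d x : Fin m ⊕ Fin m → F} (hd : d ∈ tvSet m M)
    (hx : sympForm m F x (J *ᵥ x) = 0) (h1 : sympForm m F d (J *ᵥ x) = 0)
    (h2 : sympForm m F d x ≠ 0) : x ∈ tvSet m M := by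
  have hε := S.eps_ne
  have h3 := tvSet_mulVec hd (S.tau_mem_M hP hx (-(ε * sympForm m F d x)⁻¹)) (tau_mem x _)
  rw [tau_formula hx, h1] at h3
  have e : d + (-(ε * sympForm m F d x)⁻¹ * 0) • J *ᵥ x -
      (-(ε * sympForm m F d x)⁻¹ * ε * sympForm m F d x) • x = d + x := by
    have : -(ε * sympForm m F d x)⁻¹ * ε * sympForm m F d x = -1 := by
      field_simp
    rw [this]; module
  rw [e] at h3
  have h4 := tvSet_add_of_ne h3 (tvSet_neg hd) (by
    rw [sympForm_add_left, sympForm_neg_right, sympForm_neg_right, sympForm_self,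
      sympForm_swap x d]
    simpa using h2)
  rwa [add_neg_cancel_comm] at h4

theorem stepB2 {d z : Fin m ⊕ Fin m → F} (hd : d ∈ tvSet m M) (hd0 : d ≠ 0)
    (hz : sympForm m F z (J *ᵥ z) = 0) (hzd : z ∉ KData.Ksp J d) : z ∈ tvSet m M := by
  have D := S.toKData
  obtain ⟨x, hx, hxx, hxd⟩ := S.ex_iso (k := 3) (by omega) ![J *ᵥ d, J *ᵥ z, d - z] d (by
    rw [Submodule.mem_span_range_iff_exists_fun]
    rintro ⟨c, hc⟩
    rw [Fin.sum_univ_three] at hc
    simp only [Matrix.cons_val_zero, Matrix.cons_val_one, Matrix.cons_val] at hc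
    have h1 : (-c 2) • z + c 1 • J *ᵥ z = (1 - c 2) • d + (-c 0) • J *ᵥ d := by
      have : (-c 2) • z + c 1 • J *ᵥ z - ((1 - c 2) • d + (-c 0) • J *ᵥ d) =
          (c 0 • J *ᵥ d + c 1 • J *ᵥ z + c 2 • (d - z)) - d := by module
      rw [hc, sub_self] at this
      exact sub_eq_zero.mp this
    have h2 : -c 2 = 0 ∧ c 1 = 0 := by
      by_contra hcon
      apply hzd
      apply D.Kinv _ hcon
      rw [h1, KData.mem_Ksp]
      exact ⟨_, _, rfl⟩
    rw [h2.1, h2.2, zero_smul, zero_smul, add_zero] at h1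
    have h3 := D.comb_eq_zero hd0 h1.symm
    have h4 : c 2 = 0 := neg_eq_zero.mp h2.1
    rw [h4] at h3
    exact one_ne_zero (α := F) (by simpa using h3.1))
  have hx0 : sympForm m F x (J *ᵥ d) = 0 := hxx 0
  have hx1 : sympForm m F x (J *ᵥ z) = 0 := hxx 1
  have hx2 : sympForm m F x z = sympForm m F x d := by
    have := hxx 2
    simp only [Matrix.cons_val] at this
    rw [sympForm_sub_right] at this
    exact (sub_eq_zero.mp this).symm
  have hxT : x ∈ tvSet m M := S.stepB1 hP hd hx (by rw [S.sym]; exact hx0) (by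
    rw [sympForm_swap]; exact neg_ne_zero.mpr hxd)
  exact S.stepB1 hP hxT hz hx1 (by rw [hx2]; exact hxd)

theorem all_iso {d : Fin m ⊕ Fin m → F} (hd : d ∈ tvSet m M) (hd0 : d ≠ 0) {z : Fin m ⊕ Fin m → F}
    (hz : sympForm m F z (J *ᵥ z) = 0) : z ∈ tvSet m M := by
  have D := S.toKData
  by_cases hz0 : z = 0
  · subst hz0; exact tvSet_zero
  obtain ⟨e, he, -, -, heK, heK'⟩ := D.ex_conn S.nondeg (by
    rw [Fintype.card_sum, Fintype.card_fin]; omega) (M := ⊤)
    (fun _ _ _ => Subgroup.mem_top _) d z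
  have he0 : e ≠ 0 := by
    rintro rfl
    exact heK (Submodule.zero_mem _)
  have heT := S.stepB2 hm hP hd hd0 he heK
  exact S.stepB2 hm hP heT he0 hz (fun h => heK' (D.Ksymm hz0 h))

theorem stageB {d : Fin m ⊕ Fin m → F} (hd : d ∈ tvSet m M) (hd0 : d ≠ 0) : spGL m F ≤ M := by
  have D := S.toKData
  apply eq_spGL_of_tvSet
  intro v
  by_cases hv : sympForm m F v (J *ᵥ v) = 0
  · exact S.all_iso hm hP hd hd0 hv
  have hv0 : v ≠ 0 := by
    rintro rfl
    exact hv (sympForm_zero_left _)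
  obtain ⟨x₀, hx₀, hxx, hxv⟩ := S.ex_iso (k := 1) (by omega) ![J *ᵥ v - v] v (by
    rw [Submodule.mem_span_range_iff_exists_fun]
    rintro ⟨c, hc⟩
    rw [Fin.sum_univ_one] at hc
    simp only [Matrix.cons_val_zero] at hc
    have h1 : (-(1 + c 0)) • v + c 0 • J *ᵥ v = 0 := by
      have : (-(1 + c 0)) • v + c 0 • J *ᵥ v = c 0 • (J *ᵥ v - v) - v := by module
      rw [this, hc, sub_self]
    have h2 := D.comb_eq_zero hv0 h1
    rw [h2.2] at h2
    exact one_ne_zero (α := F) (by simpa using h2.1))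
  have h1 : sympForm m F x₀ (J *ᵥ v) = sympForm m F x₀ v := by
    have := hxx 0
    simp only [Matrix.cons_val_zero] at this
    rw [sympForm_sub_right] at this
    exact sub_eq_zero.mp this
  obtain ⟨q, hq⟩ : ∃ q, q = sympForm m F v (J *ᵥ v) := ⟨_, rfl⟩
  obtain ⟨β, hβ⟩ : ∃ β, β = sympForm m F x₀ v := ⟨_, rfl⟩
  have h2 := S.two
  have hβ0 : β ≠ 0 := by rw [hβ]; exact hxv
  have hq0 : q ≠ 0 := by rw [hq]; exact hv
  have hxi : sympForm m F ((q / (2 * β)) • x₀) (J *ᵥ ((q / (2 * β)) • x₀)) = 0 := by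
    rw [Matrix.mulVec_smul, sympForm_smul_left, sympForm_smul_right, hx₀]; ring
  have hx'i : sympForm m F (v - (q / (2 * β)) • x₀) (J *ᵥ (v - (q / (2 * β)) • x₀)) = 0 := by
    rw [Matrix.mulVec_sub, Matrix.mulVec_smul, sympForm_sub_left, sympForm_sub_right,
      sympForm_sub_right, sympForm_smul_left, sympForm_smul_left, sympForm_smul_right,
      sympForm_smul_right, hx₀, S.sym v x₀, h1, ← hq, ← hβ]
    field_simp
    ring
  have t1 := S.all_iso hm hP hd hd0 hxi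
  have t2 := S.all_iso hm hP hd hd0 hx'i
  have t3 := tvSet_add_of_ne t1 t2 (by
    rw [sympForm_sub_right, sympForm_self, sub_zero, sympForm_smul_left, ← hβ]
    field_simp
    exact div_ne_zero hq0 h2)
  rwa [add_sub_cancel] at t3

end closure

end SData

end Cfsg.Agent.Lib.Helper6
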