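import Mathlib
import Cfsg.Agent.Lib.Helper6.KSymp

set_option autoImplicit false
set_option linter.unusedSectionVars false

namespace Cfsg.Agent.Lib.Helper6

open Matrix Cfsg QuadraticMap

section generic

variable {F : Type*} [Field F] {ι : Type} [Fintype ι] [DecidableEq ι] {Q : (ι → F) → F}
variable {J : Matrix ι ι F} {t N : F}

theorem KData.scalar_of_Ksp [Fintype F] (D : KData Q J t N)
    (hQ : Cfsg.Geo.IsNondegenerateQuadraticForm Q) (hn : 13 ≤ Fintype.card ι)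
    {ψ : Matrix ι ι F}
    (hK : ∀ d, d ≠ 0 → Q d = 0 → ∃ α β : F, ψ *ᵥ d = α • d + β • J *ᵥ d) :
    ∃ α β : F, ∀ z, ψ *ᵥ z = α • z + β • J *ᵥ z := by
  obtain ⟨p₀, hp₀⟩ : ∃ p₀ : ι → F, p₀ ≠ 0 := by
    have : Nonempty ι := by
      rw [← Fintype.card_pos_iff]; omega
    obtain ⟨i⟩ := this
    exact ⟨Pi.single i 1, by simp⟩
  obtain ⟨d₀, hd₀, hd₀p⟩ := ex_sing0 hQ (by omega) p₀ hp₀
  have hd₀0 : d₀ ≠ 0 := by
    rintro rfl
    exact hd₀p (oq_zero_left hQ _)
  obtain ⟨α, β, hαβ⟩ := hK d₀ hd₀0 hd₀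
  have hsing : ∀ z, Q z = 0 → ψ *ᵥ z = α • z + β • J *ᵥ z := by
    intro z hz
    by_cases hz0 : z = 0
    · subst hz0; simp
    obtain ⟨e, he, hed, hez, heK, heK'⟩ := D.ex_conn hQ hn (M := ⊤)
      (fun _ _ _ => Subgroup.mem_top _) d₀ z
    have he0 : e ≠ 0 := by
      rintro rfl
      exact heK (Submodule.zero_mem _)
    obtain ⟨α₁, β₁, h1⟩ := hK e he0 he
    obtain ⟨α₂, β₂, h2⟩ := hK z hz0 hz
    have hs1 : Q (d₀ + e) = 0 := by rw [oq_add Q, hd₀, he, oq_comm, hed]; ring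
    have hs2 : Q (z + e) = 0 := by rw [oq_add Q, hz, he, oq_comm, hez]; ring
    have hne1 : d₀ + e ≠ 0 := by
      intro h0
      apply heK
      have : e = (-1 : F) • d₀ + (0 : F) • J *ᵥ d₀ := by
        rw [zero_smul, add_zero, neg_one_smul]
        exact eq_neg_of_add_eq_zero_right h0
      rw [this, KData.mem_Ksp]
      exact ⟨_, _, rfl⟩
    have hne2 : z + e ≠ 0 := by
      intro h0
      apply heK'
      have : e = (-1 : F) • z + (0 : F) • J *ᵥ z := by
        rw [zero_smul, add_zero, neg_one_smul]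
        exact eq_neg_of_add_eq_zero_right h0
      rw [this, KData.mem_Ksp]
      exact ⟨_, _, rfl⟩
    obtain ⟨α₃, β₃, h3⟩ := hK _ hne1 hs1
    obtain ⟨α₄, β₄, h4⟩ := hK _ hne2 hs2
    obtain ⟨c1, c2⟩ := D.compare hd₀0 heK hαβ h1 h3
    obtain ⟨c3, c4⟩ := D.compare hz0 heK' h2 h1 h4
    rw [h2, c3, c4, c1, c2]
  refine ⟨α, β, fun z => ?_⟩
  by_contra hne
  obtain ⟨i, hi⟩ : ∃ i, (ψ *ᵥ z) i ≠ (α • z + β • J *ᵥ z) i := by
    by_contra hc
    push Not at hc
    exact hne (funext hc)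
  obtain ⟨r, hr⟩ : ∃ r : ι → F, ∀ x, r ⬝ᵥ x = (ψ *ᵥ x) i - (α • x + β • J *ᵥ x) i := by
    refine ⟨ψ i - α • Pi.single i 1 - β • J i, fun x => ?_⟩
    rw [sub_dotProduct, sub_dotProduct, smul_dotProduct, smul_dotProduct, single_one_dotProduct]
    simp only [Matrix.mulVec, Pi.add_apply, Pi.smul_apply, smul_eq_mul]
    ring
  obtain ⟨p, hp⟩ := oPhi_surj hQ r
  have hp0 : p ≠ 0 := by
    rintro rfl
    rw [oPhi_zero hQ] at hp
    have := hr z
    rw [← hp, zero_dotProduct] at this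
    exact hi (sub_eq_zero.mp this.symm)
  obtain ⟨s, hs, hsp⟩ := ex_sing0 hQ (by omega) p hp0
  apply hsp
  rw [← oPhi_dot hQ, hp, hr, hsing s hs, sub_self]

theorem KData.mem_normalizer [Nonempty ι] (D : KData Q J t N) {K : Subalgebra F (Matrix ι ι F)}
    (hJK : J ∈ K) (hspan : ∀ k ∈ K, ∃ x y : F, k = x • (1 : Matrix ι ι F) + y • J)
    (h : Matrix.GeneralLinearGroup ι F) {α β : F}
    (hαβ : ∀ z, ((h⁻¹ : Matrix.GeneralLinearGroup ι F) : Matrix ι ι F) *ᵥ
      (J *ᵥ ((h : Matrix ι ι F) *ᵥ z)) = α • z + β • J *ᵥ z) :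
    h ∈ Cfsg.Geo.subalgebraNormalizer K := by
  obtain ⟨p₀, hp₀⟩ : ∃ p₀ : ι → F, p₀ ≠ 0 := by
    obtain ⟨i⟩ := (inferInstance : Nonempty ι)
    exact ⟨Pi.single i 1, by simp⟩
  have hβ : β ≠ 0 := by
    rintro rfl
    have h1 := hαβ p₀
    rw [zero_smul, add_zero] at h1
    have h2 : J *ᵥ ((h : Matrix ι ι F) *ᵥ p₀) = α • ((h : Matrix ι ι F) *ᵥ p₀) := by
      have := congrArg (fun z => (h : Matrix ι ι F) *ᵥ z) h1
      simp only [gl_mulVec_inv, Matrix.mulVec_smul] at this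
      exact this
    exact gl_mulVec_ne_zero h hp₀ (D.no_eigen h2)
  have e1 : ((h⁻¹ : Matrix.GeneralLinearGroup ι F) : Matrix ι ι F) * J *
      (h : Matrix ι ι F) = α • (1 : Matrix ι ι F) + β • J := by
    rw [Matrix.ext_iff_mulVec]
    intro z
    rw [← Matrix.mulVec_mulVec, ← Matrix.mulVec_mulVec, hαβ, Matrix.add_mulVec,
      Matrix.smul_mulVec, Matrix.smul_mulVec, Matrix.one_mulVec]
  have e2 : (h : Matrix ι ι F) * J *
      ((h⁻¹ : Matrix.GeneralLinearGroup ι F) : Matrix ι ι F) =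
      β⁻¹ • (J - α • (1 : Matrix ι ι F)) := by
    have h1 : J = β⁻¹ • (((h⁻¹ : Matrix.GeneralLinearGroup ι F) :
        Matrix ι ι F) * J * (h : Matrix ι ι F) -
        α • (1 : Matrix ι ι F)) := by
      rw [e1, add_sub_cancel_left, smul_smul, inv_mul_cancel₀ hβ, one_smul]
    conv_lhs => rw [h1]
    simp only [Matrix.mul_smul, Matrix.smul_mul, mul_sub, sub_mul, Matrix.mul_one]
    have i1 : (h : Matrix ι ι F) *
        ((h⁻¹ : Matrix.GeneralLinearGroup ι F) : Matrix ι ι F) = 1 :=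
      Units.mul_inv h
    have i2 : (h : Matrix ι ι F) *
        (((h⁻¹ : Matrix.GeneralLinearGroup ι F) : Matrix ι ι F) * J *
          (h : Matrix ι ι F)) *
        ((h⁻¹ : Matrix.GeneralLinearGroup ι F) : Matrix ι ι F) = J := by
      rw [Matrix.mul_assoc, Matrix.mul_assoc, Matrix.mul_assoc, i1, Matrix.mul_one,
        ← Matrix.mul_assoc, i1, Matrix.one_mul]
    rw [i2, i1]
  apply mem_normalizer_of_conj hspan h
  · rw [e2]
    exact K.smul_mem (K.sub_mem hJK (K.smul_mem K.one_mem α)) _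
  · rw [e1]
    exact K.add_mem (K.smul_mem K.one_mem α) (K.smul_mem hJK β)

end generic

variable {F : Type*} [Field F] {m : ℕ}

theorem conj_tv_pair {g : Matrix.GeneralLinearGroup (Fin m ⊕ Fin m) F} (hg : g ∈ spGL m F)
    (u v : Fin m ⊕ Fin m → F) (c d : F) :
    g * (tvGL m u c * tvGL m v d) * g⁻¹ =
      tvGL m ((g : Matrix (Fin m ⊕ Fin m) (Fin m ⊕ Fin m) F) *ᵥ u) c *
        tvGL m ((g : Matrix (Fin m ⊕ Fin m) (Fin m ⊕ Fin m) F) *ᵥ v) d := by
  rw [← conj_tvGL m hg, ← conj_tvGL m hg]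
  group

theorem quad_identity {a b δ : Fin m ⊕ Fin m → F} (hab : sympForm m F a b = 0)
    (hδa : sympForm m F δ a = 0) (hδb : sympForm m F δ b = 0) (c e : F) :
    tvGL m δ (-(2 * c)) * (tvGL m (b + δ + δ) c * tvGL m a e) * (tvGL m b c * tvGL m a e) =
      (tvGL m (b + δ) c * tvGL m a e) * (tvGL m (b + δ) c * tvGL m a e) := by
  have hba : sympForm m F b a = 0 := by rw [sympForm_swap, hab, neg_zero]
  have haδ : sympForm m F a δ = 0 := by rw [sympForm_swap, hδa, neg_zero]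
  have hbδ : sympForm m F b δ = 0 := by rw [sympForm_swap, hδb, neg_zero]
  apply gl_ext_mulVec
  intro z
  simp only [Units.val_mul, ← Matrix.mulVec_mulVec, tvGL_mulVec, sympForm_add_left,
    sympForm_smul_left, sympForm_add_right, sympForm_smul_right, sympForm_self, hab, hδa, hδb,
    hba, haδ, hbδ, mul_zero, add_zero, zero_add]
  module

namespace SData

variable {J : Matrix (Fin m ⊕ Fin m) (Fin m ⊕ Fin m) F} {ε : F} (S : SData m J ε)
include S

theorem pol_formula {w b' : Fin m ⊕ Fin m → F} (hw : sympForm m F w (J *ᵥ w) = 0)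
    (hb : sympForm m F b' (J *ᵥ b') = 0) (h1 : sympForm m F w b' = 0)
    (h2 : sympForm m F w (J *ᵥ b') = 0) (z : Fin m ⊕ Fin m → F) :
    ((tau m J ε (w + b') 1 * tau m J ε w (-1) * tau m J ε b' (-1) :
      Matrix.GeneralLinearGroup (Fin m ⊕ Fin m) F) :
      Matrix (Fin m ⊕ Fin m) (Fin m ⊕ Fin m) F) *ᵥ z =
      z + sympForm m F z (J *ᵥ w) • J *ᵥ b' + sympForm m F z (J *ᵥ b') • J *ᵥ w -
        (ε * sympForm m F z w) • b' - (ε * sympForm m F z b') • w := by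
  have f1 : sympForm m F b' w = 0 := by rw [sympForm_swap, h1, neg_zero]
  have f2 : sympForm m F b' (J *ᵥ w) = 0 := by rw [S.sym, h2]
  have f3 : sympForm m F (J *ᵥ b') w = 0 := by rw [S.adj, f2, neg_zero]
  have f4 : sympForm m F (J *ᵥ w) b' = 0 := by rw [S.adj, h2, neg_zero]
  have f5 : sympForm m F (J *ᵥ b') (J *ᵥ w) = 0 := by rw [S.JJ, f1]; ring
  have f6 : sympForm m F (J *ᵥ w) (J *ᵥ b') = 0 := by rw [S.JJ, h1]; ring
  have f7 : sympForm m F (J *ᵥ w) w = 0 := by rw [S.adj, hw, neg_zero]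
  have f8 : sympForm m F (J *ᵥ b') b' = 0 := by rw [S.adj, hb, neg_zero]
  have hwb : sympForm m F (w + b') (J *ᵥ (w + b')) = 0 := by
    rw [Matrix.mulVec_add, sympForm_add_left, sympForm_add_right, sympForm_add_right, hw, hb, h2,
      f2]
    ring
  rw [Units.val_mul, Units.val_mul, ← Matrix.mulVec_mulVec, ← Matrix.mulVec_mulVec,
    tau_formula hb, tau_formula hw, tau_formula hwb]
  simp only [Matrix.mulVec_add, sympForm_add_left, sympForm_sub_left, sympForm_smul_left,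
    sympForm_add_right, sympForm_self, hw, hb, h1, h2, f1, f2, f3, f4, f5, f6, f7, f8, mul_zero,
    add_zero, sub_zero, zero_add]
  module

section closure

variable [Fintype F] (hm : 7 ≤ m) {M : Subgroup (Matrix.GeneralLinearGroup (Fin m ⊕ Fin m) F)}
  (hP : ∀ g ∈ spGL m F, (∀ z, (g : Matrix (Fin m ⊕ Fin m) (Fin m ⊕ Fin m) F) *ᵥ (J *ᵥ z) =
    J *ᵥ ((g : Matrix (Fin m ⊕ Fin m) (Fin m ⊕ Fin m) F) *ᵥ z)) → g ∈ M)
include hm hP

theorem stageA {a b : Fin m ⊕ Fin m → F} (hab : sympForm m F a b = 0)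
    (hbK : b ∉ KData.Ksp J a) (hy : ∀ c, tvGL m b c * tvGL m a (-(c * ε)) ∈ M) :
    ∃ δ, δ ≠ 0 ∧ δ ∈ tvSet m M := by
  have D := S.toKData
  have hε := S.eps_ne
  obtain ⟨b', hb', hbb, hγ⟩ := S.ex_iso (k := 3) (by omega) ![a, J *ᵥ a, b] (J *ᵥ b) (by
    rw [Submodule.mem_span_range_iff_exists_fun]
    rintro ⟨c, hc⟩
    rw [Fin.sum_univ_three] at hc
    simp only [Matrix.cons_val_zero, Matrix.cons_val_one, Matrix.cons_val] at hc
    apply hbK
    apply D.Kinv (x := -c 2) (y := 1)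
    · rw [← hc, KData.mem_Ksp]
      exact ⟨c 0, c 1, by module⟩
    · rintro ⟨-, h1⟩
      exact one_ne_zero h1)
  have hb'a : sympForm m F b' a = 0 := hbb 0
  have hb'Ja : sympForm m F b' (J *ᵥ a) = 0 := hbb 1
  have hb'b : sympForm m F b' b = 0 := hbb 2
  have hfr : Module.finrank F (Submodule.span F
      (Set.range ![a, J *ᵥ a, b', J *ᵥ b', J *ᵥ b])) ≤ 5 := by
    have := finrank_range_le_card (R := F) ![a, J *ᵥ a, b', J *ᵥ b', J *ᵥ b]
    simpa [Set.finrank] using this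
  obtain ⟨p, hp, hpS⟩ := ex_perp ![Matrix.J (Fin m) F *ᵥ (J *ᵥ b')]
    (Submodule.span F (Set.range ![a, J *ᵥ a, b', J *ᵥ b', J *ᵥ b])) (by
      rw [Fintype.card_sum, Fintype.card_fin]; omega)
  have hpb : sympForm m F p (J *ᵥ b') = 0 := by
    have := hp 0
    simp only [Matrix.cons_val_zero] at this
    unfold sympForm
    rw [dotProduct_comm]; exact this
  obtain ⟨w, hw, hww, hwp⟩ := S.ex_iso (k := 5) (by omega)
    ![a, J *ᵥ a, b', J *ᵥ b', J *ᵥ b] p hpS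
  have hwa : sympForm m F w a = 0 := hww 0
  have hwJa : sympForm m F w (J *ᵥ a) = 0 := hww 1
  have hwb' : sympForm m F w b' = 0 := hww 2
  have hwJb' : sympForm m F w (J *ᵥ b') = 0 := hww 3
  have hwJb : sympForm m F w (J *ᵥ b) = 0 := hww 4
  obtain ⟨g, hg⟩ : ∃ g, g = tau m J ε (w + b') 1 * tau m J ε w (-1) * tau m J ε b' (-1) :=
    ⟨_, rfl⟩
  have hwb : sympForm m F (w + b') (J *ᵥ (w + b')) = 0 := by
    rw [Matrix.mulVec_add, sympForm_add_left, sympForm_add_right, sympForm_add_right, hw, hb',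
      hwJb', S.sym b' w, hwJb']
    ring
  have hgM : g ∈ M := by
    rw [hg]
    exact M.mul_mem (M.mul_mem (S.tau_mem_M hP hwb _) (S.tau_mem_M hP hw _))
      (S.tau_mem_M hP hb' _)
  have hgS : g ∈ spGL m F := by
    rw [hg]
    exact (spGL m F).mul_mem ((spGL m F).mul_mem (tau_mem _ _) (tau_mem _ _)) (tau_mem _ _)
  have hgz := S.pol_formula hw hb' hwb' hwJb'
  rw [← hg] at hgz
  obtain ⟨δ, hδ⟩ : ∃ δ, δ = sympForm m F b (J *ᵥ b') • J *ᵥ w - (ε * sympForm m F b w) • b' :=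
    ⟨_, rfl⟩
  have ga : (g : Matrix (Fin m ⊕ Fin m) (Fin m ⊕ Fin m) F) *ᵥ a = a := by
    rw [hgz, S.sym a w, hwJa, S.sym a b', hb'Ja, sympForm_swap a w, hwa, sympForm_swap a b', hb'a]
    simp
  have gb : (g : Matrix (Fin m ⊕ Fin m) (Fin m ⊕ Fin m) F) *ᵥ b = b + δ := by
    rw [hgz, S.sym b w, hwJb, sympForm_swap b b', hb'b, hδ]
    module
  have d1 : sympForm m F δ w = 0 := by
    rw [hδ, sympForm_sub_left, sympForm_smul_left, sympForm_smul_left, S.adj, hw,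
      sympForm_swap b' w, hwb']
    ring
  have d2 : sympForm m F δ (J *ᵥ w) = 0 := by
    rw [hδ, sympForm_sub_left, sympForm_smul_left, sympForm_smul_left, sympForm_self,
      S.sym b' w, hwJb']
    ring
  have d3 : sympForm m F δ b' = 0 := by
    rw [hδ, sympForm_sub_left, sympForm_smul_left, sympForm_smul_left, sympForm_self, S.adj,
      hwJb']
    ring
  have d4 : sympForm m F δ (J *ᵥ b') = 0 := by
    rw [hδ, sympForm_sub_left, sympForm_smul_left, sympForm_smul_left, S.JJ, hwb', hb']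
    ring
  have gd : (g : Matrix (Fin m ⊕ Fin m) (Fin m ⊕ Fin m) F) *ᵥ δ = δ := by
    rw [hgz, d1, d2, d3, d4]
    simp
  have hδa : sympForm m F δ a = 0 := by
    rw [hδ, sympForm_sub_left, sympForm_smul_left, sympForm_smul_left, S.adj, hwJa, hb'a]
    ring
  have hδb : sympForm m F δ b = 0 := by
    rw [hδ, sympForm_sub_left, sympForm_smul_left, sympForm_smul_left, S.adj, hwJb, hb'b]
    ring
  refine ⟨δ, ?_, ?_⟩
  · intro h0
    have h1 : sympForm m F δ (J *ᵥ p) = 0 := by rw [h0, sympForm_zero_left]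
    rw [hδ, sympForm_sub_left, sympForm_smul_left, sympForm_smul_left, S.JJ, S.sym b' p, hpb,
      S.sym b b'] at h1
    have h2 : ε * (sympForm m F b' (J *ᵥ b) * sympForm m F w p) = 0 := by linear_combination -h1
    rcases mul_eq_zero.mp h2 with h3 | h3
    · exact hε h3
    · rcases mul_eq_zero.mp h3 with h4 | h4
      · exact hγ h4
      · exact hwp h4
  · intro c'
    obtain ⟨c, hc⟩ : ∃ c, c = -(c' / 2) := ⟨_, rfl⟩
    have h2 := S.two
    have hc' : c' = -(2 * c) := by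
      rw [hc]; field_simp
    have y0 := hy c
    have y1 : tvGL m (b + δ) c * tvGL m a (-(c * ε)) ∈ M := by
      have := M.mul_mem (M.mul_mem hgM y0) (M.inv_mem hgM)
      rwa [conj_tv_pair hgS, ga, gb] at this
    have y2 : tvGL m (b + δ + δ) c * tvGL m a (-(c * ε)) ∈ M := by
      have := M.mul_mem (M.mul_mem hgM y1) (M.inv_mem hgM)
      rwa [conj_tv_pair hgS, ga, Matrix.mulVec_add, gb, gd] at this
    have key := quad_identity hab hδa hδb c (-(c * ε))
    have : tvGL m δ c' = (tvGL m (b + δ) c * tvGL m a (-(c * ε))) *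
        (tvGL m (b + δ) c * tvGL m a (-(c * ε))) * (tvGL m b c * tvGL m a (-(c * ε)))⁻¹ *
        (tvGL m (b + δ + δ) c * tvGL m a (-(c * ε)))⁻¹ := by
      rw [← key, hc']
      group
    rw [this]
    exact M.mul_mem (M.mul_mem (M.mul_mem y1 y1) (M.inv_mem y0)) (M.inv_mem y2)

end closure

end SData

end Cfsg.Agent.Lib.Helper6
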