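import Mathlib
import Cfsg.Agent.Lib.Helper6.ORefl
import Cfsg.Agent.S0752

set_option autoImplicit false
set_option linter.unusedSectionVars false

namespace Cfsg.Agent.Lib.Helper6

open Matrix Cfsg QuadraticMap

variable {F : Type*} [Field F] {ι : Type} [Fintype ι] [DecidableEq ι] {Q : (ι → F) → F}

section full

variable (hQ : Cfsg.Geo.IsNondegenerateQuadraticForm Q)
include hQ

theorem oq_even_of_char_two (h2 : (2 : F) = 0) : Even (Fintype.card ι) := by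
  obtain ⟨m, k, b, -, -, -, hrad⟩ :=
    Cfsg.Agent.S0752.result (QuadraticMap.polarBilin (toQF hQ)) (by
      intro x
      show polar Q x x = 0
      rw [oq_polar_self hQ, h2, zero_mul])
  have hk : k = 0 := by
    by_contra hk
    have j : Fin k := ⟨0, Nat.pos_of_ne_zero hk⟩
    have hne := b.ne_zero (Sum.inr j)
    obtain ⟨-, y, hy⟩ := hQ.nondegenerate _ hne
    exact hy (hrad j y)
  have h := Module.finrank_eq_card_basis b
  rw [Module.finrank_fintype_fun_eq_card] at h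
  simp only [Fintype.card_sum, Fintype.card_fin] at h
  exact ⟨m, by omega⟩

theorem oq_affine [Finite F] (h2 : (2 : F) ≠ 0) (hn : 6 < Fintype.card ι) (z : ι → F) (hz : z ≠ 0)
    (γ τ : F) : ∃ z', z' ≠ 0 ∧ Q z' = τ ∧ polar Q z z' = γ := by
  by_cases h0 : γ = 0 ∧ τ = 0
  · obtain ⟨rfl, rfl⟩ := h0
    obtain ⟨e₁, h1w, h1⟩ := oq_exists_ns hQ (k := 1) (by omega) ![oPhi Q z]
    obtain ⟨e₂, h2w, h2'⟩ := oq_exists_value hQ h2 (k := 2) (by omega) ![oPhi Q z, oPhi Q e₁] (-Q e₁)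
    have a1 : polar Q e₁ z = 0 := by rw [← oPhi_dot hQ]; exact h1w 0
    have a2 : polar Q e₂ z = 0 := by rw [← oPhi_dot hQ]; exact h2w 0
    have a3 : polar Q e₂ e₁ = 0 := by rw [← oPhi_dot hQ]; exact h2w 1
    refine ⟨e₁ + e₂, ?_, ?_, ?_⟩
    · intro h
      have : polar Q (e₁ + e₂) e₁ = 0 := by rw [h, oq_zero_left hQ]
      rw [hQ.polar_bilinear.add_left, a3, oq_polar_self hQ, add_zero] at this
      exact (mul_ne_zero h2 h1) this
    · rw [oq_add Q, h2', oq_comm, a3]; ring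
    · rw [hQ.polar_bilinear.add_right, oq_comm, a1, oq_comm, a2, add_zero]
  · obtain ⟨-, y, hy⟩ := hQ.nondegenerate z hz
    obtain ⟨y₀, hy₀⟩ : ∃ y₀, polar Q z y₀ = γ :=
      ⟨(γ / polar Q z y) • y, by rw [hQ.polar_bilinear.smul_right, div_mul_cancel₀ _ hy]⟩
    obtain ⟨x, hxw, hx⟩ := oq_exists_value hQ h2 (k := 2) (by omega) ![oPhi Q z, oPhi Q y₀]
      (τ - Q y₀)
    have a1 : polar Q x z = 0 := by rw [← oPhi_dot hQ]; exact hxw 0
    have a2 : polar Q x y₀ = 0 := by rw [← oPhi_dot hQ]; exact hxw 1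
    have b1 : Q (y₀ + x) = τ := by rw [oq_add Q, hx, oq_comm, a2]; ring
    have b2 : polar Q z (y₀ + x) = γ := by
      rw [hQ.polar_bilinear.add_right, hy₀, oq_comm, a1, add_zero]
    refine ⟨y₀ + x, ?_, b1, b2⟩
    intro h
    apply h0
    rw [h] at b1 b2
    rw [oq_zero hQ] at b1
    rw [oq_zero_right hQ] at b2
    exact ⟨b2.symm, b1.symm⟩

end full

theorem polar_comp_lin {κ : Type} (e : (κ → F) →ₗ[F] (ι → F)) (x y : κ → F) :
    polar (fun c => Q (e c)) x y = polar Q (e x) (e y) := by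
  unfold QuadraticMap.polar
  simp only [map_add]

section rel

variable (hQ : Cfsg.Geo.IsNondegenerateQuadraticForm Q)
include hQ

theorem exists_chart (W : Submodule F (ι → F))
    (hW : Cfsg.Geo.IsNondegenerateOn (polar Q) W) :
    ∃ e : (Fin (Module.finrank F W) → F) →ₗ[F] (ι → F),
      (∀ c, e c ∈ W) ∧ (∀ w ∈ W, ∃ c, e c = w) ∧ Function.Injective e ∧
      Cfsg.Geo.IsNondegenerateQuadraticForm (fun c => Q (e c)) := by
  let b := Module.finBasis F W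
  let e : (Fin (Module.finrank F W) → F) →ₗ[F] (ι → F) :=
    W.subtype ∘ₗ (b.equivFun.symm : (Fin (Module.finrank F W) → F) →ₗ[F] W)
  have he1 : ∀ c, e c ∈ W := fun c => (b.equivFun.symm c).2
  have he2 : ∀ w ∈ W, ∃ c, e c = w := by
    intro w hw
    refine ⟨b.equivFun ⟨w, hw⟩, ?_⟩
    simp [e]
  have he3 : Function.Injective e := by
    intro x y hxy
    have : b.equivFun.symm x = b.equivFun.symm y := Subtype.ext hxy
    exact b.equivFun.symm.injective this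
  refine ⟨e, he1, he2, he3, ?_⟩
  refine ⟨fun c v => ?_, ⟨?_, ?_, ?_, ?_⟩, ?_⟩
  · show Q (e (c • v)) = c ^ 2 * Q (e v)
    rw [map_smul, hQ.smul]
  · intro x y v
    rw [polar_comp_lin, polar_comp_lin, polar_comp_lin, map_add, hQ.polar_bilinear.add_left]
  · intro c x v
    rw [polar_comp_lin, polar_comp_lin, map_smul, hQ.polar_bilinear.smul_left]
  · intro v x y
    rw [polar_comp_lin, polar_comp_lin, polar_comp_lin, map_add, hQ.polar_bilinear.add_right]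
  · intro c v x
    rw [polar_comp_lin, polar_comp_lin, map_smul, hQ.polar_bilinear.smul_right]
  · intro v hv
    have hne : e v ≠ 0 := by
      intro h
      apply hv
      apply he3
      rw [h, map_zero]
    obtain ⟨⟨x, hx, hx'⟩, ⟨y, hy, hy'⟩⟩ := hW (e v) (he1 v) hne
    obtain ⟨cx, rfl⟩ := he2 x hx
    obtain ⟨cy, rfl⟩ := he2 y hy
    exact ⟨⟨cx, by rw [polar_comp_lin]; exact hx'⟩, ⟨cy, by rw [polar_comp_lin]; exact hy'⟩⟩

variable (W : Submodule F (ι → F)) (hW : Cfsg.Geo.IsNondegenerateOn (polar Q) W)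
include hW

theorem rel_char (hodd : Odd (Module.finrank F W)) : (2 : F) ≠ 0 := by
  intro h2
  obtain ⟨e, -, -, -, hQe⟩ := exists_chart hQ W hW
  have := oq_even_of_char_two hQe h2
  rw [Fintype.card_fin] at this
  exact (Nat.not_even_iff_odd.mpr hodd) this

theorem rel_value [Finite F] (h2 : (2 : F) ≠ 0) {k : ℕ} (hk : 2 * (k + 1) < Module.finrank F W)
    (x : Fin k → ι → F) (t : F) : ∃ a ∈ W, Q a = t ∧ ∀ i, polar Q a (x i) = 0 := by
  obtain ⟨e, he1, he2, he3, hQe⟩ := exists_chart hQ W hW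
  let φ : Fin k → ((Fin (Module.finrank F W) → F) →ₗ[F] F) := fun i =>
    { toFun := fun c => polar Q (e c) (x i)
      map_add' := fun a b => by rw [map_add, hQ.polar_bilinear.add_left]
      map_smul' := fun c a => by
        rw [map_smul, hQ.polar_bilinear.smul_left, RingHom.id_apply, smul_eq_mul] }
  obtain ⟨c, hc, hc'⟩ := oq_exists_value hQe h2 (k := k) (by rw [Fintype.card_fin]; exact hk)
    (fun i j => φ i (Pi.single j 1)) t
  refine ⟨e c, he1 c, hc', fun i => ?_⟩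
  have := hc i
  rw [row_of_linear' (φ i) c] at this
  exact this

theorem rel_affine [Finite F] (h2 : (2 : F) ≠ 0) (hd : 6 < Module.finrank F W) (z : ι → F)
    (hzW : z ∈ W) (hz : z ≠ 0) (γ τ : F) :
    ∃ z' ∈ W, z' ≠ 0 ∧ Q z' = τ ∧ polar Q z z' = γ := by
  obtain ⟨e, he1, he2, he3, hQe⟩ := exists_chart hQ W hW
  obtain ⟨c, rfl⟩ := he2 z hzW
  have hc : c ≠ 0 := by
    rintro rfl
    exact hz (map_zero e)
  obtain ⟨c', h1, h2', h3⟩ := oq_affine hQe h2 (by rw [Fintype.card_fin]; exact hd) c hc γ τ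
  refine ⟨e c', he1 c', ?_, h2', ?_⟩
  · intro h
    apply h1
    apply he3
    rw [h, map_zero]
  · rw [← polar_comp_lin]; exact h3

theorem rel_two (hd : 6 < Module.finrank F W) (b₁ b₂ : ι → F) (h₁W : b₁ ∈ W) (h₂W : b₂ ∈ W)
    (h₁ : b₁ ≠ 0) (h₂ : b₂ ≠ 0) :
    ∃ x ∈ W, Q x ≠ 0 ∧ polar Q x b₁ ≠ 0 ∧ polar Q x b₂ ≠ 0 := by
  obtain ⟨e, he1, he2, he3, hQe⟩ := exists_chart hQ W hW
  obtain ⟨c₁, rfl⟩ := he2 b₁ h₁W
  obtain ⟨c₂, rfl⟩ := he2 b₂ h₂W
  have hc₁ : c₁ ≠ 0 := by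
    rintro rfl
    exact h₁ (map_zero e)
  have hc₂ : c₂ ≠ 0 := by
    rintro rfl
    exact h₂ (map_zero e)
  have hsp : ∀ c : Fin (Module.finrank F W) → F, c ≠ 0 →
      c ∉ Submodule.span F (Set.range (Fin.elim0 : Fin 0 → Fin (Module.finrank F W) → F)) := by
    intro c hc hmem
    rw [Set.range_eq_empty, Submodule.span_empty, Submodule.mem_bot] at hmem
    exact hc hmem
  obtain ⟨x, hx, -, hx1, hx2⟩ := oq_exists₂ hQe (k := 0) (by rw [Fintype.card_fin]; omega)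
    Fin.elim0 c₁ c₂ (hsp c₁ hc₁) (hsp c₂ hc₂)
  refine ⟨e x, he1 x, hx, ?_, ?_⟩
  · rw [← polar_comp_lin]; exact hx1
  · rw [← polar_comp_lin]; exact hx2

theorem rel_sep (X : Submodule F (ι → F)) (hX : ∃ w ∈ W, w ∉ X) :
    ∃ b ∈ W, b ≠ 0 ∧ ∀ x ∈ X, x ∈ W → polar Q b x = 0 := by
  obtain ⟨e, he1, he2, he3, hQe⟩ := exists_chart hQ W hW
  obtain ⟨w, hw, hwX⟩ := hX
  obtain ⟨c, rfl⟩ := he2 w hw
  obtain ⟨x, hx, hx'⟩ := oq_separate hQe (X.comap e) c hwX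
  refine ⟨e x, he1 x, ?_, ?_⟩
  · intro h
    apply hx'
    rw [polar_comp_lin, h, oq_zero_left hQ]
  · intro y hy hyW
    obtain ⟨cy, rfl⟩ := he2 y hyW
    rw [← polar_comp_lin]
    exact hx cy hy

end rel

section cls

variable (hQ : Cfsg.Geo.IsNondegenerateQuadraticForm Q)
  (M : Subgroup (Matrix.GeneralLinearGroup ι F)) (A : Set (ι → F))

/-- The vectors whose reflection is congruent modulo `M` to a reflection in a vector of `A`
of the same norm. -/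
def cls : Set (ι → F) := {b | ∃ a ∈ A, Q a = Q b ∧ rr hQ b * rr hQ a ∈ M}

variable {hQ M A}

theorem cls_of_mem {a : ι → F} (ha : a ∈ A) : a ∈ cls hQ M A :=
  ⟨a, ha, rfl, by rw [rr_mul_self]; exact M.one_mem⟩

theorem cls_neg {b : ι → F} (hb : b ∈ cls hQ M A) : -b ∈ cls hQ M A := by
  obtain ⟨a, ha, h, hm⟩ := hb
  exact ⟨a, ha, by rw [oq_neg hQ, h], by rw [rr_neg]; exact hm⟩

theorem cls_ns (hA0 : ∀ a ∈ A, Q a ≠ 0) {b : ι → F} (hb : b ∈ cls hQ M A) : Q b ≠ 0 := by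
  obtain ⟨a, ha, h, -⟩ := hb
  rw [← h]; exact hA0 a ha

section

variable (hA1 : ∀ a ∈ A, ∀ a' ∈ A, Q a = Q a' → rr hQ a * rr hQ a' ∈ M)
include hA1

theorem cls_wit {b a : ι → F} (hb : b ∈ cls hQ M A) (ha : a ∈ A) (h : Q a = Q b) :
    rr hQ b * rr hQ a ∈ M := by
  obtain ⟨a₀, ha₀, h₀, hm⟩ := hb
  have := M.mul_mem hm (hA1 a₀ ha₀ a ha (h₀.trans h.symm))
  rwa [mul_assoc, ← mul_assoc (rr hQ a₀), rr_mul_self, one_mul] at this

theorem cls_pair {b b' : ι → F} (hb : b ∈ cls hQ M A) (hb' : b' ∈ cls hQ M A) (h : Q b = Q b') :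
    rr hQ b * rr hQ b' ∈ M := by
  obtain ⟨a, ha, h₀, hm⟩ := hb
  have h1 := cls_wit hA1 hb' ha (h₀.trans h)
  have := M.mul_mem hm (M.inv_mem h1)
  rwa [_root_.mul_inv_rev, rr_inv, rr_inv, mul_assoc, ← mul_assoc (rr hQ a), rr_mul_self,
    one_mul] at this

theorem cls_map {y : Matrix.GeneralLinearGroup ι F} (hy : y ∈ M)
    (hyi : ∀ x, Q ((y : Matrix ι ι F) *ᵥ x) = Q x) {b a' : ι → F} (hb : b ∈ cls hQ M A)
    (ha' : a' ∈ A) (h : Q a' = Q b) (hfix : (y : Matrix ι ι F) *ᵥ a' = a') :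
    (y : Matrix ι ι F) *ᵥ b ∈ cls hQ M A := by
  refine ⟨a', ha', by rw [hyi, h], ?_⟩
  have h1 := cls_wit hA1 hb ha' h
  have h2 := M.mul_mem (M.mul_mem hy h1) (M.inv_mem hy)
  have e : y * (rr hQ b * rr hQ a') * y⁻¹ = rr hQ ((y : Matrix ι ι F) *ᵥ b) * rr hQ a' := by
    have e1 := rr_conj hQ y hyi a'
    rw [hfix] at e1
    rw [← rr_conj hQ y hyi b]
    conv_rhs => rw [← e1]
    group
  rwa [e] at h2

variable (hA0 : ∀ a ∈ A, Q a ≠ 0)
  (hA2 : ∀ (x₁ x₂ : ι → F) (t : F), t ≠ 0 →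
    ∃ a ∈ A, Q a = t ∧ polar Q a x₁ = 0 ∧ polar Q a x₂ = 0)
include hA0 hA2

theorem cls_refl {b c : ι → F} (hb : b ∈ cls hQ M A) (hc : c ∈ cls hQ M A) :
    (rr hQ c : Matrix ι ι F) *ᵥ b ∈ cls hQ M A := by
  obtain ⟨a₂, ha₂, h₂, h₂c, -⟩ := hA2 c c (Q b) (cls_ns hA0 hb)
  obtain ⟨c', hc', h', h'b, h'a⟩ := hA2 b a₂ (Q c) (cls_ns hA0 hc)
  have hy : rr hQ c * rr hQ c' ∈ M := cls_wit hA1 hc hc' h'
  have hfix : ((rr hQ c * rr hQ c' : Matrix.GeneralLinearGroup ι F) : Matrix ι ι F) *ᵥ a₂ = a₂ := by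
    rw [Units.val_mul, ← Matrix.mulVec_mulVec,
      rr_fix hQ (b := c') (x := a₂) (by rw [oq_comm]; exact h'a), rr_fix hQ h₂c]
  have := cls_map hA1 hy (rr_mul_isom hQ c c') hb ha₂ h₂ hfix
  rwa [Units.val_mul, ← Matrix.mulVec_mulVec,
    rr_fix hQ (b := c') (x := b) (by rw [oq_comm]; exact h'b)] at this

theorem cls_refl_conj {h : Matrix.GeneralLinearGroup ι F} (hh : h ∈ M)
    (hhi : ∀ x, Q ((h : Matrix ι ι F) *ᵥ x) = Q x) {b c : ι → F} (hb : b ∈ cls hQ M A)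
    (hc : c ∈ A) :
    (rr hQ ((h : Matrix ι ι F) *ᵥ c) : Matrix ι ι F) *ᵥ b ∈ cls hQ M A := by
  obtain ⟨a, ha, h₁, h₁x, -⟩ :=
    hA2 (((h⁻¹ : Matrix.GeneralLinearGroup ι F) : Matrix ι ι F) *ᵥ b)
      (((h⁻¹ : Matrix.GeneralLinearGroup ι F) : Matrix ι ι F) *ᵥ b) (Q c) (hA0 c hc)
  have hab : polar Q b ((h : Matrix ι ι F) *ᵥ a) = 0 := by
    rw [oq_comm, ← gl_mulVec_inv h b, oq_polar_of_isom h hhi]
    exact h₁x
  have hy : rr hQ ((h : Matrix ι ι F) *ᵥ c) * rr hQ ((h : Matrix ι ι F) *ᵥ a) ∈ M := by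
    have h3 := M.mul_mem (M.mul_mem hh (hA1 c hc a ha h₁.symm)) (M.inv_mem hh)
    have e : h * (rr hQ c * rr hQ a) * h⁻¹ =
        rr hQ ((h : Matrix ι ι F) *ᵥ c) * rr hQ ((h : Matrix ι ι F) *ᵥ a) := by
      rw [← rr_conj hQ h hhi c, ← rr_conj hQ h hhi a]
      group
    rwa [e] at h3
  obtain ⟨a', ha', h', h'c, h'a⟩ := hA2 ((h : Matrix ι ι F) *ᵥ c) ((h : Matrix ι ι F) *ᵥ a) (Q b)
    (cls_ns hA0 hb)
  have hfix : ((rr hQ ((h : Matrix ι ι F) *ᵥ c) * rr hQ ((h : Matrix ι ι F) *ᵥ a) :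
      Matrix.GeneralLinearGroup ι F) : Matrix ι ι F) *ᵥ a' = a' := by
    rw [Units.val_mul, ← Matrix.mulVec_mulVec, rr_fix hQ h'a, rr_fix hQ h'c]
  have := cls_map hA1 hy (rr_mul_isom hQ _ _) hb ha' h' hfix
  rwa [Units.val_mul, ← Matrix.mulVec_mulVec, rr_fix hQ hab] at this

end

end cls

section P1

variable (hQ : Cfsg.Geo.IsNondegenerateQuadraticForm Q) (h2 : (2 : F) ≠ 0)
  (C : Set (ι → F)) (hCneg : ∀ b ∈ C, -b ∈ C)
  (hCrefl : ∀ b ∈ C, ∀ c ∈ C, (rr hQ c : Matrix ι ι F) *ᵥ b ∈ C)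
  (W : Submodule F (ι → F)) (hW : Cfsg.Geo.IsNondegenerateOn (polar Q) W)
  (hWC : ∀ a ∈ W, Q a ≠ 0 → a ∈ C)
  (c₀ : ι → F) (hc₀ : ∀ w ∈ W, polar Q c₀ w = 0)
include h2 hCrefl hW hWC hc₀

theorem cls_trans {z z' : ι → F} (hz'W : z' ∈ W) (hzW : z ∈ W) (hz' : z' ≠ 0) (hz : z ≠ 0)
    (hzz : Q z = Q z') (hb : c₀ + z' ∈ C) : c₀ + z ∈ C := by
  have step : ∀ u v : ι → F, u ∈ W → v ∈ W → Q u = Q v → Q (u - v) ≠ 0 → c₀ + u ∈ C →
      c₀ + v ∈ C := by
    intro u v hu hv huv hne hmem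
    have h1 := hCrefl _ hmem (u - v) (hWC _ (W.sub_mem hu hv) hne)
    have h3 : polar Q (c₀ + u) (u - v) = Q (u - v) := by
      rw [hQ.polar_bilinear.add_left, hc₀ _ (W.sub_mem hu hv), oq_sub_right hQ,
        oq_polar_self hQ, oq_sub hQ, ← huv]
      ring
    rw [rr_mulVec, h3, div_self hne] at h1
    have : c₀ + u - (1 : F) • (u - v) = c₀ + v := by module
    rwa [this] at h1
  by_cases h1 : Q (z' - z) = 0
  · by_cases hs : Q z = 0
    · have hp : polar Q z' z = 0 := by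
        rw [oq_sub hQ, ← hzz, hs] at h1
        linear_combination -h1
      obtain ⟨-, y₁, hy₁W, hy₁⟩ := hW z hzW hz
      obtain ⟨-, y₂, hy₂W, hy₂⟩ := hW z' hz'W hz'
      obtain ⟨y, hyW, hy, hy'⟩ : ∃ y ∈ W, polar Q z y ≠ 0 ∧ polar Q z' y ≠ 0 := by
        by_cases ha : polar Q z' y₁ = 0
        · by_cases hb' : polar Q z y₂ = 0
          · refine ⟨y₁ + y₂, W.add_mem hy₁W hy₂W, ?_, ?_⟩
            · rw [hQ.polar_bilinear.add_right, hb', add_zero]; exact hy₁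
            · rw [hQ.polar_bilinear.add_right, ha, zero_add]; exact hy₂
          · exact ⟨y₂, hy₂W, hb', hy₂⟩
        · exact ⟨y₁, hy₁W, hy₁, ha⟩
      obtain ⟨z'', hz''⟩ : ∃ z'', z'' = y - (Q y / polar Q z y) • z := ⟨_, rfl⟩
      have hz''W : z'' ∈ W := by
        rw [hz'']; exact W.sub_mem hyW (W.smul_mem _ hzW)
      have q1 : Q z'' = 0 := by
        rw [hz'', oq_sub hQ, hQ.smul, hs, hQ.polar_bilinear.smul_right, oq_comm y z]
        field_simp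
        ring
      have q2 : polar Q z z'' = polar Q z y := by
        rw [hz'', oq_sub_right hQ, hQ.polar_bilinear.smul_right, oq_polar_self hQ, hs]
        ring
      have q3 : polar Q z' z'' = polar Q z' y := by
        rw [hz'', oq_sub_right hQ, hQ.polar_bilinear.smul_right, hp]
        ring
      have s1 : c₀ + z'' ∈ C := by
        apply step z' z'' hz'W hz''W (by rw [q1, ← hzz, hs]) _ hb
        rw [oq_sub hQ, q1, ← hzz, hs, q3]
        simpa using hy'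
      apply step z'' z hz''W hzW (by rw [q1, hs]) _ s1
      rw [oq_sub hQ, q1, hs, oq_comm, q2]
      simpa using hy
    · have hp : polar Q z' z = 2 * Q z := by
        rw [oq_sub hQ, ← hzz] at h1
        linear_combination -h1
      have h4 : Q (z' + z) = 4 * Q z := by
        rw [oq_add Q, ← hzz, hp]; ring
      have h5 : (4 : F) * Q z ≠ 0 := by
        have : (4 : F) = 2 * 2 := by norm_num
        rw [this]
        exact mul_ne_zero (mul_ne_zero h2 h2) hs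
      have s1 := hCrefl _ hb (z' + z) (hWC _ (W.add_mem hz'W hzW) (by rw [h4]; exact h5))
      have h6 : polar Q (c₀ + z') (z' + z) = 4 * Q z := by
        rw [hQ.polar_bilinear.add_left, hc₀ _ (W.add_mem hz'W hzW), hQ.polar_bilinear.add_right,
          oq_polar_self hQ, hp, ← hzz]
        ring
      rw [rr_mulVec, h6, h4, div_self h5] at s1
      have e1 : c₀ + z' - (1 : F) • (z' + z) = c₀ - z := by module
      rw [e1] at s1
      have s2 := hCrefl _ s1 z (hWC _ hzW hs)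
      have h7 : polar Q (c₀ - z) z = -(2 * Q z) := by
        rw [oq_sub_left hQ, hc₀ _ hzW, oq_polar_self hQ]; ring
      rw [rr_mulVec, h7, neg_div, mul_div_assoc, div_self hs] at s2
      have e2 : c₀ - z - (-(2 * 1 : F)) • z = c₀ + z := by module
      rwa [e2] at s2
  · exact step z' z hz'W hzW hzz.symm h1 hb

include hCneg

theorem cls_P1 [Finite F] (hd : 6 < Module.finrank F W) {z₀ z : ι → F} (hz₀W : z₀ ∈ W)
    (hzW : z ∈ W) (hz₀ : z₀ ≠ 0) (hz : z ≠ 0) (hb : c₀ + z₀ ∈ C) (hb0 : Q (c₀ + z₀) ≠ 0)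
    (hns : Q (c₀ + z) ≠ 0) : c₀ + z ∈ C := by
  obtain ⟨z', hz'W, hz', hq, hp⟩ := rel_affine hQ W hW h2 hd z₀ hz₀W hz₀ (Q z₀ - Q c₀) (Q z)
  have hσ : Q (c₀ + z₀) = Q c₀ + Q z₀ := by rw [oq_add Q, hc₀ _ hz₀W, add_zero]
  have hσ' : Q (c₀ + z) = Q c₀ + Q z := by rw [oq_add Q, hc₀ _ hzW, add_zero]
  have ha : Q (z₀ - z') = Q (c₀ + z) := by
    rw [oq_sub hQ, hq, hp, hσ']; ring
  have haC : z₀ - z' ∈ C := hWC _ (W.sub_mem hz₀W hz'W) (by rw [ha]; exact hns)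
  have h1 := hCrefl _ haC _ hb
  have h3 : polar Q (z₀ - z') (c₀ + z₀) = Q (c₀ + z₀) := by
    rw [hQ.polar_bilinear.add_right, oq_comm _ c₀, hc₀ _ (W.sub_mem hz₀W hz'W), oq_sub_left hQ,
      oq_polar_self hQ, oq_comm z' z₀, hp, hσ]
    ring
  rw [rr_mulVec, h3, div_self hb0] at h1
  have e1 : z₀ - z' - (1 : F) • (c₀ + z₀) = -(c₀ + z') := by module
  rw [e1] at h1
  have h4 := hCneg _ h1
  rw [neg_neg] at h4
  exact cls_trans hQ h2 C hCrefl W hW hWC c₀ hc₀ hz'W hzW hz' hz hq.symm h4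

end P1

end Cfsg.Agent.Lib.Helper6
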