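import Cfsg.Agent.Lib.Helper6.OFrame

set_option autoImplicit false
set_option linter.unusedSectionVars false
open Cfsg

namespace Cfsg.Agent.Lib.Helper6

open Matrix QuadraticMap

theorem odec3 {F : Type*} [Field F] [Fintype F] (hq : Fintype.card F = 3) {ι : Type} [Fintype ι]
    [DecidableEq ι] (Q : (ι → F) → F) (hQ : Cfsg.Geo.IsNondegenerateQuadraticForm Q) {t : ℕ}
    (D : Fin t → Submodule F (ι → F)) (hD : Cfsg.Geo.IsOrthogonalMDecomposition Q 3 D) :
    ∃ K : Subgroup (Matrix.GeneralLinearGroup ι F),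
      Cfsg.Geo.decompositionStabilizer D ⊓ Cfsg.Geo.omegaGL Q < K ∧
        K < Cfsg.Geo.omegaGL Q := by
  classical
  have h3 := f3_cases hq
  have h30 := f3_three hq
  have bQ := hQ.polar_bilinear
  have ht := hD.decomp.decomp.two_le
  have hfr := fun i => exists_frame3 bQ (fun u v => polar_comm Q u v) h3 h30 (D i)
    (hD.decomp.decomp.finrank_eq i) (hD.decomp.nondegenerate i)
  choose κ w hw using hfr
  obtain ⟨i₀, hi₀⟩ : ∃ i₀ : Fin t, i₀ = ⟨0, by omega⟩ := ⟨_, rfl⟩
  have hκ : ∀ i, κ i = κ i₀ := by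
    intro i
    by_contra hne
    have hneg : κ i = -κ i₀ := by
      rcases (hw i).kap with h | h <;> rcases (hw i₀).kap with h' | h'
      · exact absurd (h.trans h'.symm) hne
      · rw [h, h', neg_neg]
      · rw [h, h']
      · exact absurd (h.trans h'.symm) hne
    obtain ⟨φ, hφ⟩ := hD.isometric i i₀
    have hpol : ∀ x y : D i, polar Q ((φ x : D i₀) : ι → F) ((φ y : D i₀) : ι → F) =
        polar Q (x : ι → F) (y : ι → F) := by
      intro x y
      unfold QuadraticMap.polar
      rw [← hφ x, ← hφ y, ← Submodule.coe_add, ← Submodule.coe_add, ← hφ (x + y), map_add]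
    refine (hw i₀).no_neg bQ h3 h30 (fun j => ((φ ⟨w i j, (hw i).mem j⟩ : D i₀) : ι → F))
      (fun j => (φ _).2) (fun j j' => ?_)
    rw [hpol, (hw i).gram, hneg]
  exact oframe hq Q hQ (k := 3) (by norm_num) ht D hD.decomp.orthogonal (κ i₀) (hw i₀).kap_ne w
    (fun i j => (hw i).mem j) (fun i j j' => by rw [(hw i).gram, hκ i])
    (fun i v hv hvv => (hw i).classify bQ h3 h30 hv (by rw [hκ i]; exact hvv))

theorem odec2 {F : Type*} [Field F] [Fintype F] (hq : Fintype.card F = 3) {ι : Type} [Fintype ι]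
    [DecidableEq ι] (Q : (ι → F) → F) (hQ : Cfsg.Geo.IsNondegenerateQuadraticForm Q) {t : ℕ}
    (D : Fin t → Submodule F (ι → F)) (hD : Cfsg.Geo.IsOrthogonalMDecomposition Q 2 D)
    (hminus : ∀ i, ¬ Cfsg.Geo.IsPlusTypeOn Q (D i)) :
    ∃ K : Subgroup (Matrix.GeneralLinearGroup ι F),
      Cfsg.Geo.decompositionStabilizer D ⊓ Cfsg.Geo.omegaGL Q < K ∧
        K < Cfsg.Geo.omegaGL Q := by
  classical
  have h3 := f3_cases hq
  have h30 := f3_three hq
  have h2ne : (2 : F) ≠ 0 := by
    intro h
    exact one_ne_zero (α := F) (by linear_combination h30 - h)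
  have bQ := hQ.polar_bilinear
  have ht := hD.decomp.decomp.two_le
  have hQval : ∀ v, Q v = - polar Q v v := by
    intro v
    have := oq_polar_self hQ v
    linear_combination this + Q v * h30
  have hfr : ∀ i, ∃ x ∈ D i, ∃ y ∈ D i, polar Q x x = 1 ∧ polar Q y y = 1 ∧ polar Q x y = 0 ∧
      ∀ d ∈ D i, ∃ α β : F, d = α • x + β • y := by
    intro i
    obtain ⟨w, hw, horth, hne, hspan⟩ := orthoN bQ (fun u v => polar_comm Q u v) h2ne (D i)
      (hD.decomp.decomp.finrank_eq i) (hD.decomp.nondegenerate i)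
    have h01 : polar Q (w 0) (w 1) = 0 := horth 0 1 (by decide)
    have h10 : polar Q (w 1) (w 0) = 0 := horth 1 0 (by decide)
    have hsp : ∀ d ∈ D i, ∃ α β : F, d = α • w 0 + β • w 1 := by
      intro d hd
      obtain ⟨α, rfl⟩ := hspan d hd
      exact ⟨α 0, α 1, by rw [Fin.sum_univ_two]⟩
    have hmixed : polar Q (w 0) (w 0) = - polar Q (w 1) (w 1) → False := by
      intro h
      apply hminus i
      have hs : Q (w 0 + w 1) = 0 := by
        rw [hQval]
        simp only [bQ.add_left, bQ.add_right, h01, h10, h]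
        ring
      have hne0 : w 0 + w 1 ≠ 0 := by
        intro h0
        have := congrArg (fun z => polar Q z (w 0)) h0
        simp only [bQ.add_left, h10, oq_zero_left hQ, add_zero] at this
        exact hne 0 this
      refine ⟨Submodule.span F {w 0 + w 1}, ?_, ?_, ?_⟩
      · rw [Submodule.span_singleton_le_iff_mem]
        exact (D i).add_mem (hw 0) (hw 1)
      · intro z hz
        obtain ⟨a, rfl⟩ := Submodule.mem_span_singleton.mp hz
        rw [hQ.smul, hs, mul_zero]
      · rw [finrank_span_singleton hne0, hD.decomp.decomp.finrank_eq i]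
    rcases (h3 _).resolve_left (hne 0) with n0 | n0 <;>
      rcases (h3 _).resolve_left (hne 1) with n1 | n1
    · exact ⟨w 0, hw 0, w 1, hw 1, n0, n1, h01, hsp⟩
    · exact (hmixed (by rw [n0, n1, neg_neg])).elim
    · exact (hmixed (by rw [n0, n1])).elim
    · refine ⟨w 0 + w 1, (D i).add_mem (hw 0) (hw 1), w 0 + (-1 : F) • w 1,
        (D i).add_mem (hw 0) ((D i).smul_mem _ (hw 1)), ?_, ?_, ?_, ?_⟩
      · simp only [bQ.add_left, bQ.add_right, h01, h10, n0, n1]
        linear_combination (-1 : F) * h30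
      · simp only [bQ.add_left, bQ.add_right, bQ.smul_left, bQ.smul_right, h01, h10, n0, n1]
        linear_combination (-1 : F) * h30
      · simp only [bQ.add_left, bQ.add_right, bQ.smul_left, bQ.smul_right, h01, h10, n0, n1]
        ring
      · intro d hd
        obtain ⟨α, β, rfl⟩ := hsp d hd
        refine ⟨-(α + β), -(α - β), ?_⟩
        have : (-(α + β)) • (w 0 + w 1) + (-(α - β)) • (w 0 + (-1 : F) • w 1) =
            α • w 0 + β • w 1 - ((3 : F) * α) • w 0 - ((3 : F) * β) • w 1 := by module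
        rw [this, h30]; simp
  choose x hx y hy hxx hyy hxy hsp using hfr
  have hyx : ∀ i, polar Q (y i) (x i) = 0 := fun i => by rw [polar_comm]; exact hxy i
  refine oframe hq Q hQ (k := 2) le_rfl ht D hD.decomp.orthogonal 1 one_ne_zero
    (fun i => ![x i, y i]) ?_ ?_ ?_
  · intro i j
    fin_cases j
    · exact hx i
    · exact hy i
  · intro i j j'
    fin_cases j <;> fin_cases j' <;> simp [hxx, hyy, hxy, hyx]
  · intro i v hv hvv
    obtain ⟨α, β, rfl⟩ := hsp i v hv
    have hsum : α * α + β * β = 1 := by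
      simp only [bQ.add_left, bQ.add_right, bQ.smul_left, bQ.smul_right, hxx, hyy, hxy, hyx] at hvv
      linear_combination hvv
    rcases h3 α with a0 | a0 | a0 <;> rcases h3 β with a1 | a1 | a1 <;> rw [a0, a1] at hsum ⊢
    all_goals first
      | exact absurd (by linear_combination hsum) (one_ne_zero (α := F))
      | exact absurd (by linear_combination -hsum) (one_ne_zero (α := F))
      | (refine ⟨0, 1, Or.inl rfl, ?_⟩; simp; done)
      | (refine ⟨0, -1, Or.inr rfl, ?_⟩; simp; done)
      | (refine ⟨1, 1, Or.inl rfl, ?_⟩; simp; done)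
      | (refine ⟨1, -1, Or.inr rfl, ?_⟩; simp; done)

end Cfsg.Agent.Lib.Helper6
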