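import Cfsg.Agent.Lib.Helper6.OTens3

set_option autoImplicit false
set_option linter.unusedSectionVars false
open Cfsg

namespace Cfsg.Agent.Lib.Helper6

open Matrix QuadraticMap

theorem oframe {F : Type*} [Field F] [Fintype F] (hq : Fintype.card F = 3) {ι : Type} [Fintype ι]
    [DecidableEq ι] (Q : (ι → F) → F) (hQ : Cfsg.Geo.IsNondegenerateQuadraticForm Q) {t k : ℕ}
    (hk : 2 ≤ k) (ht : 2 ≤ t) (D : Fin t → Submodule F (ι → F))
    (horth : ∀ i j, i ≠ j → Cfsg.Geo.AreOrthogonalFor (polar Q) (D i) (D j))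
    (κ : F) (hκ : κ ≠ 0) (W : Fin t → Fin k → ι → F) (hW : ∀ i j, W i j ∈ D i)
    (hgram : ∀ i j j', polar Q (W i j) (W i j') = if j = j' then κ else 0)
    (hclass : ∀ i, ∀ v ∈ D i, polar Q v v = κ →
      ∃ (j : Fin k) (ε : F), (ε = 1 ∨ ε = -1) ∧ v = ε • W i j) :
    ∃ K : Subgroup (Matrix.GeneralLinearGroup ι F),
      Cfsg.Geo.decompositionStabilizer D ⊓ Cfsg.Geo.omegaGL Q < K ∧
        K < Cfsg.Geo.omegaGL Q := by
  classical
  have h30 := f3_three hq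
  have bQ := hQ.polar_bilinear
  have hQval : ∀ v, Q v = - polar Q v v := by
    intro v
    have := oq_polar_self hQ v
    linear_combination this + Q v * h30
  obtain ⟨V, hV⟩ : ∃ V : Fin t × Fin k → ι → F, V = fun α => W α.1 α.2 := ⟨_, rfl⟩
  have hVmem : ∀ α, V α ∈ D α.1 := by
    intro α; rw [hV]; exact hW _ _
  have gram : ∀ α β, polar Q (V α) (V β) = if α = β then κ else 0 := by
    rintro ⟨i, j⟩ ⟨i', j'⟩
    rw [hV]
    by_cases hi : i = i'
    · subst hi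
      simp only [hgram, Prod.mk.injEq, true_and]
    · rw [if_neg (by simp [hi])]
      exact horth i i' hi _ (hW _ _) _ (hW _ _)
  obtain ⟨S, hS⟩ : ∃ S : Set (ι → F), S = {v | ∃ i, v ∈ D i ∧ polar Q v v = κ} := ⟨_, rfl⟩
  have inS : ∀ γ (ε : F), (ε = 1 ∨ ε = -1) → ε • V γ ∈ S := by
    intro γ ε hε
    rw [hS]
    refine ⟨γ.1, (D γ.1).smul_mem _ (hVmem γ), ?_⟩
    rw [bQ.smul_left, bQ.smul_right, gram, if_pos rfl]
    rcases hε with rfl | rfl <;> ring
  have ofS : ∀ v ∈ S, ∃ (γ : Fin t × Fin k) (ε : F), (ε = 1 ∨ ε = -1) ∧ v = ε • V γ := by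
    intro v hv
    rw [hS] at hv
    obtain ⟨i, hvi, hvv⟩ := hv
    obtain ⟨j, ε, hε, rfl⟩ := hclass i v hvi hvv
    exact ⟨(i, j), ε, hε, by rw [hV]⟩
  have hQd : ∀ α β, α ≠ β → Q (V α + (-1 : F) • V β) = κ := by
    intro α β hαβ
    rw [hQval]
    simp only [bQ.add_left, bQ.add_right, bQ.smul_left, bQ.smul_right, gram, if_neg hαβ,
      if_neg (Ne.symm hαβ), if_true]
    linear_combination (-κ) * h30
  have hsw : ∀ α β, α ≠ β → ∀ γ (ε : F),
      (rr hQ (V α + (-1 : F) • V β) : Matrix ι ι F) *ᵥ (ε • V γ) =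
        ε • V (if γ = α then β else if γ = β then α else γ) := by
    intro α β hαβ γ ε
    rw [rr_mulVec, hQd α β hαβ]
    simp only [bQ.add_right, bQ.smul_left, bQ.smul_right, gram]
    by_cases h1 : γ = α
    · subst h1
      rw [if_pos rfl, if_pos rfl, if_neg hαβ]
      have : (ε * κ + ε * (-1 * 0)) / κ = ε := by field_simp; ring
      rw [this]
      module
    · by_cases h2 : γ = β
      · subst h2
        rw [if_neg h1, if_pos rfl, if_neg h1, if_pos rfl]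
        have : (ε * 0 + ε * (-1 * κ)) / κ = -ε := by field_simp; ring
        rw [this]
        module
      · rw [if_neg h1, if_neg h2, if_neg h1, if_neg h2]
        simp
  let K : Subgroup (Matrix.GeneralLinearGroup ι F) :=
    { carrier := {g | g ∈ Cfsg.Geo.omegaGL Q ∧
        ∀ v, v ∈ S ↔ (g : Matrix ι ι F) *ᵥ v ∈ S}
      mul_mem' := by
        rintro a b ⟨ha, ha'⟩ ⟨hb, hb'⟩
        refine ⟨Subgroup.mul_mem _ ha hb, fun v => ?_⟩
        rw [Units.val_mul, ← Matrix.mulVec_mulVec, ← ha', ← hb']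
      one_mem' := ⟨Subgroup.one_mem _, fun v => by simp⟩
      inv_mem' := by
        rintro a ⟨ha, ha'⟩
        refine ⟨Subgroup.inv_mem _ ha, fun v => ?_⟩
        rw [ha' (((a⁻¹ : Matrix.GeneralLinearGroup ι F) : Matrix ι ι F) *ᵥ v), gl_mulVec_inv] }
  have hKmem : ∀ g, g ∈ K ↔ (g ∈ Cfsg.Geo.omegaGL Q ∧
        ∀ v, v ∈ S ↔ (g : Matrix ι ι F) *ᵥ v ∈ S) := fun g => Iff.rfl
  obtain ⟨i₁, hi₁⟩ : ∃ i₁ : Fin t, i₁ = ⟨0, by omega⟩ := ⟨_, rfl⟩
  obtain ⟨i₂, hi₂⟩ : ∃ i₂ : Fin t, i₂ = ⟨1, by omega⟩ := ⟨_, rfl⟩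
  have hi12 : i₁ ≠ i₂ := by
    rw [hi₁, hi₂]; intro h; simpa using congrArg Fin.val h
  obtain ⟨j₀, hj₀⟩ : ∃ j₀ : Fin k, j₀ = ⟨0, by omega⟩ := ⟨_, rfl⟩
  obtain ⟨j₁, hj₁⟩ : ∃ j₁ : Fin k, j₁ = ⟨1, by omega⟩ := ⟨_, rfl⟩
  have hj01 : j₀ ≠ j₁ := by
    rw [hj₀, hj₁]; intro h; simpa using congrArg Fin.val h
  obtain ⟨α, hα⟩ : ∃ α : Fin t × Fin k, α = (i₁, j₀) := ⟨_, rfl⟩
  obtain ⟨β, hβ⟩ : ∃ β : Fin t × Fin k, β = (i₂, j₀) := ⟨_, rfl⟩
  obtain ⟨γ, hγ⟩ : ∃ γ : Fin t × Fin k, γ = (i₁, j₁) := ⟨_, rfl⟩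
  obtain ⟨δ, hδ⟩ : ∃ δ : Fin t × Fin k, δ = (i₂, j₁) := ⟨_, rfl⟩
  have hαβ : α ≠ β := by rw [hα, hβ]; simp [hi12]
  have hαγ : α ≠ γ := by rw [hα, hγ]; simp [hj01]
  have hαδ : α ≠ δ := by rw [hα, hδ]; simp [hi12]
  have hβγ : β ≠ γ := by rw [hβ, hγ]; simp [hi12.symm]
  have hβδ : β ≠ δ := by rw [hβ, hδ]; simp [hj01]
  have hγδ : γ ≠ δ := by rw [hγ, hδ]; simp [hi12]
  have mα : V α ∈ D i₁ := by rw [hα]; exact hVmem (i₁, j₀)
  have mβ : V β ∈ D i₂ := by rw [hβ]; exact hVmem (i₂, j₀)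
  have mγ : V γ ∈ D i₁ := by rw [hγ]; exact hVmem (i₁, j₁)
  refine ⟨K, ?_, ?_⟩
  · refine lt_of_le_of_ne ?_ ?_
    · have fwd : ∀ g ∈ Cfsg.Geo.decompositionStabilizer D ⊓ Cfsg.Geo.omegaGL Q, ∀ v ∈ S,
          (g : Matrix ι ι F) *ᵥ v ∈ S := by
        intro g hg v hv
        obtain ⟨⟨τ, hτ⟩, hgG⟩ := Subgroup.mem_inf.mp hg
        have hiso : ∀ x, Q ((g : Matrix ι ι F) *ᵥ x) = Q x := by
          obtain ⟨g', -, rfl⟩ := hgG
          exact (mem_isometryGroup_iff _).mp g'.2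
        rw [hS] at hv ⊢
        obtain ⟨i, hvi, hvv⟩ := hv
        refine ⟨τ i, ?_, by rw [oq_polar_of_isom g hiso]; exact hvv⟩
        rw [← hτ i]
        exact ⟨v, hvi, rfl⟩
      intro g hg
      refine (hKmem g).mpr ⟨(Subgroup.mem_inf.mp hg).2, fun v => ⟨fwd g hg v, fun hv => ?_⟩⟩
      have := fwd g⁻¹ (Subgroup.inv_mem _ hg) _ hv
      rwa [gl_inv_mulVec] at this
    · intro heq
      have hfwd : ∀ α β, α ≠ β → ∀ v, v ∈ S →
          (rr hQ (V α + (-1 : F) • V β) : Matrix ι ι F) *ᵥ v ∈ S := by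
        intro α β hαβ v hv
        obtain ⟨γ, ε, hε, rfl⟩ := ofS v hv
        rw [hsw α β hαβ]
        exact inS _ ε hε
      have hboth : ∀ α β, α ≠ β → ∀ v, v ∈ S ↔
          (rr hQ (V α + (-1 : F) • V β) : Matrix ι ι F) *ᵥ v ∈ S := by
        intro α β hαβ v
        refine ⟨hfwd α β hαβ v, fun hv => ?_⟩
        have h1 := hfwd α β hαβ _ hv
        rwa [Matrix.mulVec_mulVec, ← Units.val_mul, rr_mul_self, Units.val_one,
          Matrix.one_mulVec] at h1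
      have hg0 : rr hQ (V α + (-1 : F) • V β) * rr hQ (V γ + (-1 : F) • V α) ∈ K := by
        refine (hKmem _).mpr ⟨rr_mul_rr_mem_omega' hQ _ _
          (by rw [hQd α β hαβ, hQd γ α hαγ.symm]) (by rw [hQd α β hαβ]; exact hκ), fun v => ?_⟩
        rw [Units.val_mul, ← Matrix.mulVec_mulVec, ← hboth α β hαβ, ← hboth γ α hαγ.symm]
      rw [← heq] at hg0
      obtain ⟨⟨τ, hτ⟩, -⟩ := Subgroup.mem_inf.mp hg0
      have e1 : ((rr hQ (V α + (-1 : F) • V β) * rr hQ (V γ + (-1 : F) • V α) :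
          Matrix.GeneralLinearGroup ι F) : Matrix ι ι F) *ᵥ V γ = V β := by
        have h1 := hsw γ α hαγ.symm γ 1
        have h2 := hsw α β hαβ α 1
        rw [if_pos rfl] at h1 h2
        simp only [one_smul] at h1 h2
        rw [Units.val_mul, ← Matrix.mulVec_mulVec, h1, h2]
      have e2 : ((rr hQ (V α + (-1 : F) • V β) * rr hQ (V γ + (-1 : F) • V α) :
          Matrix.GeneralLinearGroup ι F) : Matrix ι ι F) *ᵥ V α = V γ := by
        have h1 := hsw γ α hαγ.symm α 1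
        have h2 := hsw α β hαβ γ 1
        rw [if_neg hαγ, if_pos rfl] at h1
        rw [if_neg hαγ.symm, if_neg hβγ.symm] at h2
        simp only [one_smul] at h1 h2
        rw [Units.val_mul, ← Matrix.mulVec_mulVec, h1, h2]
      have m1 : V β ∈ D (τ i₁) := by
        rw [← hτ i₁]; exact ⟨V γ, mγ, e1⟩
      have m2 : V γ ∈ D (τ i₁) := by
        rw [← hτ i₁]; exact ⟨V α, mα, e2⟩
      by_cases hc : τ i₁ = i₁
      · rw [hc] at m1
        have := horth i₁ i₂ hi12 _ m1 _ mβ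
        rw [gram, if_pos rfl] at this
        exact hκ this
      · have := horth (τ i₁) i₁ hc _ m2 _ mγ
        rw [gram, if_pos rfl] at this
        exact hκ this
  · refine lt_of_le_of_ne (fun g hg => ((hKmem g).mp hg).1) ?_
    intro heq
    obtain ⟨b, hb⟩ : ∃ b, b = V α + V γ + V β + V δ := ⟨_, rfl⟩
    have hQb : Q b = -κ := by
      rw [hQval, hb]
      simp only [bQ.add_left, bQ.add_right, gram, if_neg hαβ, if_neg hαγ, if_neg hαδ, if_neg hβγ,
        if_neg hβδ, if_neg hγδ, if_neg hαβ.symm, if_neg hαγ.symm, if_neg hαδ.symm,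
        if_neg hβγ.symm, if_neg hβδ.symm, if_neg hγδ.symm, if_true]
      linear_combination (-κ) * h30
    have hQα : Q (V α) = -κ := by rw [hQval, gram, if_pos rfl]
    have hg1 : rr hQ b * rr hQ (V α) ∈ Cfsg.Geo.omegaGL Q :=
      rr_mul_rr_mem_omega' hQ _ _ (by rw [hQb, hQα]) (by rw [hQb]; exact neg_ne_zero.mpr hκ)
    rw [← heq] at hg1
    have h1 := (((hKmem _).mp hg1).2 (V α)).mp (by
      have := inS α 1 (Or.inl rfl)
      rwa [one_smul] at this)
    have e2 : (rr hQ b : Matrix ι ι F) *ᵥ (-V α) = -V α + (-1 : F) • b := by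
      rw [rr_mulVec, hQb]
      have : polar Q (-V α) b = -κ := by
        rw [oq_neg_left hQ, hb]
        simp only [bQ.add_right, gram, if_neg hαβ, if_neg hαγ, if_neg hαδ, if_true]
        ring
      rw [this]
      have : -κ / -κ = 1 := by field_simp
      rw [this]
      module
    rw [Units.val_mul, ← Matrix.mulVec_mulVec, rr_self hQ _ (by rw [hQα]; exact neg_ne_zero.mpr hκ),
      e2, hS] at h1
    obtain ⟨j, hj, -⟩ := h1
    by_cases hc : j = i₁
    · rw [hc] at hj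
      have := horth i₁ i₂ hi12 _ hj _ mβ
      rw [hb] at this
      simp only [bQ.add_left, bQ.smul_left, oq_neg_left hQ, gram, if_neg hαβ, if_neg hβγ.symm,
        if_neg hβδ.symm, if_true] at this
      apply hκ
      linear_combination -this
    · have := horth j i₁ hc _ hj _ mγ
      rw [hb] at this
      simp only [bQ.add_left, bQ.smul_left, oq_neg_left hQ, gram, if_neg hαγ, if_neg hβγ,
        if_neg hγδ.symm, if_true] at this
      apply hκ
      linear_combination -this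

end Cfsg.Agent.Lib.Helper6
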