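import Mathlib
import Cfsg.Agent.Lib.Helper6.OClass

set_option autoImplicit false
set_option linter.unusedSectionVars false

namespace Cfsg.Agent.Lib.Helper6

open Matrix Cfsg QuadraticMap

variable {F : Type*} [Field F] {ι : Type} [Fintype ι] [DecidableEq ι] {Q : (ι → F) → F}

theorem exists_ne_two (h2 : (2 : F) ≠ 0) (p q : F) : ∃ τ : F, τ ≠ p ∧ τ ≠ q := by
  by_cases h : p + 1 = q
  · refine ⟨p - 1, ?_, ?_⟩
    · intro h'
      have : (1 : F) = 0 := by linear_combination -h'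
      exact one_ne_zero this
    · intro h'
      apply h2
      linear_combination h - h'
  · refine ⟨p + 1, ?_, h⟩
    intro h'
    have : (1 : F) = 0 := by linear_combination h'
    exact one_ne_zero this

/-- Two orthogonal nondegenerate halves of dimension at least seven: a subgroup containing the
reflection pairs of the two halves and an isometry moving the decomposition contains all
reflection pairs. -/
theorem halves_all [Finite F] (hQ : Cfsg.Geo.IsNondegenerateQuadraticForm Q) (h2 : (2 : F) ≠ 0)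
    (W W' : Submodule F (ι → F))
    (hW : Cfsg.Geo.IsNondegenerateOn (polar Q) W) (hW' : Cfsg.Geo.IsNondegenerateOn (polar Q) W')
    (horth : ∀ u ∈ W, ∀ v ∈ W', polar Q u v = 0)
    (hdec : ∀ v, ∃ v₀ ∈ W, ∃ v₁ ∈ W', v = v₀ + v₁)
    (hd : 6 < Module.finrank F W) (hd' : 6 < Module.finrank F W')
    (M : Subgroup (Matrix.GeneralLinearGroup ι F))
    (hM : ∀ a a', (a ∈ W ∨ a ∈ W') → (a' ∈ W ∨ a' ∈ W') → Q a = Q a' → Q a ≠ 0 →
      rr hQ a * rr hQ a' ∈ M)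
    (h : Matrix.GeneralLinearGroup ι F) (hh : h ∈ M)
    (hhi : ∀ x, Q ((h : Matrix ι ι F) *ᵥ x) = Q x)
    (x₁ : ι → F) (hx₁ : x₁ ∈ W) (hx₁' : (h : Matrix ι ι F) *ᵥ x₁ ∉ W)
    (x₂ : ι → F) (hx₂ : x₂ ∈ W) (hx₂' : (h : Matrix ι ι F) *ᵥ x₂ ∉ W') :
    ∀ a a', Q a = Q a' → Q a ≠ 0 → rr hQ a * rr hQ a' ∈ M := by
  obtain ⟨A, hAdef⟩ : ∃ A : Set (ι → F), A = {a | Q a ≠ 0 ∧ (a ∈ W ∨ a ∈ W')} := ⟨_, rfl⟩
  have hA0 : ∀ a ∈ A, Q a ≠ 0 := by
    intro a ha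
    rw [hAdef] at ha
    exact ha.1
  have hA1 : ∀ a ∈ A, ∀ a' ∈ A, Q a = Q a' → rr hQ a * rr hQ a' ∈ M := by
    intro a ha a' ha' haa
    rw [hAdef] at ha ha'
    exact hM a a' ha.2 ha'.2 haa ha.1
  have hA2 : ∀ (x₁ x₂ : ι → F) (t : F), t ≠ 0 →
      ∃ a ∈ A, Q a = t ∧ polar Q a x₁ = 0 ∧ polar Q a x₂ = 0 := by
    intro y₁ y₂ t ht
    obtain ⟨a, haW, hat, hax⟩ := rel_value hQ W hW h2 (k := 2) (by omega) ![y₁, y₂] t
    refine ⟨a, ?_, hat, hax 0, hax 1⟩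
    rw [hAdef]
    exact ⟨by rw [hat]; exact ht, Or.inl haW⟩
  obtain ⟨C, hCdef⟩ : ∃ C, C = cls hQ M A := ⟨_, rfl⟩
  have hCneg : ∀ b ∈ C, -b ∈ C := by
    intro b hb
    rw [hCdef] at hb ⊢
    exact cls_neg hb
  have hCrefl : ∀ b ∈ C, ∀ c ∈ C, (rr hQ c : Matrix ι ι F) *ᵥ b ∈ C := by
    intro b hb c hc
    rw [hCdef] at hb hc ⊢
    exact cls_refl hA1 hA0 hA2 hb hc
  have hCns : ∀ b ∈ C, Q b ≠ 0 := by
    intro b hb
    rw [hCdef] at hb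
    exact cls_ns hA0 hb
  have hWC : ∀ a ∈ W, Q a ≠ 0 → a ∈ C := by
    intro a ha hne
    rw [hCdef]
    apply cls_of_mem
    rw [hAdef]
    exact ⟨hne, Or.inl ha⟩
  have hW'C : ∀ a ∈ W', Q a ≠ 0 → a ∈ C := by
    intro a ha hne
    rw [hCdef]
    apply cls_of_mem
    rw [hAdef]
    exact ⟨hne, Or.inr ha⟩
  have horth' : ∀ v ∈ W', ∀ u ∈ W, polar Q v u = 0 := by
    intro v hv u hu
    rw [oq_comm]; exact horth u hu v hv
  -- a nonsingular vector of `W` moved off both halves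
  obtain ⟨b₁, hb₁W, hb₁0, hb₁⟩ := rel_sep hQ W hW (W.comap (Matrix.mulVecLin (h : Matrix ι ι F)))
    ⟨x₁, hx₁, hx₁'⟩
  obtain ⟨b₂, hb₂W, hb₂0, hb₂⟩ := rel_sep hQ W hW (W'.comap (Matrix.mulVecLin (h : Matrix ι ι F)))
    ⟨x₂, hx₂, hx₂'⟩
  obtain ⟨ct, hctW, hct0, hct1, hct2⟩ := rel_two hQ W hW hd b₁ b₂ hb₁W hb₂W hb₁0 hb₂0
  have hc1 : (h : Matrix ι ι F) *ᵥ ct ∉ W := by
    intro hmem
    apply hct1
    rw [oq_comm]
    exact hb₁ ct hmem hctW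
  have hc2 : (h : Matrix ι ι F) *ᵥ ct ∉ W' := by
    intro hmem
    apply hct2
    rw [oq_comm]
    exact hb₂ ct hmem hctW
  obtain ⟨c₀, hc₀W, c₁, hc₁W, hc⟩ := hdec ((h : Matrix ι ι F) *ᵥ ct)
  have hc₀0 : c₀ ≠ 0 := by
    rintro rfl
    apply hc2
    rw [hc, zero_add]; exact hc₁W
  have hc₁0 : c₁ ≠ 0 := by
    rintro rfl
    apply hc1
    rw [hc, add_zero]; exact hc₀W
  obtain ⟨t, ht⟩ : ∃ t, t = Q ct := ⟨_, rfl⟩
  have ht0 : t ≠ 0 := by rw [ht]; exact hct0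
  obtain ⟨a, haW, ha0, haq, hap⟩ := rel_affine hQ W hW h2 hd c₀ hc₀W hc₀0 t t
  have haC : a ∈ cls hQ M A := by
    rw [← hCdef]; exact hWC a haW (by rw [haq]; exact ht0)
  have hctA : ct ∈ A := by
    rw [hAdef]; exact ⟨hct0, Or.inl hctW⟩
  have hmix := cls_refl_conj hA1 hA0 hA2 hh hhi haC hctA
  rw [← hCdef, rr_mulVec, hhi, ← ht, hc, hQ.polar_bilinear.add_right, horth a haW c₁ hc₁W,
    oq_comm a c₀, hap, add_zero, div_self ht0] at hmix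
  have e1 : a - (1 : F) • (c₀ + c₁) = (a - c₀) + (-c₁) := by module
  rw [e1] at hmix
  have hu₀W : a - c₀ ∈ W := W.sub_mem haW hc₀W
  have hu₁W : -c₁ ∈ W' := W'.neg_mem hc₁W
  have hu₁0 : -c₁ ≠ 0 := neg_ne_zero.mpr hc₁0
  have hu₀0 : a - c₀ ≠ 0 := by
    intro h0
    have hac : a = c₀ := sub_eq_zero.mp h0
    rw [← hac, oq_polar_self hQ, haq] at hap
    apply ht0
    linear_combination hap
  -- every nonsingular vector lies in `C`
  have hall : ∀ y, Q y ≠ 0 → y ∈ C := by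
    intro y hy
    obtain ⟨y₀, hy₀W, y₁, hy₁W, rfl⟩ := hdec y
    by_cases hy₀ : y₀ = 0
    · subst hy₀
      rw [zero_add] at hy ⊢
      exact hW'C y₁ hy₁W hy
    by_cases hy₁ : y₁ = 0
    · subst hy₁
      rw [add_zero] at hy ⊢
      exact hWC y₀ hy₀W hy
    obtain ⟨τ, hτ1, hτ2⟩ := exists_ne_two h2 (-Q (a - c₀)) (-Q y₀)
    obtain ⟨z, hzW, hz0, hzq, -⟩ := rel_affine hQ W' hW' h2 hd' (-c₁) hu₁W hu₁0 0 τ
    have n1 : Q ((a - c₀) + z) ≠ 0 := by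
      rw [oq_add Q, horth _ hu₀W z hzW, hzq, add_zero]
      intro h0
      apply hτ1
      linear_combination h0
    have n2 : Q (z + y₀) ≠ 0 := by
      rw [oq_add Q, horth' z hzW _ hy₀W, hzq, add_zero]
      intro h0
      apply hτ2
      linear_combination h0
    have s1 : (a - c₀) + z ∈ C :=
      cls_P1 hQ h2 C hCneg hCrefl W' hW' hW'C (a - c₀) (horth _ hu₀W) hd' hu₁W hzW hu₁0 hz0 hmix
        (hCns _ hmix) n1
    have s1' : z + (a - c₀) ∈ C := by rw [add_comm]; exact s1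
    have s2 : z + y₀ ∈ C :=
      cls_P1 hQ h2 C hCneg hCrefl W hW hWC z (horth' _ hzW) hd hu₀W hy₀W hu₀0 hy₀ s1'
        (hCns _ s1') n2
    have s2' : y₀ + z ∈ C := by rw [add_comm]; exact s2
    exact cls_P1 hQ h2 C hCneg hCrefl W' hW' hW'C y₀ (horth _ hy₀W) hd' hzW hy₁W hz0 hy₁ s2'
      (hCns _ s2') hy
  intro a₁ a₂ h12 hne
  have m1 := hall a₁ hne
  have m2 := hall a₂ (by rw [← h12]; exact hne)
  rw [hCdef] at m1 m2
  exact cls_pair hA1 m1 m2 h12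

end Cfsg.Agent.Lib.Helper6
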