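import Mathlib
import Cfsg.Agent.Lib.Helper6.OTsPair

set_option autoImplicit false
set_option linter.unusedSectionVars false

namespace Cfsg.Agent.Lib.Helper6

open Matrix Cfsg QuadraticMap

variable {F : Type*} [Field F] {ι : Type} [Fintype ι] [DecidableEq ι] {Q : (ι → F) → F}
  (hQ : Cfsg.Geo.IsNondegenerateQuadraticForm Q)

theorem rr_list_mem_omega {c : F} (hc : c ≠ 0) (L : List (ι → F)) (hL : ∀ v ∈ L, Q v = c) :
    (Even L.length → (L.map (rr hQ)).prod ∈ Cfsg.Geo.omegaGL Q) ∧
      (Odd L.length → ∀ a, Q a = c → rr hQ a * (L.map (rr hQ)).prod ∈ Cfsg.Geo.omegaGL Q) := by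
  induction L with
  | nil =>
    refine ⟨fun _ => by simp, fun h => ?_⟩
    simp at h
  | cons v L ih =>
    obtain ⟨ih1, ih2⟩ := ih (fun x hx => hL x (List.mem_cons_of_mem _ hx))
    have hv : Q v = c := hL v List.mem_cons_self
    constructor
    · intro h
      rw [List.length_cons, Nat.even_add_one, Nat.not_even_iff_odd] at h
      rw [List.map_cons, List.prod_cons]
      exact ih2 h v hv
    · intro h a ha
      rw [List.length_cons, Nat.odd_add_one, Nat.not_odd_iff_even] at h
      rw [List.map_cons, List.prod_cons, ← mul_assoc]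
      exact Subgroup.mul_mem _
        (rr_mul_rr_mem_omega' hQ a v (by rw [ha, hv]) (by rw [ha]; exact hc)) (ih1 h)

theorem swap_aux {k : ℕ} (e f : Fin k → ι → F)
    (hef : ∀ i j, polar Q (e i) (f j) = if i = j then 1 else 0)
    (hee : ∀ i j, polar Q (e i) (e j) = 0) (hff : ∀ i j, polar Q (f i) (f j) = 0)
    (hqe : ∀ i, Q (e i) = 0) (hqf : ∀ i, Q (f i) = 0) :
    ∀ l : List (Fin k), l.Nodup → ∀ i,
      (((l.map (fun j => rr hQ (e j - f j))).prod : Matrix.GeneralLinearGroup ι F) :
        Matrix ι ι F) *ᵥ e i = (if i ∈ l then f i else e i) ∧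
      (((l.map (fun j => rr hQ (e j - f j))).prod : Matrix.GeneralLinearGroup ι F) :
        Matrix ι ι F) *ᵥ f i = (if i ∈ l then e i else f i) := by
  have hqd : ∀ j, Q (e j - f j) = -1 := by
    intro j
    rw [oq_sub hQ, hqe, hqf, hef, if_pos rfl]; ring
  have r1 : ∀ i j, (rr hQ (e j - f j) : Matrix ι ι F) *ᵥ e i = if i = j then f j else e i := by
    intro i j
    rw [rr_mulVec, hqd, oq_sub_right hQ, hee, hef]
    by_cases hij : i = j
    · subst hij
      rw [if_pos rfl, if_pos rfl]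
      have : ((0 - 1) / (-1) : F) = 1 := by norm_num
      rw [this]; module
    · rw [if_neg hij, if_neg hij]; simp
  have r2 : ∀ i j, (rr hQ (e j - f j) : Matrix ι ι F) *ᵥ f i = if i = j then e j else f i := by
    intro i j
    rw [rr_mulVec, hqd, oq_sub_right hQ, hff, oq_comm (f i) (e j), hef]
    by_cases hij : i = j
    · subst hij
      rw [if_pos rfl, if_pos rfl]
      have : ((1 - 0) / (-1) : F) = -1 := by norm_num
      rw [this]; module
    · rw [if_neg (fun h => hij h.symm), if_neg hij]; simp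
  intro l
  induction l with
  | nil =>
    intro _ i
    simp
  | cons j l ih =>
    intro hnd i
    rw [List.nodup_cons] at hnd
    obtain ⟨ih1, ih2⟩ := ih hnd.2 i
    rw [List.map_cons, List.prod_cons, Units.val_mul, ← Matrix.mulVec_mulVec,
      ← Matrix.mulVec_mulVec, ih1, ih2]
    by_cases hij : i = j
    · subst hij
      rw [if_neg hnd.1, if_neg hnd.1, r1, r2, if_pos rfl, if_pos rfl,
        if_pos List.mem_cons_self, if_pos List.mem_cons_self]
      exact ⟨rfl, rfl⟩
    · by_cases hil : i ∈ l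
      · rw [if_pos hil, if_pos hil, r1, r2, if_neg hij, if_neg hij,
          if_pos (List.mem_cons_of_mem _ hil), if_pos (List.mem_cons_of_mem _ hil)]
        exact ⟨rfl, rfl⟩
      · have hn : i ∉ j :: l := by
          rw [List.mem_cons]; push Not; exact ⟨hij, hil⟩
        rw [if_neg hil, if_neg hil, r1, r2, if_neg hij, if_neg hij, if_neg hn, if_neg hn]
        exact ⟨rfl, rfl⟩

include hQ in
theorem exists_swap {A B : Submodule F (ι → F)} (hA : ∀ a ∈ A, Q a = 0) (hB : ∀ b ∈ B, Q b = 0)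
    (hdec : ∀ v, ∃ a ∈ A, ∃ b ∈ B, v = a + b) (hke : Even (Module.finrank F A)) :
    ∃ s ∈ Cfsg.Geo.omegaGL Q, (∀ x ∈ A, (s : Matrix ι ι F) *ᵥ x ∈ B) ∧
      (∀ x ∈ B, (s : Matrix ι ι F) *ᵥ x ∈ A) := by
  let bA := Module.finBasis F A
  obtain ⟨e, he⟩ : ∃ e : Fin (Module.finrank F A) → ι → F, e = fun i => (bA i : ι → F) :=
    ⟨_, rfl⟩
  have heA : ∀ i, e i ∈ A := by
    intro i; rw [he]; exact (bA i).2
  have hli : LinearIndependent F e := by
    have := bA.linearIndependent.map' A.subtype (Submodule.ker_subtype A)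
    rw [he]; exact this
  have hspan : Submodule.span F (Set.range e) = A := by
    have h1 := bA.span_eq
    have h2 := congrArg (Submodule.map A.subtype) h1
    rw [Submodule.map_span, Submodule.map_subtype_top, ← Set.range_comp] at h2
    rw [he]; exact h2
  have hf : ∀ j, ∃ b ∈ B, ∀ i, polar Q (e i) b = if i = j then 1 else 0 := by
    intro j
    have hX : Submodule.span F (e '' {j}ᶜ) ≤ A := by
      rw [Submodule.span_le]
      rintro _ ⟨i, -, rfl⟩
      exact heA i
    have hj : e j ∉ Submodule.span F (e '' {j}ᶜ) :=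
      hli.notMem_span_image (by simp)
    obtain ⟨b₀, hb₀, hb₀X, hb₀j⟩ := ts_sep hQ hA hB hdec _ hX (heA j) hj
    refine ⟨(polar Q b₀ (e j))⁻¹ • b₀, B.smul_mem _ hb₀, fun i => ?_⟩
    rw [hQ.polar_bilinear.smul_right, oq_comm (e i) b₀]
    by_cases hij : i = j
    · subst hij
      rw [if_pos rfl, inv_mul_cancel₀ hb₀j]
    · rw [if_neg hij, hb₀X (e i) (Submodule.subset_span ⟨i, by simpa using hij, rfl⟩), mul_zero]
  choose f hfB hef using hf
  have hef' : ∀ i j, polar Q (e i) (f j) = if i = j then 1 else 0 := fun i j => hef j i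
  have haux := swap_aux hQ e f hef' (fun i j => ts_polar hA (heA i) (heA j))
    (fun i j => ts_polar hB (hfB i) (hfB j)) (fun i => hA _ (heA i)) (fun i => hB _ (hfB i))
    (List.finRange _) (List.nodup_finRange _)
  obtain ⟨s, hs⟩ : ∃ s : Matrix.GeneralLinearGroup ι F,
      s = ((List.finRange (Module.finrank F A)).map (fun j => rr hQ (e j - f j))).prod :=
    ⟨_, rfl⟩
  rw [← hs] at haux
  have hse : ∀ i, (s : Matrix ι ι F) *ᵥ e i = f i := by
    intro i
    have := (haux i).1
    rwa [if_pos (List.mem_finRange i)] at this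
  have hsf : ∀ i, (s : Matrix ι ι F) *ᵥ f i = e i := by
    intro i
    have := (haux i).2
    rwa [if_pos (List.mem_finRange i)] at this
  have hsΩ : s ∈ Cfsg.Geo.omegaGL Q := by
    have h1 := (rr_list_mem_omega hQ (c := -1) (neg_ne_zero.mpr one_ne_zero)
      ((List.finRange (Module.finrank F A)).map (fun j => e j - f j)) (by
        intro v hv
        rw [List.mem_map] at hv
        obtain ⟨j, -, rfl⟩ := hv
        rw [oq_sub hQ, hA _ (heA j), hB _ (hfB j), hef', if_pos rfl]; ring)).1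
      (by rw [List.length_map, List.length_finRange]; exact hke)
    rw [List.map_map] at h1
    rw [hs]
    exact h1
  have hsi : ∀ x, Q ((s : Matrix ι ι F) *ᵥ x) = Q x := by
    obtain ⟨g, -, hg⟩ := hsΩ
    rw [← hg]
    exact (mem_isometryGroup_iff _).mp g.2
  have hkey : ∀ x ∈ A, (s : Matrix ι ι F) *ᵥ x ∈ B ∧
      (s : Matrix ι ι F) *ᵥ ((s : Matrix ι ι F) *ᵥ x) = x := by
    intro x hx
    rw [← hspan] at hx
    induction hx using Submodule.span_induction with
    | mem x hx =>
      obtain ⟨i, rfl⟩ := hx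
      rw [hse, hsf]
      exact ⟨hfB i, rfl⟩
    | zero => simp
    | add x y _ _ hx hy =>
      rw [Matrix.mulVec_add, Matrix.mulVec_add, hx.2, hy.2]
      exact ⟨B.add_mem hx.1 hy.1, rfl⟩
    | smul c x _ hx =>
      rw [Matrix.mulVec_smul, Matrix.mulVec_smul, hx.2]
      exact ⟨B.smul_mem c hx.1, rfl⟩
  have hdec' : ∀ v, ∃ b ∈ B, ∃ a ∈ A, v = b + a := by
    intro v
    obtain ⟨x, hx, y, hy, rfl⟩ := hdec v
    exact ⟨y, hy, x, hx, add_comm _ _⟩
  refine ⟨s, hsΩ, fun x hx => (hkey x hx).1, fun y hy => ?_⟩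
  apply ts_perp_mem hQ hB hA hdec'
  intro a ha
  rw [← (hkey a ha).2, oq_polar_of_isom s hsi]
  exact ts_polar hB hy (hkey a ha).1

end Cfsg.Agent.Lib.Helper6
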