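import Cfsg.Prelude
import Cfsg.Agent.Lib.Helper6.SpMax

set_option autoImplicit false
open Cfsg

namespace Cfsg.Agent.Lib.Helper6

open Matrix
open scoped Kronecker

section gram

variable {F : Type*} [Field F] {κ : Type} [Fintype κ] [DecidableEq κ]

theorem form_eq_gram (σ : F → F) (f : (κ → F) → (κ → F) → F)
    (al : ∀ x y v, f (x + y) v = f x v + f y v)
    (sl : ∀ (c : F) (x v : κ → F), f (c • x) v = c * f x v)
    (ar : ∀ v x y, f v (x + y) = f v x + f v y)
    (sr : ∀ (c : F) (v x : κ → F), f v (c • x) = σ c * f v x) (x y : κ → F) :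
    f x y = Cfsg.Geo.formOfGram σ (Cfsg.Geo.gramMatrix f) x y := by
  have zl : ∀ v, f 0 v = 0 := fun v => by
    have := sl 0 0 v
    simpa using this
  have zr : ∀ v, f v 0 = 0 := fun v => by
    have := ar v 0 0
    simpa using this
  have suml : ∀ (s : Finset κ) (c : κ → F) (v : κ → F),
      f (∑ a ∈ s, c a • Pi.single a (1 : F)) v = ∑ a ∈ s, c a * f (Pi.single a 1) v := by
    intro s c v
    induction s using Finset.induction_on with
    | empty => simp [zl]
    | insert a s ha ih => rw [Finset.sum_insert ha, Finset.sum_insert ha, al, sl, ih]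
  have sumr : ∀ (s : Finset κ) (c : κ → F) (v : κ → F),
      f v (∑ a ∈ s, c a • Pi.single a (1 : F)) = ∑ a ∈ s, σ (c a) * f v (Pi.single a 1) := by
    intro s c v
    induction s using Finset.induction_on with
    | empty => simp [zr]
    | insert a s ha ih => rw [Finset.sum_insert ha, Finset.sum_insert ha, ar, sr, ih]
  have hx : ∀ x : κ → F, x = ∑ a, x a • Pi.single a (1 : F) := by
    intro x
    ext i
    simp [Finset.sum_apply, Pi.single_apply]
  calc f x y = f (∑ a, x a • Pi.single a (1 : F)) (∑ a, y a • Pi.single a (1 : F)) := by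
        rw [← hx x, ← hx y]
    _ = _ := by
        rw [suml]
        unfold Cfsg.Geo.formOfGram Cfsg.Geo.gramMatrix
        refine Finset.sum_congr rfl (fun a _ => ?_)
        rw [sumr, Finset.mul_sum]
        refine Finset.sum_congr rfl (fun b _ => ?_)
        ring

theorem bf_eq_gram {f : (κ → F) → (κ → F) → F} (hf : Cfsg.Geo.IsBilinearForm f) (x y : κ → F) :
    f x y = Cfsg.Geo.formOfGram id (Cfsg.Geo.gramMatrix f) x y :=
  form_eq_gram id f hf.add_left hf.smul_left hf.add_right hf.smul_right x y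

end gram

section tz

variable {F : Type*} [Field F] {ι : Type} [Fintype ι] [DecidableEq ι] {n₁ n₂ : ℕ}

/-- the image of a pure tensor. -/
def tz (e : ι ≃ Fin n₁ × Fin n₂) (P : Matrix.GeneralLinearGroup ι F) (u : Fin n₁ → F)
    (w : Fin n₂ → F) : ι → F :=
  (P : Matrix ι ι F) *ᵥ ((fun a : Fin n₁ × Fin n₂ => u a.1 * w a.2) ∘ e)

variable (e : ι ≃ Fin n₁ × Fin n₂) (P : Matrix.GeneralLinearGroup ι F)

theorem tz_add_left (u u' : Fin n₁ → F) (w : Fin n₂ → F) :
    tz e P (u + u') w = tz e P u w + tz e P u' w := by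
  unfold tz
  rw [← Matrix.mulVec_add]
  congr 1
  ext i
  simp [add_mul]

theorem tz_add_right (u : Fin n₁ → F) (w w' : Fin n₂ → F) :
    tz e P u (w + w') = tz e P u w + tz e P u w' := by
  unfold tz
  rw [← Matrix.mulVec_add]
  congr 1
  ext i
  simp [mul_add]

theorem tz_smul_left (c : F) (u : Fin n₁ → F) (w : Fin n₂ → F) :
    tz e P (c • u) w = c • tz e P u w := by
  unfold tz
  rw [← Matrix.mulVec_smul]
  congr 1
  ext i
  simp [mul_assoc]

theorem tz_smul_right (c : F) (u : Fin n₁ → F) (w : Fin n₂ → F) :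
    tz e P u (c • w) = c • tz e P u w := by
  unfold tz
  rw [← Matrix.mulVec_smul]
  congr 1
  ext i
  simp [mul_left_comm]

theorem tz_zero_left (w : Fin n₂ → F) : tz e P 0 w = 0 := by
  have := tz_smul_left e P 0 0 w
  simpa using this

theorem tz_zero_right (u : Fin n₁ → F) : tz e P u 0 = 0 := by
  have := tz_smul_right e P 0 u 0
  simpa using this

theorem kron_mulVec (a : Matrix (Fin n₁) (Fin n₁) F) (b : Matrix (Fin n₂) (Fin n₂) F)
    (u : Fin n₁ → F) (w : Fin n₂ → F) :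
    (a ⊗ₖ b) *ᵥ (fun p : Fin n₁ × Fin n₂ => u p.1 * w p.2) =
      fun p : Fin n₁ × Fin n₂ => (a *ᵥ u) p.1 * (b *ᵥ w) p.2 := by
  ext ⟨i, k⟩
  simp only [Matrix.mulVec, dotProduct, Matrix.kroneckerMap_apply, Fintype.sum_prod_type]
  rw [Finset.sum_mul_sum]
  refine Finset.sum_congr rfl (fun j _ => Finset.sum_congr rfl (fun l _ => ?_))
  ring

variable {e P}

theorem tz_act {g : Matrix.GeneralLinearGroup ι F}
    (hg : g ∈ Cfsg.Geo.tensorProductSubgroup n₁ n₂ e P) :
    ∃ (a : Matrix.GeneralLinearGroup (Fin n₁) F) (b : Matrix.GeneralLinearGroup (Fin n₂) F),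
      ∀ u w, (g : Matrix ι ι F) *ᵥ tz e P u w =
        tz e P ((a : Matrix (Fin n₁) (Fin n₁) F) *ᵥ u) ((b : Matrix (Fin n₂) (Fin n₂) F) *ᵥ w) := by
  unfold Cfsg.Geo.tensorProductSubgroup at hg
  obtain ⟨g₁, ⟨k, ⟨a, b, hk⟩, rfl⟩, rfl⟩ := hg
  refine ⟨a, b, fun u w => ?_⟩
  have h1 : (((MulAut.conj P).toMonoidHom ((Cfsg.Geo.glReindex e.symm).toMonoidHom k) :
      Matrix.GeneralLinearGroup ι F) : Matrix ι ι F) =
      (P : Matrix ι ι F) * ((k : Matrix _ _ F).submatrix e e) *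
        ((P⁻¹ : Matrix.GeneralLinearGroup ι F) : Matrix ι ι F) := rfl
  unfold tz
  rw [h1, Matrix.mulVec_mulVec, Matrix.mul_assoc, Matrix.mul_assoc, ← Units.val_mul,
    inv_mul_cancel, Units.val_one, Matrix.mul_one, ← Matrix.mulVec_mulVec,
    Matrix.submatrix_mulVec_equiv, hk]
  congr 2
  have : ((fun p : Fin n₁ × Fin n₂ => u p.1 * w p.2) ∘ e) ∘ e.symm =
      fun p : Fin n₁ × Fin n₂ => u p.1 * w p.2 := by
    ext p; simp
  rw [this, kron_mulVec]

theorem tz_form {σ : F → F} (hσ : ∀ a b, σ (a * b) = σ a * σ b)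
    {f : (ι → F) → (ι → F) → F} {f₁ : (Fin n₁ → F) → (Fin n₁ → F) → F}
    {f₂ : (Fin n₂ → F) → (Fin n₂ → F) → F}
    (h₁ : ∀ x y, f₁ x y = Cfsg.Geo.formOfGram σ (Cfsg.Geo.gramMatrix f₁) x y)
    (h₂ : ∀ x y, f₂ x y = Cfsg.Geo.formOfGram σ (Cfsg.Geo.gramMatrix f₂) x y)
    (hT : Cfsg.Geo.IsTensorFormStructure σ f f₁ f₂ e P) :
    ∃ c : F, c ≠ 0 ∧ ∀ u w u' w', f (tz e P u w) (tz e P u' w') = c * (f₁ u u' * f₂ w w') := by
  obtain ⟨c, hc, h⟩ := hT
  refine ⟨c, hc, fun u w u' w' => ?_⟩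
  unfold tz
  rw [h, h₁, h₂]
  congr 1
  unfold Cfsg.Geo.formOfGram
  simp only [Fintype.sum_prod_type, Matrix.kroneckerMap_apply, hσ]
  rw [Finset.sum_mul_sum]
  refine Finset.sum_congr rfl (fun i _ => Finset.sum_congr rfl (fun k _ => ?_))
  rw [Finset.sum_mul_sum]
  refine Finset.sum_congr rfl (fun j _ => Finset.sum_congr rfl (fun l _ => ?_))
  ring

end tz

end Cfsg.Agent.Lib.Helper6
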