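import Cfsg.Agent.Lib.Helper6.OSieg
import Cfsg.Agent.Lib.Helper6.Tens
import Cfsg.Agent.Lib.Helper6.Frame3

set_option autoImplicit false
set_option linter.unusedSectionVars false
open Cfsg

namespace Cfsg.Agent.Lib.Helper6

open Matrix QuadraticMap

theorem f3_cases {F : Type*} [Field F] [Fintype F] (hq : Fintype.card F = 3) :
    ∀ a : F, a = 0 ∨ a = 1 ∨ a = -1 := by
  intro a
  have := FiniteField.pow_card a
  rw [hq] at this
  have h : a * ((a - 1) * (a + 1)) = 0 := by linear_combination this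
  rcases mul_eq_zero.mp h with h | h
  · exact Or.inl h
  · rcases mul_eq_zero.mp h with h | h
    · exact Or.inr (Or.inl (by linear_combination h))
    · exact Or.inr (Or.inr (by linear_combination h))

theorem f3_three {F : Type*} [Field F] [Fintype F] (hq : Fintype.card F = 3) : (3 : F) = 0 := by
  have := FiniteField.cast_card_eq_zero F
  rw [hq] at this
  exact_mod_cast this

theorem bf_sum_left' {F : Type*} [Field F] {ι : Type} {f : (ι → F) → (ι → F) → F}
    (hb : Cfsg.Geo.IsBilinearForm f) {κ : Type*} (s : Finset κ)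
    (x : κ → ι → F) (v : ι → F) : f (∑ j ∈ s, x j) v = ∑ j ∈ s, f (x j) v := by
  classical
  have zl : f 0 v = 0 := by
    have := hb.smul_left 0 0 v
    simpa using this
  induction s using Finset.induction_on with
  | empty => simp [zl]
  | insert a s ha ih => rw [Finset.sum_insert ha, Finset.sum_insert ha, hb.add_left, ih]

theorem otens3 {F : Type*} [Field F] [Fintype F] (hq : Fintype.card F = 3) {ι : Type} [Fintype ι]
    [DecidableEq ι] (Q : (ι → F) → F) (hQ : Cfsg.Geo.IsNondegenerateQuadraticForm Q) (n₂ : ℕ)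
    (h2 : 2 ≤ n₂) (e : ι ≃ Fin 3 × Fin n₂) (P : Matrix.GeneralLinearGroup ι F)
    (f₁ : (Fin 3 → F) → (Fin 3 → F) → F) (f₂ : (Fin n₂ → F) → (Fin n₂ → F) → F)
    (hf₁ : Cfsg.Geo.IsSymmetricForm f₁) (hf₂ : Cfsg.Geo.IsSymmetricForm f₂)
    (hT : Cfsg.Geo.IsTensorFormStructure id (QuadraticMap.polar Q) f₁ f₂ e P) :
    ∃ K : Subgroup (Matrix.GeneralLinearGroup ι F),
      Cfsg.Geo.tensorProductSubgroup 3 n₂ e P ⊓ Cfsg.Geo.omegaGL Q < K ∧
        K < Cfsg.Geo.omegaGL Q := by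
  classical
  have h3 := f3_cases hq
  have h30 := f3_three hq
  have h2ne : (2 : F) ≠ 0 := by
    intro h
    exact one_ne_zero (α := F) (by linear_combination h30 - h)
  have b₁ := hf₁.bilinear
  have b₂ := hf₂.bilinear
  have bQ := hQ.polar_bilinear
  obtain ⟨c, hc, hB⟩ := tz_form (σ := id) (fun _ _ => rfl) (bf_eq_gram b₁) (bf_eq_gram b₂) hT
  obtain ⟨κ, w, hfr⟩ := exists_frame3 b₁ hf₁.symm h3 h30 ⊤ (by simp) (by
    intro v _ hv
    obtain ⟨⟨x, hx⟩, ⟨y, hy⟩⟩ := hf₁.nondegenerate v hv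
    exact ⟨⟨x, trivial, hx⟩, ⟨y, trivial, hy⟩⟩)
  have hκ := hfr.kap_ne
  have nd₂ : ∀ v, (∀ x, f₂ v x = 0) → v = 0 := by
    intro v hv
    by_contra hne
    obtain ⟨-, x, hx⟩ := hf₂.nondegenerate v hne
    exact hx (hv x)
  obtain ⟨q, -, qorth, qne, -⟩ := orthoN b₂ hf₂.symm h2ne ⊤ (k := n₂) (by simp) (by
    intro v _ hv
    obtain ⟨⟨x, hx⟩, ⟨y, hy⟩⟩ := hf₂.nondegenerate v hv
    exact ⟨⟨x, trivial, hx⟩, ⟨y, trivial, hy⟩⟩)
  obtain ⟨p₁, hp₁⟩ : ∃ p₁, p₁ = q ⟨0, by omega⟩ := ⟨_, rfl⟩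
  obtain ⟨p₃, hp₃⟩ : ∃ p₃, p₃ = q ⟨1, by omega⟩ := ⟨_, rfl⟩
  obtain ⟨ν, hν⟩ : ∃ ν, ν = f₂ p₁ p₁ := ⟨_, rfl⟩
  obtain ⟨ν₃, hν₃⟩ : ∃ ν₃, ν₃ = f₂ p₃ p₃ := ⟨_, rfl⟩
  have hν0 : ν ≠ 0 := by rw [hν, hp₁]; exact qne _
  have hν₃0 : ν₃ ≠ 0 := by rw [hν₃, hp₃]; exact qne _
  have h13 : f₂ p₁ p₃ = 0 := by
    rw [hp₁, hp₃]
    exact qorth _ _ (by intro h; simpa using congrArg Fin.val h)
  have h31 : f₂ p₃ p₁ = 0 := by rw [hf₂.symm]; exact h13
  have hp₁0 : p₁ ≠ 0 := by
    rintro rfl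
    exact hν0 (by rw [hν, bf_zero_left b₂])
  have hQval : ∀ v, Q v = - polar Q v v := by
    intro v
    have := oq_polar_self hQ v
    linear_combination this + Q v * h30
  have comp : ∀ (p : Fin 3 → Fin n₂ → F) (r' : Fin 3 → F) (u' : Fin n₂ → F),
      ∑ i, tz e P (w i) (p i) = tz e P r' u' → ∀ j, κ • p j = f₁ r' (w j) • u' := by
    intro p r' u' h j
    have : κ • p j + (-(f₁ r' (w j))) • u' = 0 := by
      apply nd₂
      intro u''
      have h1 := congrArg (fun z => polar Q z (tz e P (w j) u'')) h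
      simp only [bf_sum_left' bQ, hB, hfr.gram, ite_mul, zero_mul, mul_ite, mul_zero,
        Finset.sum_ite_eq', Finset.mem_univ, if_true] at h1
      rw [b₂.add_left, b₂.smul_left, b₂.smul_left]
      have : c * (κ * f₂ (p j) u'' + -f₁ r' (w j) * f₂ u' u'') = 0 := by linear_combination h1
      exact (mul_eq_zero.mp this).resolve_left hc
    have h2 : κ • p j = κ • p j + (-(f₁ r' (w j))) • u' + f₁ r' (w j) • u' := by module
    rw [h2, this, zero_add]
  obtain ⟨S, hS⟩ : ∃ S : Set (ι → F),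
      S = {v | ∃ r u, f₁ r r = κ ∧ v = tz e P r u} := ⟨_, rfl⟩
  let K : Subgroup (Matrix.GeneralLinearGroup ι F) :=
    { carrier := {g | g ∈ Cfsg.Geo.omegaGL Q ∧
        ∀ v, v ∈ S ↔ (g : Matrix ι ι F) *ᵥ v ∈ S}
      mul_mem' := by
        rintro a b ⟨ha, ha'⟩ ⟨hb, hb'⟩
        refine ⟨Subgroup.mul_mem _ ha hb, fun v => ?_⟩
        rw [Units.val_mul, ← Matrix.mulVec_mulVec, ← ha', ← hb']
      one_mem' := ⟨Subgroup.one_mem _, fun v => by simp⟩
      inv_mem' := by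
        rintro a ⟨ha, ha'⟩
        refine ⟨Subgroup.inv_mem _ ha, fun v => ?_⟩
        rw [ha' (((a⁻¹ : Matrix.GeneralLinearGroup ι F) : Matrix ι ι F) *ᵥ v), gl_mulVec_inv] }
  have hKmem : ∀ g, g ∈ K ↔ (g ∈ Cfsg.Geo.omegaGL Q ∧
        ∀ v, v ∈ S ↔ (g : Matrix ι ι F) *ᵥ v ∈ S) := fun g => Iff.rfl
  have hQz : ∀ i p, Q (tz e P (w i) p) = -(c * (κ * f₂ p p)) := by
    intro i p
    rw [hQval, hB, hfr.gram, if_pos rfl]
  refine ⟨K, ?_, ?_⟩
  · refine lt_of_le_of_ne ?_ ?_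
    · have fwd : ∀ g ∈ Cfsg.Geo.tensorProductSubgroup 3 n₂ e P ⊓ Cfsg.Geo.omegaGL Q, ∀ v ∈ S,
          (g : Matrix ι ι F) *ᵥ v ∈ S := by
        intro g hg v hv
        obtain ⟨hgT, hgG⟩ := Subgroup.mem_inf.mp hg
        have hiso : ∀ x, Q ((g : Matrix ι ι F) *ᵥ x) = Q x := by
          obtain ⟨g', -, rfl⟩ := hgG
          exact (mem_isometryGroup_iff _).mp g'.2
        have hpol := oq_polar_of_isom g hiso
        obtain ⟨a, b, hab⟩ := tz_act hgT
        rw [hS] at hv ⊢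
        obtain ⟨r, u', hr, rfl⟩ := hv
        refine ⟨_, _, ?_, hab r u'⟩
        obtain ⟨μ, hμ⟩ : ∃ μ, μ = f₂ ((b : Matrix (Fin n₂) (Fin n₂) F) *ᵥ p₁)
          ((b : Matrix (Fin n₂) (Fin n₂) F) *ᵥ p₁) := ⟨_, rfl⟩
        have key : ∀ r r', f₁ ((a : Matrix (Fin 3) (Fin 3) F) *ᵥ r)
            ((a : Matrix (Fin 3) (Fin 3) F) *ᵥ r') * μ = f₁ r r' * ν := by
          intro r r'
          have h1 := hpol (tz e P r p₁) (tz e P r' p₁)
          rw [hab, hab, hB, hB, ← hμ, ← hν] at h1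
          exact mul_left_cancel₀ hc h1
        have hneg : μ = -ν → False := by
          intro h
          refine hfr.no_neg b₁ h3 h30 (fun i => (a : Matrix (Fin 3) (Fin 3) F) *ᵥ w i)
            (fun _ => trivial) (fun i j => ?_)
          have h1 := key (w i) (w j)
          rw [h, hfr.gram] at h1
          have h2 : f₁ ((a : Matrix (Fin 3) (Fin 3) F) *ᵥ w i)
              ((a : Matrix (Fin 3) (Fin 3) F) *ᵥ w j) = -(if i = j then κ else 0) := by
            apply mul_right_cancel₀ hν0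
            linear_combination -h1
          rw [h2]
          by_cases hij : i = j <;> simp [hij]
        have hpos : μ = ν → f₁ ((a : Matrix (Fin 3) (Fin 3) F) *ᵥ r)
            ((a : Matrix (Fin 3) (Fin 3) F) *ᵥ r) = κ := by
          intro h
          have h1 := key r r
          rw [h, hr] at h1
          exact mul_right_cancel₀ hν0 h1
        rcases h3 μ with h | h | h
        · exfalso
          have := key (w 0) (w 0)
          rw [h, mul_zero, hfr.gram, if_pos rfl] at this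
          exact (mul_ne_zero hκ hν0) this.symm
        · rcases (h3 ν).resolve_left hν0 with h' | h'
          · exact hpos (by rw [h, h'])
          · exact (hneg (by rw [h, h', neg_neg])).elim
        · rcases (h3 ν).resolve_left hν0 with h' | h'
          · exact (hneg (by rw [h, h'])).elim
          · exact hpos (by rw [h, h'])
      intro g hg
      refine (hKmem g).mpr ⟨(Subgroup.mem_inf.mp hg).2, fun v => ⟨fwd g hg v, fun hv => ?_⟩⟩
      have := fwd g⁻¹ (Subgroup.inv_mem _ hg) _ hv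
      rwa [gl_inv_mulVec] at this
    · intro heq
      have hfwd : ∀ (i : Fin 3) (p : Fin n₂ → F), ∀ v, v ∈ S →
          (rr hQ (tz e P (w i) p) : Matrix ι ι F) *ᵥ v ∈ S := by
        intro i p v hv
        rw [hS] at hv ⊢
        obtain ⟨r, u', hr, rfl⟩ := hv
        obtain ⟨j, ε, -, rfl⟩ := hfr.classify b₁ h3 h30 (d := r) trivial hr
        by_cases hi : j = i
        · subst hi
          rw [rr_mulVec]
          refine ⟨w j, ε • u' + (-(polar Q (tz e P (ε • w j) u') (tz e P (w j) p) /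
            Q (tz e P (w j) p))) • p, by rw [hfr.gram, if_pos rfl], ?_⟩
          rw [tz_add_right, tz_smul_right, tz_smul_right, tz_smul_left]
          module
        · refine ⟨_, u', hr, ?_⟩
          apply rr_fix
          rw [hB, b₁.smul_left, hfr.gram, if_neg hi]
          simp
      have hboth : ∀ (i : Fin 3) (p : Fin n₂ → F), ∀ v, v ∈ S ↔
          (rr hQ (tz e P (w i) p) : Matrix ι ι F) *ᵥ v ∈ S := by
        intro i p v
        refine ⟨hfwd i p v, fun hv => ?_⟩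
        have h1 := hfwd i p _ hv
        rwa [Matrix.mulVec_mulVec, ← Units.val_mul, rr_mul_self, Units.val_one,
          Matrix.one_mulVec] at h1
      have hg0 : rr hQ (tz e P (w 0) p₁) * rr hQ (tz e P (w 1) p₁) ∈ K := by
        refine (hKmem _).mpr ⟨rr_mul_rr_mem_omega' hQ _ _ (by rw [hQz, hQz]) (by
          rw [hQz, ← hν]
          exact neg_ne_zero.mpr (mul_ne_zero hc (mul_ne_zero hκ hν0))), fun v => ?_⟩
        rw [Units.val_mul, ← Matrix.mulVec_mulVec, ← hboth, ← hboth]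
      rw [← heq] at hg0
      obtain ⟨a, b, hab⟩ := tz_act (Subgroup.mem_inf.mp hg0).1
      have h1 := hab (w 0 + w 2) (p₁ + p₃)
      have e1 : (rr hQ (tz e P (w 1) p₁) : Matrix ι ι F) *ᵥ tz e P (w 0 + w 2) (p₁ + p₃) =
          tz e P (w 0 + w 2) (p₁ + p₃) := by
        apply rr_fix
        rw [hB, b₁.add_left, hfr.gram, hfr.gram, if_neg (by decide), if_neg (by decide)]
        ring
      have e2 : (rr hQ (tz e P (w 0) p₁) : Matrix ι ι F) *ᵥ tz e P (w 0 + w 2) (p₁ + p₃) =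
          tz e P (w 0 + w 2) (p₁ + p₃) + tz e P (w 0) p₁ := by
        rw [rr_mulVec, hB, hQz, b₁.add_left, hfr.gram, hfr.gram, if_pos rfl, if_neg (by decide),
          b₂.add_left, h31, ← hν]
        have : c * ((κ + 0) * (ν + 0)) / -(c * (κ * ν)) = -1 := by
          field_simp
          ring
        rw [this]
        module
      rw [Units.val_mul, ← Matrix.mulVec_mulVec, e1, e2] at h1
      have h2' : tz e P (w 0 + w 2) (p₁ + p₃) + tz e P (w 0) p₁ =
          ∑ i, tz e P (w i) ((![p₁ + p₃ + p₁, 0, p₁ + p₃] : Fin 3 → Fin n₂ → F) i) := by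
        rw [Fin.sum_univ_three]
        simp only [Matrix.cons_val_zero, Matrix.cons_val_one, Matrix.cons_val]
        rw [tz_add_left, tz_add_right (u := w 0) (w := p₁ + p₃), tz_zero_right]
        module
      rw [h2'] at h1
      have c0 := comp _ _ _ h1 0
      have c2 := comp _ _ _ h1 2
      simp only [Matrix.cons_val_zero, Matrix.cons_val_one, Matrix.cons_val] at c0 c2
      obtain ⟨u', hu'⟩ : ∃ u', u' = (b : Matrix (Fin n₂) (Fin n₂) F) *ᵥ (p₁ + p₃) := ⟨_, rfl⟩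
      obtain ⟨l₀, hl₀⟩ : ∃ l₀, l₀ = f₁ ((a : Matrix (Fin 3) (Fin 3) F) *ᵥ (w 0 + w 2)) (w 0) :=
        ⟨_, rfl⟩
      obtain ⟨l₂, hl₂⟩ : ∃ l₂, l₂ = f₁ ((a : Matrix (Fin 3) (Fin 3) F) *ᵥ (w 0 + w 2)) (w 2) :=
        ⟨_, rfl⟩
      rw [← hu', ← hl₀] at c0
      rw [← hu', ← hl₂] at c2
      have d0 : l₀ * f₂ u' p₃ = κ * ν₃ := by
        rw [← b₂.smul_left, ← c0, b₂.smul_left, b₂.add_left, b₂.add_left, h13, ← hν₃]; ring
      have d2 : l₂ * f₂ u' p₃ = κ * ν₃ := by
        rw [← b₂.smul_left, ← c2, b₂.smul_left, b₂.add_left, h13, ← hν₃]; ring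
      have hr0 : f₂ u' p₃ ≠ 0 := by
        intro h; rw [h, mul_zero] at d0; exact (mul_ne_zero hκ hν₃0) d0.symm
      have hl : l₀ = l₂ := mul_right_cancel₀ hr0 (d0.trans d2.symm)
      have h5 : κ • (p₁ + p₃ + p₁) = κ • (p₁ + p₃) := by rw [c0, hl, ← c2]
      have h6 : κ • p₁ = 0 := by
        have : κ • (p₁ + p₃ + p₁) = κ • (p₁ + p₃) + κ • p₁ := by module
        rw [this] at h5
        simpa using h5
      rcases smul_eq_zero.mp h6 with h | h
      · exact hκ h
      · exact hp₁0 h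
  · refine lt_of_le_of_ne (fun g hg => ((hKmem g).mp hg).1) ?_
    intro heq
    obtain ⟨b₁', hb₁'⟩ : ∃ b₁', b₁' = tz e P (w 0 + w 1 + w 2) p₁ + tz e P (w 0) p₃ := ⟨_, rfl⟩
    have hs0 : f₁ (w 0 + w 1 + w 2) (w 0) = κ := by
      simp only [b₁.add_left, hfr.gram]
      simp
    have h0s : f₁ (w 0) (w 0 + w 1 + w 2) = κ := by rw [hf₁.symm]; exact hs0
    have hss : f₁ (w 0 + w 1 + w 2) (w 0 + w 1 + w 2) = 0 := by
      simp only [b₁.add_left, b₁.add_right, hfr.gram]
      simp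
      linear_combination κ * h30
    have hQb : Q b₁' = -(c * (κ * ν₃)) := by
      rw [hQval, hb₁']
      simp only [bQ.add_left, bQ.add_right, hB, hss, hs0, h0s, h13, h31, hfr.gram, ← hν₃]
      simp
    have hg1 : rr hQ b₁' * rr hQ (tz e P (w 2) p₃) ∈ Cfsg.Geo.omegaGL Q :=
      rr_mul_rr_mem_omega' hQ _ _ (by rw [hQz, hQb, ← hν₃]) (by
        rw [hQb]
        exact neg_ne_zero.mpr (mul_ne_zero hc (mul_ne_zero hκ hν₃0)))
    rw [← heq] at hg1
    have h1 := (((hKmem _).mp hg1).2 (tz e P (w 0) p₃)).mp (by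
      rw [hS]; exact ⟨w 0, p₃, by rw [hfr.gram, if_pos rfl], rfl⟩)
    have e1 : (rr hQ (tz e P (w 2) p₃) : Matrix ι ι F) *ᵥ tz e P (w 0) p₃ = tz e P (w 0) p₃ := by
      apply rr_fix
      rw [hB, hfr.gram, if_neg (by decide)]
      ring
    have e2 : (rr hQ b₁' : Matrix ι ι F) *ᵥ tz e P (w 0) p₃ = tz e P (w 0) p₃ + b₁' := by
      rw [rr_mulVec, hQb]
      have : polar Q (tz e P (w 0) p₃) b₁' = c * (κ * ν₃) := by
        rw [hb₁', bQ.add_right, hB, hB, h0s, h31, hfr.gram, if_pos rfl, ← hν₃]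
        ring
      rw [this]
      have : c * (κ * ν₃) / -(c * (κ * ν₃)) = -1 := by
        field_simp
      rw [this]
      module
    rw [Units.val_mul, ← Matrix.mulVec_mulVec, e1, e2] at h1
    have h2' : tz e P (w 0) p₃ + b₁' =
        ∑ i, tz e P (w i) ((![p₃ + p₁ + p₃, p₁, p₁] : Fin 3 → Fin n₂ → F) i) := by
      rw [Fin.sum_univ_three, hb₁']
      simp only [Matrix.cons_val_zero, Matrix.cons_val_one, Matrix.cons_val]
      rw [tz_add_left, tz_add_left, tz_add_right, tz_add_right]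
      module
    rw [h2', hS] at h1
    obtain ⟨r', u', hr', h3'⟩ := h1
    have c1 := comp _ _ _ h3' 1
    have c2 := comp _ _ _ h3' 2
    simp only [Matrix.cons_val_zero, Matrix.cons_val_one, Matrix.cons_val] at c1 c2
    obtain ⟨i, ε, -, rfl⟩ := hfr.classify b₁ h3 h30 (d := r') trivial hr'
    by_cases hi : i = 1
    · subst hi
      rw [b₁.smul_left, hfr.gram, if_neg (by decide), mul_zero, zero_smul] at c2
      rcases smul_eq_zero.mp c2 with h | h
      · exact hκ h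
      · exact hp₁0 h
    · rw [b₁.smul_left, hfr.gram, if_neg hi, mul_zero, zero_smul] at c1
      rcases smul_eq_zero.mp c1 with h | h
      · exact hκ h
      · exact hp₁0 h

end Cfsg.Agent.Lib.Helper6
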