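import Mathlib
import Cfsg.Prelude.Def_ClassicalGeometry

set_option autoImplicit false

namespace Cfsg.Agent.Lib.Helper6

open Matrix Cfsg

variable {F : Type*} [Field F] {ι : Type} [Fintype ι] [DecidableEq ι]
  (Q : QuadraticForm F (ι → F))

theorem polarVec_dotProduct (v x : ι → F) :
    polarVec ⇑Q v ⬝ᵥ x = QuadraticMap.polar ⇑Q v x := by
  have h := LinearMap.pi_apply_eq_sum_univ (QuadraticMap.polarBilin Q v) x
  rw [QuadraticMap.polarBilin_apply_apply] at h
  rw [h, dotProduct]
  apply Finset.sum_congr rfl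
  intro i _
  rw [polarVec, QuadraticMap.polarBilin_apply_apply, smul_eq_mul, mul_comm]
  congr 2
  funext j
  rw [Pi.single_apply]
  simp [eq_comm]

theorem reflectionMatrix_mulVec (v x : ι → F) :
    reflectionMatrix ⇑Q v *ᵥ x = x - ((Q v)⁻¹ * QuadraticMap.polar ⇑Q v x) • v := by
  unfold reflectionMatrix
  rw [sub_mulVec, one_mulVec, smul_mulVec, vecMulVec_mulVec, polarVec_dotProduct]
  ext i
  simp only [Pi.sub_apply, Pi.smul_apply, smul_eq_mul, MulOpposite.smul_eq_mul_unop,
    MulOpposite.unop_op]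
  ring

theorem siegelMatrix_mulVec (u v : ι → F) (c : F) (x : ι → F) :
    siegelMatrix ⇑Q u v c *ᵥ x = x + (c * QuadraticMap.polar ⇑Q u x) • v
      - (c * QuadraticMap.polar ⇑Q v x) • u := by
  unfold siegelMatrix
  rw [add_mulVec, one_mulVec, smul_mulVec, sub_mulVec, vecMulVec_mulVec, vecMulVec_mulVec,
    polarVec_dotProduct, polarVec_dotProduct]
  ext i
  simp only [Pi.add_apply, Pi.sub_apply, Pi.smul_apply, smul_eq_mul, MulOpposite.smul_eq_mul_unop,
    MulOpposite.unop_op]
  ring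

theorem om_add (x y : ι → F) : Q (x + y) = Q x + Q y + QuadraticMap.polar ⇑Q x y := by
  rw [QuadraticMap.polar]; ring

theorem om_smul (c : F) (x : ι → F) : Q (c • x) = c * c * Q x := by
  rw [QuadraticMap.map_smul, smul_eq_mul]

theorem om_sub (x y : ι → F) : Q (x - y) = Q x + Q y - QuadraticMap.polar ⇑Q x y := by
  have : x - y = x + (-1 : F) • y := by simp [sub_eq_add_neg]
  rw [this, om_add, om_smul, QuadraticMap.polar_smul_right, smul_eq_mul]; ring

theorem reflectionMatrix_isom (v : ι → F) (hv : Q v ≠ 0) (x : ι → F) :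
    Q (reflectionMatrix ⇑Q v *ᵥ x) = Q x := by
  rw [reflectionMatrix_mulVec, om_sub, om_smul, QuadraticMap.polar_smul_right, smul_eq_mul,
    QuadraticMap.polar_comm ⇑Q x v]
  field_simp
  ring

theorem reflectionMatrix_det (v : ι → F) (hv : Q v ≠ 0) : (reflectionMatrix ⇑Q v).det = -1 := by
  unfold reflectionMatrix
  have h1 : (1 : Matrix ι ι F) - (Q v)⁻¹ • vecMulVec v (polarVec ⇑Q v) =
      1 + replicateCol Unit (-(Q v)⁻¹ • v) * replicateRow Unit (polarVec ⇑Q v) := by
    rw [← vecMulVec_eq, smul_vecMulVec, neg_smul, sub_eq_add_neg]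
  rw [h1, det_one_add_replicateCol_mul_replicateRow, dotProduct_smul, polarVec_dotProduct,
    QuadraticMap.polar_self]
  simp only [smul_eq_mul, nsmul_eq_mul, Nat.cast_ofNat]
  field_simp
  ring

end Cfsg.Agent.Lib.Helper6
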