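import Mathlib
import Cfsg.Prelude.Def_LieClassical
import Cfsg.Prelude.Def_LieRecognition
import Cfsg.Agent.Lib.Helper6.Herm
import Cfsg.Agent.Lib.Helper12.UnitaryIso
import Cfsg.Agent.Lib.Helper12.UnitarySU

set_option autoImplicit false
set_option linter.unusedSectionVars false

namespace Cfsg.Agent.Lib.Helper6.PSU3Syl

open Matrix Cfsg Cfsg.Agent.Lib.Helper6 Cfsg.Agent.Lib.Helper12

/-- hypotheses on the field -/
class Hyp (F : Type*) [Field F] [Fintype F] (q : ℕ) : Prop where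
  hF : Fintype.card F = q ^ 2
  h2 : (2 : F) = 0

/-- the abstract Sylow 2-subgroup of `SU₃(q)`, `q` even. -/
def P0 (F : Type*) [Field F] (q : ℕ) : Type _ := {p : F × F // p.2 + p.2 ^ q = p.1 ^ q * p.1}

variable {F : Type*} [Field F] [Fintype F] {q : ℕ} [h : Hyp F q]

omit h in
variable (F q) in
theorem q0 [h : Hyp F q] : q ≠ 0 := by
  have := herm_q_pos h.hF
  omega

theorem P0.ext' {x y : P0 F q} (h1 : x.1.1 = y.1.1) (h2 : x.1.2 = y.1.2) : x = y :=
  Subtype.ext (Prod.ext h1 h2)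

instance : Mul (P0 F q) := ⟨fun x y => ⟨(x.1.1 + y.1.1, x.1.2 + y.1.2 + x.1.1 ^ q * y.1.1), by
  have hx := x.2
  have hy := y.2
  simp only [frob_add h.hF, mul_pow, frob_frob h.hF]
  linear_combination hx + hy⟩⟩

instance : One (P0 F q) := ⟨⟨(0, 0), by simp [zero_pow (q0 F q)]⟩⟩

instance : Inv (P0 F q) := ⟨fun x => ⟨(x.1.1, x.1.2 ^ q), by
  have hx := x.2
  simp only [frob_frob h.hF]
  linear_combination hx⟩⟩

@[simp] theorem mul_fst (x y : P0 F q) : (x * y).1.1 = x.1.1 + y.1.1 := rfl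
@[simp] theorem mul_snd (x y : P0 F q) : (x * y).1.2 = x.1.2 + y.1.2 + x.1.1 ^ q * y.1.1 := rfl
@[simp] theorem one_fst : (1 : P0 F q).1.1 = 0 := rfl
@[simp] theorem one_snd : (1 : P0 F q).1.2 = 0 := rfl
@[simp] theorem inv_fst (x : P0 F q) : (x⁻¹).1.1 = x.1.1 := rfl
@[simp] theorem inv_snd (x : P0 F q) : (x⁻¹).1.2 = x.1.2 ^ q := rfl

instance : Group (P0 F q) := Group.ofLeftAxioms
  (fun x y z => P0.ext' (by simp [add_assoc]) (by simp [frob_add h.hF]; ring))
  (fun x => P0.ext' (by simp) (by simp [zero_pow (q0 F q)]))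
  (fun x => P0.ext' (by simp; linear_combination x.1.1 * h.h2) (by
    have hx := x.2
    simp
    linear_combination hx + (x.1.1 ^ q * x.1.1) * h.h2))

omit h in
theorem add_self' (q : ℕ) [h : Hyp F q] (x : F) : x + x = 0 := by linear_combination x * h.h2

/-- constructor -/
def mk (a b : F) (hab : b + b ^ q = a ^ q * a) : P0 F q := ⟨(a, b), hab⟩

@[simp] theorem mk_fst (a b : F) (hab : b + b ^ q = a ^ q * a) : (mk a b hab).1.1 = a := rfl
@[simp] theorem mk_snd (a b : F) (hab : b + b ^ q = a ^ q * a) : (mk a b hab).1.2 = b := rfl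

theorem norm_fix (a : F) : (a ^ q * a) ^ q = a ^ q * a := by
  rw [mul_pow, frob_frob h.hF, mul_comm]

theorem exists_snd (a : F) : ∃ b : F, b + b ^ q = a ^ q * a :=
  exists_trace_eq h.hF _ (norm_fix a)

/-- chosen second coordinate -/
noncomputable def sec (a : F) : F := (exists_snd (q := q) a).choose

theorem sec_spec (a : F) : sec (q := q) a + sec (q := q) a ^ q = a ^ q * a :=
  (exists_snd (q := q) a).choose_spec

/-- parametrisation -/
noncomputable def param : P0 F q ≃ F × {c : F // c ^ q = c} where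
  toFun p := (p.1.1, ⟨p.1.2 + sec (q := q) p.1.1, by
    have h1 := p.2
    have h2 := sec_spec (q := q) p.1.1
    rw [frob_add h.hF]
    linear_combination h1 - h2 - p.1.2 * h.h2 + (sec (q := q) p.1.1) ^ q * h.h2⟩)
  invFun c := ⟨(c.1, c.2.1 + sec (q := q) c.1), by
    have h1 := c.2.2
    have h2 := sec_spec (q := q) c.1
    simp only [frob_add h.hF]
    linear_combination h1 + h2 + c.2.1 * h.h2⟩
  left_inv p := P0.ext' rfl (by
    show p.1.2 + sec (q := q) p.1.1 + sec (q := q) p.1.1 = _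
    linear_combination (sec (q := q) p.1.1) * h.h2)
  right_inv c := Prod.ext rfl (Subtype.ext (by
    show c.2.1 + sec (q := q) c.1 + sec (q := q) c.1 = _
    linear_combination (sec (q := q) c.1) * h.h2))

theorem card_P0 : Nat.card (P0 F q) = q ^ 3 := by
  rw [Nat.card_congr param, Nat.card_prod, card_fixed h.hF, Nat.card_eq_fintype_card, h.hF]
  ring

instance : Finite (P0 F q) := Nat.finite_of_card_ne_zero (by
  rw [card_P0]; exact pow_ne_zero _ (q0 F q))

/-- the centre -/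
def Z0 (F : Type*) [Field F] [Fintype F] (q : ℕ) [h : Hyp F q] : Subgroup (P0 F q) where
  carrier := {x | x.1.1 = 0}
  mul_mem' {a b} ha hb := by
    show (a * b).1.1 = 0
    have ha' : a.1.1 = 0 := ha
    have hb' : b.1.1 = 0 := hb
    simp [ha', hb']
  one_mem' := rfl
  inv_mem' {a} ha := ha

theorem mem_Z0 (x : P0 F q) : x ∈ Z0 F q ↔ x.1.1 = 0 := Iff.rfl

theorem card_Z0 : Nat.card (Z0 F q) = q := by
  have e1 : ∀ z : Z0 F q, z.1.1.2 ^ q = z.1.1.2 := by
    intro z
    have h1 := z.1.2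
    have h2 : z.1.1.1 = 0 := z.2
    rw [h2] at h1
    linear_combination h1 - z.1.1.2 * h.h2
  have e2 : ∀ c : {c : F // c ^ q = c}, c.1 + c.1 ^ q = (0 : F) ^ q * 0 := by
    intro c
    have := c.2
    simp only [zero_pow (q0 F q)]
    linear_combination this + c.1 * h.h2
  refine (Nat.card_congr ⟨fun z => ⟨z.1.1.2, e1 z⟩, fun c => ⟨mk 0 c.1 (e2 c), rfl⟩, ?_, ?_⟩).trans
    (card_fixed h.hF)
  · intro z
    exact Subtype.ext (P0.ext' (z.2 : z.1.1.1 = 0).symm rfl)
  · intro c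
    rfl

theorem Z0_comm (z : P0 F q) (hz : z ∈ Z0 F q) (x : P0 F q) : z * x = x * z := by
  have hz' : z.1.1 = 0 := hz
  refine P0.ext' (by simp [add_comm]) ?_
  simp [hz', zero_pow (q0 F q)]
  ring

theorem exists_nonfix : ∃ t : F, t ^ q ≠ t := by
  obtain ⟨t, ht⟩ := exists_trace_eq h.hF 1 (one_pow q)
  refine ⟨t, fun hh => ?_⟩
  rw [hh] at ht
  exact one_ne_zero (ht.symm.trans (add_self' q t))

theorem not_Z0_comm (x : P0 F q) (hx : x ∉ Z0 F q) : ∃ y, x * y ≠ y * x := by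
  have hx' : x.1.1 ≠ 0 := hx
  obtain ⟨t, ht⟩ := exists_nonfix (F := F) (q := q)
  refine ⟨mk (x.1.1 * t) (sec (q := q) (x.1.1 * t)) (sec_spec _), fun hh => ?_⟩
  have h1 := congrArg (fun p : P0 F q => p.1.2) hh
  simp only [mul_snd, mul_pow, mk_fst, mk_snd] at h1
  apply ht
  have h3 : (x.1.1 ^ q * x.1.1) * (t ^ q - t) = 0 := by linear_combination -h1
  rcases mul_eq_zero.mp h3 with h4 | h4
  · exact absurd h4 (mul_ne_zero (pow_ne_zero _ hx') hx')
  · exact sub_eq_zero.mp h4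

theorem sq_eq (x : P0 F q) : x * x = mk 0 (x.1.1 ^ q * x.1.1) (by
    simp only [zero_pow (q0 F q), norm_fix]
    linear_combination (x.1.1 ^ q * x.1.1) * h.h2) :=
  P0.ext' (by simp [add_self' q]) (by simp [add_self' q])

theorem sq_mem (x : P0 F q) : x * x ∈ Z0 F q := by
  rw [sq_eq]; rfl

theorem sq_eq_one_iff (x : P0 F q) : x * x = 1 ↔ x ∈ Z0 F q := by
  constructor
  · intro hx
    have h1 := congrArg (fun p : P0 F q => p.1.2) hx
    simp only [mul_snd, one_snd, add_self' q, zero_add] at h1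
    rcases mul_eq_zero.mp h1 with h4 | h4
    · exact pow_eq_zero_iff (q0 F q) |>.mp h4
    · exact h4
  · intro hx
    have hx' : x.1.1 = 0 := hx
    exact P0.ext' (by simp [hx']) (by simp [hx', add_self' q])

theorem comm_mem (x y : P0 F q) : x * y * x⁻¹ * y⁻¹ ∈ Z0 F q := by
  show (x * y * x⁻¹ * y⁻¹).1.1 = 0
  simp
  linear_combination (x.1.1 + y.1.1) * h.h2

theorem exists_comm (z : P0 F q) (hz : z ∈ Z0 F q) : ∃ x y : P0 F q, z = x * y * x⁻¹ * y⁻¹ := by
  have hz' : z.1.1 = 0 := hz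
  have hz2 : z.1.2 ^ q = z.1.2 := by
    have h1 := z.2
    rw [hz'] at h1
    linear_combination h1 - z.1.2 * h.h2
  obtain ⟨t, ht⟩ := exists_trace_eq h.hF _ hz2
  refine ⟨mk 1 (sec (q := q) 1) (sec_spec _), mk t (sec (q := q) t) (sec_spec _), ?_⟩
  rw [eq_mul_inv_iff_mul_eq, eq_mul_inv_iff_mul_eq]
  refine P0.ext' (by simp [hz', add_comm]) ?_
  simp [hz', zero_pow (q0 F q)]
  linear_combination -ht + (t ^ q) * h.h2

/-- the matrix of `(a, b)` -/
def U (q : ℕ) (a b : F) : Matrix (Fin 3) (Fin 3) F :=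
  !![1 + b, b, a ^ q; b, 1 + b, a ^ q; a, a, 1]

theorem U_det (a b : F) : (U q a b).det = 1 := by
  have h2 := h.h2
  rw [Matrix.det_fin_three]
  simp [U]
  grind

theorem U_pres (a b : F) (hab : b + b ^ q = a ^ q * a) : HPres q 3 (U q a b) := by
  have h2 := h.h2
  intro u v
  simp [hermForm, Fin.sum_univ_three, Matrix.mulVec, dotProduct, U, frob_add h.hF, mul_pow,
    frob_frob h.hF]
  grind

theorem U_mul (a b a' b' : F) : U q a b * U q a' b' = U q (a + a') (b + b' + a ^ q * a') := by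
  have h2 := h.h2
  ext i j
  fin_cases i <;> fin_cases j <;>
    simp [Matrix.mul_apply, Fin.sum_univ_three, U, frob_add h.hF] <;> grind

/-- embedding into `SU₃` -/
def toSU : P0 F q →* SU 3 F q where
  toFun x := ⟨⟨U q x.1.1 x.1.2, U_det _ _⟩, U_pres _ _ x.2⟩
  map_one' := by
    apply Subtype.ext
    apply Subtype.ext
    show U q 0 0 = 1
    ext i j
    fin_cases i <;> fin_cases j <;> simp [U, zero_pow (q0 F q)]
  map_mul' x y := by
    apply Subtype.ext
    apply Subtype.ext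
    exact (U_mul _ _ _ _).symm

/-- embedding into `PSU₃` -/
def toPSU : P0 F q →* PSU 3 F q := (QuotientGroup.mk' _).comp toSU

theorem toPSU_inj : Function.Injective (toPSU : P0 F q →* PSU 3 F q) := by
  rw [injective_iff_map_eq_one]
  intro x hx
  have h1 : toSU x ∈ Subgroup.center (SU 3 F q) := by
    rw [← QuotientGroup.eq_one_iff]; exact hx
  obtain ⟨c, hc⟩ := center_SU_scalar h.hF 3 _ h1
  have hc' : U q x.1.1 x.1.2 = c • (1 : Matrix (Fin 3) (Fin 3) F) := hc
  have e1 := congrFun (congrFun hc' 2) 0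
  have e2 := congrFun (congrFun hc' 0) 1
  simp [U] at e1 e2
  exact P0.ext' e1 e2

theorem card_PSU_mul : Nat.card (PSU 3 F q) * (Nat.card (Subgroup.center (SU 3 F q)) * (q + 1))
    = q ^ 3 * ((q + 1) * (q ^ 2 - 1) * (q ^ 3 + 1)) := by
  have h1 := card_GU h.hF 3
  have h2 := card_GU_eq_mul_SU h.hF 3 (by norm_num)
  have h4 := Subgroup.card_eq_card_quotient_mul_card_subgroup (Subgroup.center (SU 3 F q))
  simp [Finset.prod_range_succ] at h1
  rw [h1, h4] at h2
  show Nat.card (SU 3 F q ⧸ Subgroup.center (SU 3 F q)) * _ = _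
  rw [← h2]
  ring

theorem exists_equiv (n : ℕ) (hq : q = 2 ^ n) (S : Sylow 2 (PSU 3 F q)) :
    Nonempty ((S : Subgroup (PSU 3 F q)) ≃* P0 F q) := by
  classical
  have hq1 : 1 ≤ q := Nat.pos_of_ne_zero (q0 F q)
  have hq2 := herm_q_pos h.hF
  have hn : n ≠ 0 := by
    rintro rfl
    simp at hq
    omega
  have hmul := card_PSU_mul (F := F) (q := q)
  have hpos : Nat.card (PSU 3 F q) ≠ 0 := by
    intro h0
    rw [h0, zero_mul] at hmul
    have : 0 < q ^ 3 * ((q + 1) * (q ^ 2 - 1) * (q ^ 3 + 1)) := by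
      have : 1 < q ^ 2 := Nat.one_lt_pow (by norm_num) (by omega)
      have : 0 < q ^ 2 - 1 := by omega
      positivity
    omega
  have : Finite (PSU 3 F q) := Nat.finite_of_card_ne_zero hpos
  let R : Subgroup (PSU 3 F q) := (toPSU : P0 F q →* PSU 3 F q).range
  let eR : P0 F q ≃* R := MonoidHom.ofInjective toPSU_inj
  have hR : Nat.card R = 2 ^ (3 * n) := by
    rw [← Nat.card_congr eR.toEquiv, card_P0, hq, ← pow_mul, mul_comm]
  have hodd : ¬ 2 ∣ ((q + 1) * (q ^ 2 - 1) * (q ^ 3 + 1)) := by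
    have he : Even q := by rw [hq]; exact (Nat.even_pow.mpr ⟨even_two, hn⟩)
    have o1 : Odd (q + 1) := he.add_one
    have o2 : Odd (q ^ 2 - 1) := Nat.Even.sub_odd (Nat.one_le_pow _ _ hq1) (Nat.even_pow.mpr ⟨he, by norm_num⟩) odd_one
    have o3 : Odd (q ^ 3 + 1) := (Nat.even_pow.mpr ⟨he, by norm_num⟩ : Even (q ^ 3)).add_one
    rw [← even_iff_two_dvd, Nat.not_even_iff_odd]
    exact (o1.mul o2).mul o3
  have hfac : (Nat.card (PSU 3 F q)).factorization 2 = 3 * n := by
    apply le_antisymm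
    · have h1 : 2 ^ ((Nat.card (PSU 3 F q)).factorization 2) ∣ 2 ^ (3 * n) * ((q + 1) * (q ^ 2 - 1) * (q ^ 3 + 1)) := by
        have : q ^ 3 = 2 ^ (3 * n) := by rw [hq, ← pow_mul, mul_comm]
        rw [← this, ← hmul]
        exact Dvd.dvd.mul_right (Nat.ordProj_dvd _ _) _
      have h2 : 2 ^ ((Nat.card (PSU 3 F q)).factorization 2) ∣ 2 ^ (3 * n) := by
        refine Nat.Coprime.dvd_of_dvd_mul_right ?_ h1
        exact Nat.Coprime.pow_left _ ((Nat.Prime.coprime_iff_not_dvd Nat.prime_two).mpr hodd)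
      exact (Nat.pow_dvd_pow_iff_le_right (by norm_num)).mp h2
    · have h1 : 2 ^ (3 * n) ∣ Nat.card (PSU 3 F q) := hR ▸ Subgroup.card_subgroup_dvd_card R
      exact (Nat.Prime.pow_dvd_iff_le_factorization Nat.prime_two hpos).mp h1
  let S' : Sylow 2 (PSU 3 F q) := Sylow.ofCard R (by rw [hR, hfac])
  exact ⟨(Sylow.equiv S S').trans eR.symm⟩

/-- the fixed units -/
def L (F : Type*) [Field F] (q : ℕ) : Subgroup Fˣ where
  carrier := {l | (l : F) ^ q = l}
  mul_mem' {a b} ha hb := by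
    show ((a * b : Fˣ) : F) ^ q = _
    have ha' : (a : F) ^ q = a := ha
    have hb' : (b : F) ^ q = b := hb
    rw [Units.val_mul, mul_pow, ha', hb']
  one_mem' := by
    show ((1 : Fˣ) : F) ^ q = _
    simp
  inv_mem' {a} ha := by
    show ((a⁻¹ : Fˣ) : F) ^ q = _
    have ha' : (a : F) ^ q = a := ha
    rw [Units.val_inv_eq_inv_val, inv_pow, ha']

/-- the map underlying the automorphism -/
def autFun (l : L F q) (x : P0 F q) : P0 F q :=
  mk ((l.1 : F) * x.1.1) ((l.1 : F) ^ 2 * x.1.2) (by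
    have hl : (l.1 : F) ^ q = l.1 := l.2
    have hx := x.2
    rw [mul_pow, mul_pow, ← pow_mul, mul_comm 2 q, pow_mul, hl]
    linear_combination (l.1 : F) ^ 2 * hx)

theorem autFun_mul (l : L F q) (x y : P0 F q) : autFun l (x * y) = autFun l x * autFun l y := by
  have hl : (l.1 : F) ^ q = l.1 := l.2
  refine P0.ext' ?_ ?_
  · simp [autFun, mul_add]
  · simp [autFun, mul_pow, hl]
    ring

theorem autFun_comp (l m : L F q) (x : P0 F q) : autFun l (autFun m x) = autFun (l * m) x := by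
  refine P0.ext' ?_ ?_
  · simp [autFun, mul_assoc]
  · simp [autFun, mul_pow, mul_assoc]

theorem autFun_one (x : P0 F q) : autFun 1 x = x := by
  refine P0.ext' ?_ ?_
  · simp [autFun]
  · simp [autFun]

/-- the automorphisms -/
def aut : L F q →* MulAut (P0 F q) where
  toFun l :=
    { toFun := autFun l
      invFun := autFun l⁻¹
      left_inv := fun x => by rw [autFun_comp, inv_mul_cancel, autFun_one]
      right_inv := fun x => by rw [autFun_comp, mul_inv_cancel, autFun_one]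
      map_mul' := autFun_mul l }
  map_one' := by
    ext x
    exact autFun_one x
  map_mul' l m := by
    ext x
    exact (autFun_comp l m x).symm

theorem aut_apply (l : L F q) (x : P0 F q) : aut l x = autFun l x := rfl

theorem suzuki_P0 (n : ℕ) (hq : q = 2 ^ n) (hn : 2 ≤ n) : IsSuzukiTwoGroup (P0 F q) := by
  classical
  have h2 := h.h2
  refine ⟨inferInstance, IsPGroup.of_card (n := 3 * n) (by rw [card_P0, hq, ← pow_mul, mul_comm]),
    ?_, ?_, (aut : L F q →* MulAut (P0 F q)).range, ?_, ?_⟩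
  · obtain ⟨y, hy⟩ := not_Z0_comm (mk (1 : F) (sec (q := q) 1) (sec_spec _)) (by
      intro hh
      exact one_ne_zero (hh : (1 : F) = 0))
    exact ⟨_, y, hy⟩
  · have hc : 2 < Nat.card (Z0 F q) := by
      rw [card_Z0, hq]
      calc 2 < 2 ^ 2 := by norm_num
        _ ≤ 2 ^ n := Nat.pow_le_pow_right (by norm_num) hn
    have : Fintype (Z0 F q) := Fintype.ofFinite _
    rw [Nat.card_eq_fintype_card, Fintype.two_lt_card_iff] at hc
    obtain ⟨a, b, c, hab, hac, hbc⟩ := hc
    have key : ∀ u v : Z0 F q, u ≠ v → u ≠ 1 → v ≠ 1 →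
        ∃ x y : P0 F q, x ≠ y ∧ x ≠ 1 ∧ x * x = 1 ∧ y ≠ 1 ∧ y * y = 1 := by
      intro u v huv hu hv
      refine ⟨u.1, v.1, fun hh => huv (Subtype.ext hh), fun hh => hu (Subtype.ext hh),
        (sq_eq_one_iff _).mpr u.2, fun hh => hv (Subtype.ext hh), (sq_eq_one_iff _).mpr v.2⟩
    by_cases ha : a = 1
    · exact key b c hbc (fun hh => hab (ha.trans hh.symm)) (fun hh => hac (ha.trans hh.symm))
    · by_cases hb : b = 1
      · exact key a c hac ha (fun hh => hbc (hb.trans hh.symm))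
      · exact key a b hab ha hb
  · exact isCyclic_of_surjective (aut : L F q →* MulAut (P0 F q)).rangeRestrict
      (MonoidHom.rangeRestrict_surjective _)
  · intro x y hx1 hx2 hy1 hy2
    have hx : x.1.1 = 0 := (sq_eq_one_iff x).mp hx2
    have hy : y.1.1 = 0 := (sq_eq_one_iff y).mp hy2
    have hxb : x.1.2 ≠ 0 := fun hh => hx1 (P0.ext' hx hh)
    have hxq : x.1.2 ^ q = x.1.2 := by
      have := x.2
      rw [hx] at this
      linear_combination this - x.1.2 * h2
    have hyb : y.1.2 ≠ 0 := fun hh => hy1 (P0.ext' hy hh)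
    have hyq : y.1.2 ^ q = y.1.2 := by
      have := y.2
      rw [hy] at this
      linear_combination this - y.1.2 * h2
    obtain ⟨μ, hμ⟩ : ∃ μ, μ = y.1.2 / x.1.2 := ⟨_, rfl⟩
    have hμ0 : μ ≠ 0 := by rw [hμ]; exact div_ne_zero hyb hxb
    have hμq : μ ^ q = μ := by rw [hμ, div_pow, hxq, hyq]
    obtain ⟨l, hl⟩ : ∃ l, l = μ ^ (2 ^ (n - 1)) := ⟨_, rfl⟩
    have hl0 : l ≠ 0 := by rw [hl]; exact pow_ne_zero _ hμ0
    have hlq : l ^ q = l := by rw [hl, ← pow_mul, mul_comm, pow_mul, hμq]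
    have hl2 : l ^ 2 = μ := by
      rw [hl, ← pow_mul, ← pow_succ, Nat.sub_add_cancel (by omega), ← hq, hμq]
    let l' : L F q := ⟨Units.mk0 l hl0, hlq⟩
    refine ⟨⟨aut l', l', rfl⟩, ?_, ?_⟩
    · show autFun l' x = y
      refine P0.ext' ?_ ?_
      · simp [autFun, hx, hy]
      · simp only [autFun, mk_snd]
        show l ^ 2 * x.1.2 = y.1.2
        rw [hl2, hμ]
        field_simp
    · rintro ⟨_, ⟨m, rfl⟩⟩ hm
      have hm' : autFun m x = y := hm
      have e1 : (m.1 : F) ^ 2 * x.1.2 = y.1.2 := by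
        rw [← hm']; rfl
      have e2 : (m.1 : F) ^ 2 = l ^ 2 := by
        rw [hl2, hμ]
        field_simp
        exact e1
      have e3 : ((m.1 : F) - l) ^ 2 = 0 := by
        linear_combination e2 + (l ^ 2 - (m.1 : F) * l) * h2
      have e4 : (m.1 : F) = l := sub_eq_zero.mp (pow_eq_zero_iff (by norm_num) |>.mp e3)
      have e5 : m = l' := Subtype.ext (Units.ext e4)
      rw [e5]

theorem suzuki_of_equiv {P P' : Type*} [Group P] [Group P'] (e : P ≃* P')
    (hP : IsSuzukiTwoGroup P') : IsSuzukiTwoGroup P := by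
  obtain ⟨h1, h2, ⟨x, y, h3⟩, ⟨u, v, huv, hu1, hu2, hv1, hv2⟩, K, hK, hreg⟩ := hP
  refine ⟨Finite.of_equiv _ e.symm.toEquiv, h2.of_equiv e.symm, ⟨e.symm x, e.symm y, ?_⟩,
    ⟨e.symm u, e.symm v, ?_, ?_, ?_, ?_, ?_⟩, K.map (MulAut.congr e.symm).toMonoidHom, ?_, ?_⟩
  · rw [← map_mul, ← map_mul]
    exact fun hh => h3 (e.symm.injective hh)
  · exact fun hh => huv (e.symm.injective hh)
  · exact fun hh => hu1 (by simpa using hh)
  · rw [← map_mul, hu2, map_one]
  · exact fun hh => hv1 (by simpa using hh)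
  · rw [← map_mul, hv2, map_one]
  · exact (Subgroup.equivMapOfInjective K _ (MulAut.congr e.symm).injective).isCyclic.mp hK
  · intro a b ha1 ha2 hb1 hb2
    obtain ⟨k, hk, hku⟩ := hreg (e a) (e b) (fun hh => ha1 (by simpa using hh))
      (by rw [← map_mul, ha2, map_one]) (fun hh => hb1 (by simpa using hh))
      (by rw [← map_mul, hb2, map_one])
    refine ⟨⟨MulAut.congr e.symm k.1, Subgroup.mem_map_of_mem _ k.2⟩, ?_, ?_⟩
    · show e.symm (k.1 (e a)) = b
      rw [hk]; simp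
    · rintro ⟨_, ⟨k2, hk2, rfl⟩⟩ hh
      have hh' : e.symm (k2 (e a)) = b := hh
      have := hku ⟨k2, hk2⟩ (by
        show k2 (e a) = e b
        rw [← hh']; simp)
      subst this
      rfl

theorem mem_center_iff_e {P : Type*} [Group P] (e : P ≃* P0 F q) (z : P) :
    z ∈ Subgroup.center P ↔ e z ∈ Z0 F q := by
  constructor
  · intro hz
    by_contra hcon
    obtain ⟨y, hy⟩ := not_Z0_comm _ hcon
    apply hy
    have := Subgroup.mem_center_iff.mp hz (e.symm y)
    have h2 := congrArg e this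
    simpa using h2.symm
  · intro hz
    rw [Subgroup.mem_center_iff]
    intro g
    apply e.injective
    rw [map_mul, map_mul]
    exact (Z0_comm _ hz _).symm

theorem facts {P : Type*} [Group P] (e : P ≃* P0 F q) :
    Nat.card P = q ^ 3 ∧ Nat.card (Subgroup.center P) = q ∧
    (∀ x : P, x * x = 1 ↔ x ∈ Subgroup.center P) ∧ (∀ x : P, x * x ∈ Subgroup.center P) ∧
    (∀ x y : P, x * y * x⁻¹ * y⁻¹ ∈ Subgroup.center P) ∧
    (∀ z ∈ Subgroup.center P, ∃ x y : P, z = x * y * x⁻¹ * y⁻¹) := by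
  refine ⟨by rw [Nat.card_congr e.toEquiv, card_P0], ?_, ?_, ?_, ?_, ?_⟩
  · rw [← card_Z0 (F := F) (q := q)]
    refine Nat.card_congr ⟨fun z => ⟨e z.1, (mem_center_iff_e e _).mp z.2⟩,
      fun z => ⟨e.symm z.1, (mem_center_iff_e e _).mpr (by simp)⟩, ?_, ?_⟩
    · intro z; simp
    · intro z; simp
  · intro x
    rw [mem_center_iff_e e, ← sq_eq_one_iff, ← map_mul]
    exact (map_eq_one_iff e e.injective).symm
  · intro x
    rw [mem_center_iff_e e, map_mul]
    exact sq_mem _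
  · intro x y
    rw [mem_center_iff_e e]
    simp only [map_mul, map_inv]
    exact comm_mem _ _
  · intro z hz
    obtain ⟨x, y, hxy⟩ := exists_comm _ ((mem_center_iff_e e _).mp hz)
    refine ⟨e.symm x, e.symm y, e.injective ?_⟩
    simp [hxy]

omit h in
theorem two_eq_zero_of_card (n : ℕ) (hn : n ≠ 0) (hF : Fintype.card F = (2 ^ n) ^ 2) :
    (2 : F) = 0 := by
  have h1 : ringChar F = 2 := by
    rw [FiniteField.even_card_iff_char_two, hF, ← pow_mul]
    obtain ⟨k, rfl⟩ : ∃ k, n = k + 1 := ⟨n - 1, by omega⟩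
    rw [show (k + 1) * 2 = (2 * k + 1) + 1 by ring, pow_succ]
    omega
  have : CharP F 2 := ringChar.of_eq h1
  exact CharTwo.two_eq_zero

end Cfsg.Agent.Lib.Helper6.PSU3Syl
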