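import Mathlib

set_option autoImplicit false

namespace Cfsg.Agent.Lib.Helper6

open MulAction

/-- The centraliser of a transitive permutation group is semiregular. -/
theorem centralizer_semiregular {α : Type*} (H : Subgroup (Equiv.Perm α)) [IsPretransitive H α]
    {c : Equiv.Perm α} (hc : c ∈ Subgroup.centralizer (H : Set (Equiv.Perm α))) {a : α}
    (ha : c a = a) : c = 1 := by
  ext b
  obtain ⟨g, rfl⟩ := exists_smul_eq H a b
  rw [Subgroup.mem_centralizer_iff] at hc
  have h := hc g g.2
  have h2 : c ((g : Equiv.Perm α) a) = (g : Equiv.Perm α) (c a) := by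
    have := congrArg (fun f : Equiv.Perm α => f a) h
    simpa using this.symm
  rw [Subgroup.smul_def, Equiv.Perm.smul_def, h2, ha]
  rfl

/-- A transitive subgroup of the centraliser of a transitive group is the whole centraliser. -/
theorem centralizer_eq_of_transitive {α : Type*} (H K : Subgroup (Equiv.Perm α))
    [IsPretransitive H α] [IsPretransitive K α]
    (hK : K ≤ Subgroup.centralizer (H : Set (Equiv.Perm α))) :
    Subgroup.centralizer (H : Set (Equiv.Perm α)) = K := by
  apply le_antisymm _ hK
  intro c hc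
  rcases isEmpty_or_nonempty α with he | ⟨⟨a⟩⟩
  · have : c = 1 := Subsingleton.elim _ _
    rw [this]; exact K.one_mem
  obtain ⟨k, hk⟩ := exists_smul_eq K a (c a)
  have h1 : (k : Equiv.Perm α)⁻¹ * c = 1 := by
    apply centralizer_semiregular H (a := a)
      ((Subgroup.centralizer _).mul_mem ((Subgroup.centralizer _).inv_mem (hK k.2)) hc)
    rw [Equiv.Perm.mul_apply, ← hk, Subgroup.smul_def, Equiv.Perm.smul_def]
    simp
  have : c = k := by
    rw [inv_mul_eq_one] at h1; exact h1.symm
  rw [this]; exact k.2

/-- Transitivity of a subgroup of a subgroup, transported to the image in the symmetric group. -/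
theorem isPretransitive_map_subtype {α : Type*} (G : Subgroup (Equiv.Perm α)) (M : Subgroup G)
    (h : IsPretransitive M α) : IsPretransitive (M.map G.subtype) α := by
  refine ⟨fun a b => ?_⟩
  obtain ⟨m, hm⟩ := h.exists_smul_eq a b
  exact ⟨⟨(m : G), ⟨m, m.2, rfl⟩⟩, hm⟩

/-- Two normal subgroups with trivial intersection commute elementwise. -/
theorem commute_of_normal_of_inf_eq_bot {G : Type*} [Group G] (M N : Subgroup G) [M.Normal]
    [N.Normal] (h : M ⊓ N = ⊥) {m n : G} (hm : m ∈ M) (hn : n ∈ N) : m * n = n * m :=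
  (Subgroup.commute_of_normal_of_disjoint M N inferInstance inferInstance
    (disjoint_iff.mpr h) m n hm hn).eq

/-- Distinct minimal normal subgroups meet trivially. -/
theorem inf_eq_bot_of_minimal {G : Type*} [Group G] (M L : Subgroup G) [M.Normal] [L.Normal]
    (hL : L ≠ ⊥)
    (hMmin : ∀ K : Subgroup G, K.Normal → K ≤ M → K = ⊥ ∨ K = M)
    (hLmin : ∀ K : Subgroup G, K.Normal → K ≤ L → K = ⊥ ∨ K = L) (hne : L ≠ M) :
    M ⊓ L = ⊥ := by
  rcases hLmin (M ⊓ L) inferInstance inf_le_right with h | h
  · exact h
  · have hle : L ≤ M := by rw [← h]; exact inf_le_left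
    rcases hMmin L inferInstance hle with h' | h'
    · exact absurd h' hL
    · exact absurd h' hne

/-- If `M ⊓ L = ⊥` for normal subgroups of a permutation group then the image of `L`
centralises the image of `M`. -/
theorem map_le_centralizer_map {α : Type*} (G : Subgroup (Equiv.Perm α)) (M L : Subgroup G)
    [M.Normal] [L.Normal] (h : M ⊓ L = ⊥) :
    L.map G.subtype ≤ Subgroup.centralizer ((M.map G.subtype : Subgroup (Equiv.Perm α)) :
      Set (Equiv.Perm α)) := by
  rintro _ ⟨l, hl, rfl⟩
  rw [Subgroup.mem_centralizer_iff]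
  rintro _ ⟨m, hm, rfl⟩
  have := commute_of_normal_of_inf_eq_bot M L h hm hl
  exact congrArg Subtype.val this

theorem stabilizer_eq_bot_of_map_le_centralizer {α : Type*} (G : Subgroup (Equiv.Perm α))
    (H : Subgroup (Equiv.Perm α)) [IsPretransitive H α] (L : Subgroup G)
    (h : L.map G.subtype ≤ Subgroup.centralizer (H : Set (Equiv.Perm α))) (a : α) :
    stabilizer L a = ⊥ := by
  refine (Subgroup.eq_bot_iff_forall _).mpr fun n hn => ?_
  have h1 : ((n : G) : Equiv.Perm α) = 1 :=
    centralizer_semiregular H (h ⟨(n : G), n.2, rfl⟩) (a := a) hn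
  ext x
  rw [h1]; rfl

end Cfsg.Agent.Lib.Helper6
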