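import Mathlib
import Cfsg.Prelude.Def_GeometricClasses
import Cfsg.Agent.Lib.Helper6.SpMax

set_option autoImplicit false

namespace Cfsg.Agent.Lib.Helper6

open Matrix Cfsg

variable {F : Type*} [Field F] {m : ℕ}

/-- a pair of complementary totally isotropic subspaces. -/
structure LagPair (A B : Submodule F (Fin m ⊕ Fin m → F)) : Prop where
  tsA : ∀ x ∈ A, ∀ y ∈ A, sympForm m F x y = 0
  tsB : ∀ x ∈ B, ∀ y ∈ B, sympForm m F x y = 0
  span : ∀ x, ∃ a ∈ A, ∃ b ∈ B, x = a + b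
  dim : Module.finrank F A = Module.finrank F B

theorem LagPair.symm {A B : Submodule F (Fin m ⊕ Fin m → F)} (h : LagPair A B) : LagPair B A where
  tsA := h.tsB
  tsB := h.tsA
  span := fun x => by
    obtain ⟨a, ha, b, hb, rfl⟩ := h.span x
    exact ⟨b, hb, a, ha, add_comm _ _⟩
  dim := h.dim.symm

theorem LagPair.disj {A B : Submodule F (Fin m ⊕ Fin m → F)} (h : LagPair A B)
    {x : Fin m ⊕ Fin m → F} (hA : x ∈ A) (hB : x ∈ B) : x = 0 := by
  apply sympForm_nondeg_left m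
  intro z
  obtain ⟨a, ha, b, hb, rfl⟩ := h.span z
  rw [sympForm_add_right, h.tsA x hA a ha, h.tsB x hB b hb, add_zero]

theorem LagPair.mem_left {A B : Submodule F (Fin m ⊕ Fin m → F)} (h : LagPair A B)
    {x : Fin m ⊕ Fin m → F} (hx : ∀ y ∈ A, sympForm m F x y = 0) : x ∈ A := by
  obtain ⟨a, ha, b, hb, rfl⟩ := h.span x
  have : b = 0 := by
    apply sympForm_nondeg_left m
    intro z
    obtain ⟨a', ha', b', hb', rfl⟩ := h.span z
    have h1 := hx a' ha'
    rw [sympForm_add_left, h.tsA a ha a' ha', zero_add] at h1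
    rw [sympForm_add_right, h1, h.tsB b hb b' hb', add_zero]
  rw [this, add_zero]
  exact ha

theorem LagPair.mem_right {A B : Submodule F (Fin m ⊕ Fin m → F)} (h : LagPair A B)
    {x : Fin m ⊕ Fin m → F} (hx : ∀ y ∈ B, sympForm m F x y = 0) : x ∈ B :=
  h.symm.mem_left hx

/-- the product of two commuting transvections. -/
def rt (m : ℕ) (u w : Fin m ⊕ Fin m → F) (c : F) : Matrix.GeneralLinearGroup (Fin m ⊕ Fin m) F :=
  tvGL m (u + w) c * tvGL m (u - w) (-c)

theorem rt_mem (u w : Fin m ⊕ Fin m → F) (c : F) : rt m u w c ∈ spGL m F :=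
  (spGL m F).mul_mem (tvGL_mem m _ _) (tvGL_mem m _ _)

theorem rt_mulVec {u w : Fin m ⊕ Fin m → F} (huw : sympForm m F u w = 0) (c : F)
    (x : Fin m ⊕ Fin m → F) :
    (rt m u w c : Matrix (Fin m ⊕ Fin m) (Fin m ⊕ Fin m) F) *ᵥ x =
      x + (2 * c * sympForm m F x w) • u + (2 * c * sympForm m F x u) • w := by
  have hwu : sympForm m F w u = 0 := by rw [sympForm_swap, huw, neg_zero]
  rw [rt, Units.val_mul, ← Matrix.mulVec_mulVec, tvGL_mulVec, tvGL_mulVec]
  simp only [sympForm_add_left, sympForm_add_right, sympForm_sub_left, sympForm_sub_right,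
    sympForm_smul_left, sympForm_self, huw, hwu]
  module

theorem rt_comm (u w : Fin m ⊕ Fin m → F) (c : F) : rt m w u c = rt m u w c := by
  have h1 : tvGL m (w - u) (-c) = tvGL m (u - w) (-c) := by
    have : w - u = (-1 : F) • (u - w) := by simp
    rw [this, tvGL_smul]
    simp
  rw [rt, rt, h1, add_comm]

theorem conj_rt {g : Matrix.GeneralLinearGroup (Fin m ⊕ Fin m) F} (hg : g ∈ spGL m F)
    (u w : Fin m ⊕ Fin m → F) (c : F) :
    g * rt m u w c * g⁻¹ = rt m ((g : Matrix (Fin m ⊕ Fin m) (Fin m ⊕ Fin m) F) *ᵥ u)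
      ((g : Matrix (Fin m ⊕ Fin m) (Fin m ⊕ Fin m) F) *ᵥ w) c := by
  rw [rt, rt, ← Matrix.mulVec_add, ← Matrix.mulVec_sub, ← conj_tvGL m hg, ← conj_tvGL m hg]
  group

/-- extraction of a transvection. -/
theorem tv_of_rt (h2 : (2 : F) ≠ 0) {M : Subgroup (Matrix.GeneralLinearGroup (Fin m ⊕ Fin m) F)}
    {u w y : Fin m ⊕ Fin m → F} (huw : sympForm m F u w = 0) (huy : sympForm m F u y = 0)
    (hw : ∀ c, rt m u w c ∈ M) (hy : ∀ c, rt m u y c ∈ M) (hne : sympForm m F y w ≠ 0) :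
    u ∈ tvSet m M := by
  have key : ∀ c d : F, rt m u w c * rt m u y d =
      rt m u y d * rt m u w c * tvGL m u (8 * c * d * sympForm m F y w) := by
    intro c d
    apply gl_ext_mulVec
    intro x
    have hwu : sympForm m F w u = 0 := by rw [sympForm_swap, huw, neg_zero]
    have hyu : sympForm m F y u = 0 := by rw [sympForm_swap, huy, neg_zero]
    have hwy : sympForm m F w y = - sympForm m F y w := sympForm_swap _ _
    simp only [Units.val_mul, ← Matrix.mulVec_mulVec, rt_mulVec huw, rt_mulVec huy, tvGL_mulVec]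
    simp only [sympForm_add_left, sympForm_smul_left, sympForm_self, huw, huy, hwu, hyu, hwy]
    module
  intro e
  have h8 : (8 : F) ≠ 0 := by
    have : (8 : F) = 2 * 2 * 2 := by norm_num
    rw [this]
    exact mul_ne_zero (mul_ne_zero h2 h2) h2
  have h1 := key (e / (8 * sympForm m F y w)) 1
  have h3 : 8 * (e / (8 * sympForm m F y w)) * 1 * sympForm m F y w = e := by
    field_simp
  rw [h3] at h1
  have h4 : tvGL m u e = (rt m u y 1 * rt m u w (e / (8 * sympForm m F y w)))⁻¹ *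
      (rt m u w (e / (8 * sympForm m F y w)) * rt m u y 1) := by
    rw [h1]; group
  rw [h4]
  exact M.mul_mem (M.inv_mem (M.mul_mem (hy _) (hw _))) (M.mul_mem (hw _) (hy _))

theorem exists_kernel_vec (A : Submodule F (Fin m ⊕ Fin m → F)) (hA : 4 ≤ Module.finrank F A)
    (z₁ z₂ z₃ : Fin m ⊕ Fin m → F) :
    ∃ u ∈ A, u ≠ 0 ∧ sympForm m F u z₁ = 0 ∧ sympForm m F u z₂ = 0 ∧ sympForm m F u z₃ = 0 := by
  let φ : A →ₗ[F] (Fin 3 → F) :=
    LinearMap.pi ![(sympB m F).flip z₁ ∘ₗ A.subtype, (sympB m F).flip z₂ ∘ₗ A.subtype,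
      (sympB m F).flip z₃ ∘ₗ A.subtype]
  have hker : LinearMap.ker φ ≠ ⊥ := by
    apply LinearMap.ker_ne_bot_of_finrank_lt
    rw [Module.finrank_fin_fun]
    omega
  obtain ⟨u, hu, hu0⟩ := (Submodule.ne_bot_iff _).mp hker
  have h := LinearMap.mem_ker.mp hu
  refine ⟨u.1, u.2, fun e => hu0 (Subtype.ext e), ?_, ?_, ?_⟩
  · exact congrFun h 0
  · exact congrFun h 1
  · exact congrFun h 2

theorem LagPair.exists_ne_right {A B : Submodule F (Fin m ⊕ Fin m → F)} (h : LagPair A B)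
    {a : Fin m ⊕ Fin m → F} (ha : a ∉ B) : ∃ p ∈ B, sympForm m F a p ≠ 0 := by
  by_contra hcon
  push Not at hcon
  exact ha (h.mem_right hcon)

theorem LagPair.success (h2 : (2 : F) ≠ 0) {A B : Submodule F (Fin m ⊕ Fin m → F)}
    (hL : LagPair A B) (hdim : 4 ≤ Module.finrank F A)
    {M : Subgroup (Matrix.GeneralLinearGroup (Fin m ⊕ Fin m) F)}
    (hΨ : ∀ u ∈ A, ∀ w ∈ B, sympForm m F u w = 0 → ∀ c, rt m u w c ∈ M)
    {a b : Fin m ⊕ Fin m → F} (hab : sympForm m F a b = 0) (hM : ∀ c, rt m a b c ∈ M)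
    (ha : a ∉ B) (hb : b ∉ B) : ∃ u ∈ A, u ≠ 0 ∧ u ∈ tvSet m M := by
  obtain ⟨p, hp, hap⟩ := hL.exists_ne_right ha
  obtain ⟨r, hr, hbr⟩ := hL.exists_ne_right hb
  have hw : ∃ w ∈ B, sympForm m F a w ≠ 0 ∧ sympForm m F b w ≠ 0 := by
    by_cases h1 : sympForm m F b p = 0
    · by_cases h3 : sympForm m F a r = 0
      · refine ⟨p + r, B.add_mem hp hr, ?_, ?_⟩
        · rw [sympForm_add_right, h3, add_zero]; exact hap
        · rw [sympForm_add_right, h1, zero_add]; exact hbr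
      · exact ⟨r, hr, h3, hbr⟩
    · exact ⟨p, hp, hap, h1⟩
  obtain ⟨w, hw, haw, hbw⟩ := hw
  obtain ⟨u, hu, hu0, hua, hub, huw⟩ := exists_kernel_vec A hdim a b w
  refine ⟨u, hu, hu0, ?_⟩
  have hgu : (rt m a b 1 : Matrix (Fin m ⊕ Fin m) (Fin m ⊕ Fin m) F) *ᵥ u = u := by
    rw [rt_mulVec hab, hua, hub]; simp
  have hy : ∀ c, rt m u ((rt m a b 1 : Matrix (Fin m ⊕ Fin m) (Fin m ⊕ Fin m) F) *ᵥ w) c ∈ M := by
    intro c
    have h1 := conj_rt (rt_mem a b (1 : F)) u w c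
    rw [hgu] at h1
    rw [← h1]
    exact M.mul_mem (M.mul_mem (hM 1) (hΨ u hu w hw huw c)) (M.inv_mem (hM 1))
  apply tv_of_rt h2 huw _ (hΨ u hu w hw huw) hy
  · rw [rt_mulVec hab]
    simp only [sympForm_add_left, sympForm_smul_left, sympForm_self]
    rw [sympForm_swap w b, sympForm_swap w a]
    have : 0 + 2 * 1 * -sympForm m F b w * sympForm m F a w +
        2 * 1 * -sympForm m F a w * sympForm m F b w =
        -(2 * 2 * (sympForm m F a w * sympForm m F b w)) := by ring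
    rw [this]
    exact neg_ne_zero.mpr (mul_ne_zero (mul_ne_zero h2 h2) (mul_ne_zero haw hbw))
  · rw [rt_mulVec hab]
    simp only [sympForm_add_right, sympForm_smul_right, huw, hua, hub]
    simp

theorem LagPair.spread (h2 : (2 : F) ≠ 0) {A B : Submodule F (Fin m ⊕ Fin m → F)}
    (hL : LagPair A B) {M : Subgroup (Matrix.GeneralLinearGroup (Fin m ⊕ Fin m) F)}
    (hΨ : ∀ u ∈ A, ∀ w ∈ B, sympForm m F u w = 0 → ∀ c, rt m u w c ∈ M)
    {u : Fin m ⊕ Fin m → F} (hu : u ∈ A) (hu0 : u ≠ 0) (huΩ : u ∈ tvSet m M) :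
    ∀ x ∈ A, x ∈ tvSet m M := by
  intro x hx
  by_cases hxu : ∃ a : F, a • u = x
  · obtain ⟨a, rfl⟩ := hxu
    exact tvSet_smul huΩ a
  push Not at hxu
  have hu' : x - u ≠ 0 := by
    intro h0
    apply hxu 1
    rw [one_smul]
    exact (sub_eq_zero.mp h0).symm
  have hind : ∀ a : F, a • (x - u) ≠ u := by
    intro a ha
    by_cases ha0 : a = 0
    · subst ha0
      rw [zero_smul] at ha
      exact hu0 ha.symm
    · apply hxu ((1 + a) / a)
      have h1 : a • x = (1 + a) • u := by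
        rw [smul_sub] at ha
        rw [add_smul, one_smul]
        rw [sub_eq_iff_eq_add] at ha
        exact ha
      rw [div_eq_inv_mul, mul_smul, ← h1, smul_smul, inv_mul_cancel₀ ha0, one_smul]
  obtain ⟨z, hz1, hz2⟩ := exists_orth_nonorth m (x - u) u hu' hind
  obtain ⟨a, ha, w, hw, rfl⟩ := hL.span z
  rw [sympForm_add_left, hL.tsA a ha _ (A.sub_mem hx hu), zero_add] at hz1
  rw [sympForm_add_left, hL.tsA a ha _ hu, zero_add] at hz2
  have h1 : sympForm m F (x - u) w = 0 := by rw [sympForm_swap, hz1, neg_zero]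
  have h3 : sympForm m F u w ≠ 0 := by rw [sympForm_swap]; exact neg_ne_zero.mpr hz2
  have h4 := tvSet_mulVec huΩ (hΨ _ (A.sub_mem hx hu) w hw h1 (1 / (2 * sympForm m F u w)))
    (rt_mem _ _ _)
  rw [rt_mulVec h1, hL.tsA u hu _ (A.sub_mem hx hu)] at h4
  have h5 : 2 * (1 / (2 * sympForm m F u w)) * sympForm m F u w = 1 := by field_simp
  rw [h5, one_smul, mul_zero, zero_smul, add_zero] at h4
  have h6 : u + (x - u) = x := by abel
  rwa [h6] at h4

theorem LagPair.all_mem {A B : Submodule F (Fin m ⊕ Fin m → F)}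
    (hL : LagPair A B) {M : Subgroup (Matrix.GeneralLinearGroup (Fin m ⊕ Fin m) F)}
    (hA : ∀ x ∈ A, x ∈ tvSet m M) (hB : ∀ x ∈ B, x ∈ tvSet m M) : ∀ x, x ∈ tvSet m M := by
  intro x
  obtain ⟨a, ha, b, hb, rfl⟩ := hL.span x
  by_cases hab : sympForm m F a b = 0
  · by_cases haB : a ∈ B
    · exact hB _ (B.add_mem haB hb)
    · obtain ⟨w, hw, haw⟩ := hL.exists_ne_right haB
      have h1 := tvSet_add_of_ne (hA a ha) (hB w hw) haw
      have h2 : sympForm m F (a + w) (b - w) ≠ 0 := by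
        rw [sympForm_add_left, sympForm_sub_right, sympForm_sub_right, hab, hL.tsB w hw b hb,
          sympForm_self]
        simpa using haw
      have h3 := tvSet_add_of_ne h1 (hB _ (B.sub_mem hb hw)) h2
      have h4 : a + w + (b - w) = a + b := by abel
      rwa [h4] at h3
  · exact tvSet_add_of_ne (hA a ha) (hB b hb) hab

theorem LagPair.isCompl {A B : Submodule F (Fin m ⊕ Fin m → F)} (hL : LagPair A B) :
    IsCompl A B := by
  constructor
  · exact Submodule.disjoint_def.mpr (fun x hA hB => hL.disj hA hB)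
  · apply codisjoint_iff.mpr
    apply eq_top_iff.mpr
    intro x _
    obtain ⟨a, ha, b, hb, rfl⟩ := hL.span x
    exact Submodule.add_mem_sup ha hb

/-- an isometry interchanging the two members of the pair. -/
theorem LagPair.exists_swap {A B : Submodule F (Fin m ⊕ Fin m → F)} (hL : LagPair A B) :
    ∃ g ∈ spGL m F,
      (∀ x ∈ A, (g : Matrix (Fin m ⊕ Fin m) (Fin m ⊕ Fin m) F) *ᵥ x ∈ B) ∧
      (∀ y ∈ B, (g : Matrix (Fin m ⊕ Fin m) (Fin m ⊕ Fin m) F) *ᵥ y ∈ A) := by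
  let Φ : B →ₗ[F] Module.Dual F A := (sympB m F).flip.domRestrict₁₂ B A
  have hΦ : ∀ (w : B) (x : A), Φ w x = sympForm m F (x : Fin m ⊕ Fin m → F) w := fun _ _ => rfl
  have hinj : Function.Injective Φ := by
    rw [injective_iff_map_eq_zero]
    intro w hw
    apply Subtype.ext
    apply hL.disj _ w.2
    apply hL.mem_left
    intro y hy
    have := congrArg (fun φ => φ ⟨y, hy⟩) hw
    simp only [hΦ] at this
    rw [sympForm_swap, this]
    simp
  have hdim : Module.finrank F B = Module.finrank F (Module.Dual F A) := by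
    rw [Subspace.dual_finrank_eq, hL.dim]
  let Φe : B ≃ₗ[F] Module.Dual F A := LinearMap.linearEquivOfInjective Φ hinj hdim
  let b := Module.finBasis F A
  let s₀ : A ≃ₗ[F] B := b.toDualEquiv.trans Φe.symm
  have hs₀ : ∀ x x' : A, sympForm m F (x : Fin m ⊕ Fin m → F) (s₀ x') = b.toDual x' x := by
    intro x x'
    rw [← hΦ]
    have : Φ (s₀ x') = b.toDual x' := by
      have h1 : Φe (s₀ x') = b.toDualEquiv x' := by simp [s₀]
      exact h1
    rw [this]
  have hsym : ∀ x x' : A, b.toDual x x' = b.toDual x' x := by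
    have : b.toDual = b.toDual.flip := by
      apply LinearMap.ext_basis b b
      intro i j
      rw [LinearMap.flip_apply, Module.Basis.toDual_apply, Module.Basis.toDual_apply]
      simp [eq_comm]
    intro x x'
    conv_lhs => rw [this]
    rfl
  let s : (Fin m ⊕ Fin m → F) →ₗ[F] (Fin m ⊕ Fin m → F) :=
    LinearMap.ofIsCompl hL.isCompl (B.subtype ∘ₗ s₀.toLinearMap) (-(A.subtype ∘ₗ s₀.symm.toLinearMap))
  have hsA : ∀ x : A, s x = s₀ x := fun x => LinearMap.ofIsCompl_apply_left _ _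
  have hsB : ∀ x : B, s x = -(s₀.symm x : Fin m ⊕ Fin m → F) :=
    fun x => LinearMap.ofIsCompl_apply_right _ _
  have hisom : ∀ u v, sympForm m F (s u) (s v) = sympForm m F u v := by
    intro u v
    obtain ⟨a, ha, b₁, hb₁, rfl⟩ := hL.span u
    obtain ⟨a', ha', b', hb', rfl⟩ := hL.span v
    rw [map_add, map_add, hsA ⟨a, ha⟩, hsA ⟨a', ha'⟩, hsB ⟨b₁, hb₁⟩, hsB ⟨b', hb'⟩]
    simp only [sympForm_add_left, sympForm_add_right, sympForm_neg_left, sympForm_neg_right]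
    rw [hL.tsB _ (s₀ ⟨a, ha⟩).2 _ (s₀ ⟨a', ha'⟩).2, hL.tsA _ (s₀.symm ⟨b₁, hb₁⟩).2 _
      (s₀.symm ⟨b', hb'⟩).2, hL.tsA a ha a' ha', hL.tsB b₁ hb₁ b' hb', hs₀,
      sympForm_swap (s₀ ⟨a, ha⟩ : Fin m ⊕ Fin m → F), hs₀, hsym ⟨a', ha'⟩, hsym ⟨a, ha⟩,
      ← hs₀, ← hs₀, LinearEquiv.apply_symm_apply, LinearEquiv.apply_symm_apply,
      sympForm_swap b₁ a']
    simp
  have hmv : ∀ z, LinearMap.toMatrix' s *ᵥ z = s z := by
    intro z
    rw [← Matrix.toLin'_apply, Matrix.toLin'_toMatrix']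
  have hA : LinearMap.toMatrix' s ∈ symplecticGroup (Fin m) F := by
    rw [mem_symplecticGroup_iff_sympForm]
    intro u v
    rw [hmv, hmv, hisom]
  refine ⟨(toSpGL m ⟨_, hA⟩ : spGL m F).1, (toSpGL m ⟨_, hA⟩ : spGL m F).2, ?_, ?_⟩
  · intro x hx
    show LinearMap.toMatrix' s *ᵥ x ∈ B
    rw [hmv, hsA ⟨x, hx⟩]
    exact (s₀ ⟨x, hx⟩).2
  · intro y hy
    show LinearMap.toMatrix' s *ᵥ y ∈ A
    rw [hmv, hsB ⟨y, hy⟩]
    exact A.neg_mem (s₀.symm ⟨y, hy⟩).2

end Cfsg.Agent.Lib.Helper6
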