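import Mathlib
import Cfsg.Prelude.Def_GeometricClasses
import Cfsg.Agent.Lib.Helper6.SubGen

set_option autoImplicit false
set_option linter.unusedSectionVars false

namespace Cfsg.Agent.Lib.Helper6

open Matrix Cfsg

variable {F : Type*} [Field F] {ι : Type} [Fintype ι] [DecidableEq ι]

/-- the stabilizer of the line spanned by `v`. -/
def lineStab (v : ι → F) : Subgroup (Matrix.GeneralLinearGroup ι F) where
  carrier := {g | ∃ c : F, c ≠ 0 ∧ (g : Matrix ι ι F) *ᵥ v = c • v}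
  mul_mem' := by
    rintro a b ⟨c, hc, e⟩ ⟨c', hc', e'⟩
    exact ⟨c' * c, mul_ne_zero hc' hc, by
      rw [Units.val_mul, ← Matrix.mulVec_mulVec, e', Matrix.mulVec_smul, e, smul_smul]⟩
  one_mem' := ⟨1, one_ne_zero, by simp⟩
  inv_mem' := by
    rintro a ⟨c, hc, e⟩
    refine ⟨c⁻¹, inv_ne_zero hc, ?_⟩
    have h1 := gl_inv_mulVec a v
    rw [e, Matrix.mulVec_smul] at h1
    conv_rhs => rw [← h1]
    rw [smul_smul, inv_mul_cancel₀ hc, one_smul]

theorem rk1_pow_mulVec (g : Matrix.GeneralLinearGroup ι F) (v α : ι → F) (hα : α ⬝ᵥ v = 0)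
    (hg : (g : Matrix ι ι F) = 1 + vecMulVec v α) (k : ℕ) (x : ι → F) :
    ((g ^ k : Matrix.GeneralLinearGroup ι F) : Matrix ι ι F) *ᵥ x = x + ((k : F) * (α ⬝ᵥ x)) • v := by
  induction k with
  | zero => simp
  | succ k ih =>
    rw [pow_succ', Units.val_mul, ← Matrix.mulVec_mulVec, ih, hg, rk1_mulVec, dotProduct_add,
      dotProduct_smul, hα]
    push_cast
    module

theorem rk1_pow_char (p : ℕ) [CharP F p] (g : Matrix.GeneralLinearGroup ι F) (v α : ι → F)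
    (hα : α ⬝ᵥ v = 0) (hg : (g : Matrix ι ι F) = 1 + vecMulVec v α) : g ^ p = 1 := by
  apply gl_ext_mulVec
  intro x
  rw [rk1_pow_mulVec g v α hα hg, CharP.cast_eq_zero F p]
  simp

theorem rk1_commute (a b : Matrix.GeneralLinearGroup ι F) (v α β : ι → F) (hα : α ⬝ᵥ v = 0)
    (hβ : β ⬝ᵥ v = 0) (ha : (a : Matrix ι ι F) = 1 + vecMulVec v α)
    (hb : (b : Matrix ι ι F) = 1 + vecMulVec v β) : a * b = b * a := by
  apply gl_ext_mulVec
  intro x
  rw [Units.val_mul, Units.val_mul, ← Matrix.mulVec_mulVec, ← Matrix.mulVec_mulVec, ha, hb,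
    rk1_mulVec, rk1_mulVec, rk1_mulVec, rk1_mulVec, dotProduct_add, dotProduct_add,
    dotProduct_smul, dotProduct_smul, hα, hβ]
  module

theorem lin_ext (F₀ : Subfield F) (P : Matrix.GeneralLinearGroup ι F) (A A' : Matrix ι ι F)
    (h : ∀ j, A *ᵥ rE F₀ P (Pi.single j 1) = A' *ᵥ rE F₀ P (Pi.single j 1)) : A = A' := by
  rw [Matrix.ext_iff_mulVec]
  intro x
  rw [vec_expand F₀ P x, Matrix.mulVec_sum, Matrix.mulVec_sum]
  apply Finset.sum_congr rfl
  intro j _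
  rw [Matrix.mulVec_smul, Matrix.mulVec_smul, h j]

section generic

variable [Fintype F] {F₀ : Subfield F} {P : Matrix.GeneralLinearGroup ι F}
  {M : Subgroup (Matrix.GeneralLinearGroup ι F)}
  (hM : Cfsg.Geo.subfieldSubgroup F₀ P ⊓ Cfsg.Geo.specialLinear ι F ≤ M)
  (hMSL : M ≤ Cfsg.Geo.specialLinear ι F)
  (hn : 6 ≤ Fintype.card ι) (NW : ∀ c, c ∈ ringSet F₀ P M → c ∈ F₀)
include hM hMSL hn NW

set_option maxHeartbeats 1000000 in
theorem generic_false {h : Matrix.GeneralLinearGroup ι F} (hh : h ∈ M)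
    (g1 : ∀ u w : ι → F₀, u ≠ 0 → w ≠ 0 →
      rC F₀ P w ⬝ᵥ ((h : Matrix ι ι F) *ᵥ rE F₀ P u) ≠ 0)
    (g2 : ∀ u w : ι → F₀, u ≠ 0 → w ≠ 0 →
      rC F₀ P w ⬝ᵥ (((h⁻¹ : Matrix.GeneralLinearGroup ι F) : Matrix ι ι F) *ᵥ rE F₀ P u) ≠ 0) :
    False := by
  classical
  obtain ⟨u₀, -, hu₀⟩ := ex_perp_ne (k := F₀) (ι := ι) (j := 0) Fin.elim0 (by omega)
  obtain ⟨v, hv⟩ : ∃ v, v = rE F₀ P u₀ := ⟨_, rfl⟩
  obtain ⟨d, hd⟩ : ∃ d, d = (h : Matrix ι ι F) *ᵥ v := ⟨_, rfl⟩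
  have hv0 : v ≠ 0 := by rw [hv]; exact rE_ne_zero F₀ P hu₀
  have hd0 : d ≠ 0 := by rw [hd]; exact gl_mulVec_ne_zero h hv0
  obtain ⟨S₁, hS₁⟩ : ∃ S₁ : Set (Matrix.GeneralLinearGroup ι F), S₁ = {g : Matrix.GeneralLinearGroup ι F | ∃ w : ι → F₀,
    w ⬝ᵥ u₀ = 0 ∧ (g : Matrix ι ι F) = 1 + vecMulVec v (rC F₀ P w)} := ⟨_, rfl⟩
  obtain ⟨S₂, hS₂⟩ : ∃ S₂ : Set (Matrix.GeneralLinearGroup ι F), S₂ = {g : Matrix.GeneralLinearGroup ι F | ∃ w : ι → F₀,
    w ⬝ᵥ u₀ = 0 ∧ (g : Matrix ι ι F) = 1 + vecMulVec d (rC F₀ P w ᵥ*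
      ((h⁻¹ : Matrix.GeneralLinearGroup ι F) : Matrix ι ι F))} := ⟨_, rfl⟩
  obtain ⟨N, hN⟩ : ∃ N, N = Subgroup.closure (S₁ ∪ S₂) := ⟨_, rfl⟩
  have hS₁N : ∀ g ∈ S₁, g ∈ N := fun g hg => by
    rw [hN]; exact Subgroup.subset_closure (Or.inl hg)
  have hS₂N : ∀ g ∈ S₂, g ∈ N := fun g hg => by
    rw [hN]; exact Subgroup.subset_closure (Or.inr hg)
  have hNM : N ≤ M := by
    rw [hN, Subgroup.closure_le]
    rintro g (hg | hg)
    · rw [hS₁] at hg
      obtain ⟨w, hw, e⟩ := hg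
      obtain ⟨g', hg', e'⟩ := THas_rat F₀ P hM u₀ w hw
      have : g = g' := Units.ext (by rw [e, e', hv])
      rw [this]; exact hg'
    · rw [hS₂] at hg
      obtain ⟨w, hw, e⟩ := hg
      obtain ⟨g', hg', e'⟩ := (THas_rat F₀ P hM u₀ w hw).conj hh
      have : g = g' := Units.ext (by rw [e, e', hd, hv])
      rw [this]; exact hg'
  have hline : ∀ g ∈ N, ∀ x, ∃ α β : F, (g : Matrix ι ι F) *ᵥ x = x + α • v + β • d := by
    intro g hg
    rw [hN] at hg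
    induction hg using Subgroup.closure_induction with
    | mem g hg =>
      intro x
      rcases hg with hg | hg
      · rw [hS₁] at hg
        obtain ⟨w, hw, e⟩ := hg
        exact ⟨rC F₀ P w ⬝ᵥ x, 0, by rw [e, rk1_mulVec]; simp⟩
      · rw [hS₂] at hg
        obtain ⟨w, hw, e⟩ := hg
        exact ⟨0, _, by rw [e, rk1_mulVec, zero_smul, add_zero]⟩
    | one => intro x; exact ⟨0, 0, by simp⟩
    | mul a b _ _ iha ihb =>
      intro x
      obtain ⟨α, β, e⟩ := ihb x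
      obtain ⟨α', β', e'⟩ := iha ((b : Matrix ι ι F) *ᵥ x)
      refine ⟨α + α', β + β', ?_⟩
      rw [Units.val_mul, ← Matrix.mulVec_mulVec, e', e]
      module
    | inv a _ iha =>
      intro x
      obtain ⟨α, β, e⟩ := iha (((a⁻¹ : Matrix.GeneralLinearGroup ι F) : Matrix ι ι F) *ᵥ x)
      rw [gl_mulVec_inv] at e
      refine ⟨-α, -β, ?_⟩
      conv_rhs => rw [e]
      module
  -- elements of `N` fixing the rational point are transvections
  have KB : ∀ g ∈ N, (∃ c : F, c ≠ 0 ∧ (g : Matrix ι ι F) *ᵥ v = c • v) →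
      ∃ α : ι → F, α ⬝ᵥ v = 0 ∧ (g : Matrix ι ι F) = 1 + vecMulVec v α := by
    rintro g hgN ⟨a, ha, hga⟩
    have hgM := hNM hgN
    have hginv : ((g⁻¹ : Matrix.GeneralLinearGroup ι F) : Matrix ι ι F) *ᵥ v = a⁻¹ • v := by
      have h1 := gl_inv_mulVec g v
      rw [hga, Matrix.mulVec_smul] at h1
      conv_rhs => rw [← h1]
      rw [smul_smul, inv_mul_cancel₀ ha, one_smul]
    have R : ∀ w : ι → F₀, w ⬝ᵥ u₀ = 0 → ∀ y : ι → F₀,
        a⁻¹ * (rC F₀ P w ⬝ᵥ ((g : Matrix ι ι F) *ᵥ rE F₀ P y)) ∈ F₀ := by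
      intro w hw y
      have t := (THas_rat F₀ P hM u₀ w hw).conj (M.inv_mem hgM)
      rw [inv_inv, ← hv, hginv, THas_smul_iff, hv] at t
      have hχ : (a⁻¹ • (rC F₀ P w ᵥ* (g : Matrix ι ι F))) ⬝ᵥ rE F₀ P u₀ = 0 := by
        rw [smul_dotProduct, ← Matrix.dotProduct_mulVec, ← hv, hga, dotProduct_smul, hv,
          rat_dot_zero' hw]
        simp
      have h1 := NW _ (ringSet_of_centre hM hn hu₀ hχ t y)
      rwa [smul_dotProduct, ← Matrix.dotProduct_mulVec, smul_eq_mul] at h1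
    have hβ : ∀ y : ι → F₀, ∃ α : F, (g : Matrix ι ι F) *ᵥ rE F₀ P y = rE F₀ P y + α • v := by
      intro y
      obtain ⟨α, β, e⟩ := hline g hgN (rE F₀ P y)
      obtain ⟨w, hw, hw0⟩ := ex_perp_ne ![u₀, y] (by omega)
      obtain ⟨w', hw', hns, -, hw'0⟩ := ex_perp_pair ![u₀, y] w w (by omega)
      have a0 : w ⬝ᵥ u₀ = 0 := by rw [dotProduct_comm]; exact hw 0
      have a1 : w ⬝ᵥ y = 0 := by rw [dotProduct_comm]; exact hw 1
      have b0 : w' ⬝ᵥ u₀ = 0 := by rw [dotProduct_comm]; exact hw' 0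
      have b1 : w' ⬝ᵥ y = 0 := by rw [dotProduct_comm]; exact hw' 1
      have r1 := R w a0 y
      have r2 := R w' b0 y
      rw [e, dotProduct_add, dotProduct_add, dotProduct_smul, dotProduct_smul, rat_dot_zero' a1,
        hv, rat_dot_zero' a0, smul_zero, zero_add, zero_add, smul_eq_mul] at r1
      rw [e, dotProduct_add, dotProduct_add, dotProduct_smul, dotProduct_smul, rat_dot_zero' b1,
        hv, rat_dot_zero' b0, smul_zero, zero_add, zero_add, smul_eq_mul] at r2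
      obtain ⟨r, hr⟩ : ∃ r : F₀, (r : F) = a⁻¹ * (β * (rC F₀ P w ⬝ᵥ d)) := ⟨⟨_, r1⟩, rfl⟩
      obtain ⟨r', hr'⟩ : ∃ r' : F₀, (r' : F) = a⁻¹ * (β * (rC F₀ P w' ⬝ᵥ d)) := ⟨⟨_, r2⟩, rfl⟩
      have key : rC F₀ P (r • w' + (-r') • w) ⬝ᵥ d = 0 := by
        rw [rC_add, rC_smul, rC_smul, add_dotProduct, smul_dotProduct, smul_dotProduct,
          Subfield.coe_neg, hr, hr', smul_eq_mul, smul_eq_mul]
        ring
      have hz : r • w' + (-r') • w = 0 := by
        by_contra hne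
        exact g1 u₀ _ hu₀ hne (by rw [← hv, ← hd]; exact key)
      have hr0 : r = 0 := by
        by_contra hr0
        apply hns
        rw [Submodule.mem_span_singleton]
        refine ⟨r' / r, ?_⟩
        have h3 : r • w' = r' • w := by
          have : r • w' = (r • w' + (-r') • w) + r' • w := by module
          rw [this, hz, zero_add]
        rw [div_eq_inv_mul, mul_smul, ← h3, smul_smul, inv_mul_cancel₀ hr0, one_smul]
      have hθ : rC F₀ P w ⬝ᵥ d ≠ 0 := by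
        rw [hd, hv]; exact g1 u₀ w hu₀ hw0
      have hβ0 : β = 0 := by
        rw [hr0] at hr
        have h4 : a⁻¹ * (β * (rC F₀ P w ⬝ᵥ d)) = 0 := by rw [← hr]; rfl
        rcases mul_eq_zero.mp h4 with h5 | h5
        · exact absurd h5 (inv_ne_zero ha)
        · exact (mul_eq_zero.mp h5).resolve_right hθ
      exact ⟨α, by rw [e, hβ0]; simp⟩
    choose αf hαf using hβ
    obtain ⟨α, hα⟩ : ∃ α : ι → F, α = ∑ j, αf (Pi.single j 1) • rC F₀ P (Pi.single j 1) :=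
      ⟨_, rfl⟩
    have hmat : (g : Matrix ι ι F) = 1 + vecMulVec v α := by
      apply lin_ext F₀ P
      intro j
      rw [hαf, rk1_mulVec]
      congr 2
      rw [hα, sum_dotProduct]
      simp only [smul_dotProduct, single_dot_single, smul_eq_mul, mul_ite, mul_one, mul_zero]
      simp
    refine ⟨α, ?_, hmat⟩
    have hdet := (mem_specialLinear_iff g).mp (hMSL hgM)
    rw [hmat, rk1_det] at hdet
    linear_combination hdet
  obtain ⟨p, hp⟩ := CharP.exists F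
  haveI := hp
  haveI : Fact p.Prime := ⟨CharP.char_is_prime F p⟩
  obtain ⟨B, hB⟩ : ∃ B : Subgroup N, B = (lineStab v).subgroupOf N := ⟨_, rfl⟩
  have hBmem : ∀ g : N, g ∈ B ↔ ∃ c : F, c ≠ 0 ∧
      ((g : Matrix.GeneralLinearGroup ι F) : Matrix ι ι F) *ᵥ v = c • v := by
    intro g; rw [hB]; exact Iff.rfl
  have hBp : IsPGroup p B := by
    intro g
    obtain ⟨α, hα, e⟩ := KB g.1.1 g.1.2 ((hBmem g.1).mp g.2)
    refine ⟨1, ?_⟩
    rw [pow_one]
    apply Subtype.ext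
    apply Subtype.ext
    simpa using rk1_pow_char p g.1.1 v α hα e
  have hBc : ∀ a ∈ B, ∀ b ∈ B, a * b = b * a := by
    intro a ha b hb
    obtain ⟨α, hα, ea⟩ := KB a.1 a.2 ((hBmem a).mp ha)
    obtain ⟨β, hβ, eb⟩ := KB b.1 b.2 ((hBmem b).mp hb)
    exact Subtype.ext (rk1_commute a.1 b.1 v α β hα hβ ea eb)
  have hBN : Subgroup.normalizer (B : Set N) ≤ B := by
    intro g hg
    rw [Subgroup.mem_normalizer_iff] at hg
    rw [hBmem]
    have hperp : ∀ w : ι → F₀, w ⬝ᵥ u₀ = 0 →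
        rC F₀ P w ⬝ᵥ (((g : Matrix.GeneralLinearGroup ι F) : Matrix ι ι F) *ᵥ v) = 0 := by
      intro w hw
      have h0 : rC F₀ P w ⬝ᵥ v = 0 := by rw [hv]; exact rat_dot_zero' hw
      obtain ⟨t, ht⟩ : ∃ t : N, (t : Matrix.GeneralLinearGroup ι F) = glT v (rC F₀ P w) h0 :=
        ⟨⟨glT v (rC F₀ P w) h0, hS₁N _ (by rw [hS₁]; exact ⟨w, hw, rfl⟩)⟩, rfl⟩
      have htB : t ∈ B := (hBmem t).mpr ⟨1, one_ne_zero, by rw [ht, glT_mulVec, h0]; simp⟩
      have h1 : g⁻¹ * t * g ∈ B := by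
        rw [hg]
        have : g * (g⁻¹ * t * g) * g⁻¹ = t := by group
        rw [this]; exact htB
      obtain ⟨α, hα, e⟩ := KB _ (g⁻¹ * t * g).2 ((hBmem _).mp h1)
      have h2 : (((g⁻¹ * t * g : N) : Matrix.GeneralLinearGroup ι F) : Matrix ι ι F) *ᵥ v = v := by
        rw [e, rk1_mulVec, hα]; simp
      rw [Subgroup.coe_mul, Subgroup.coe_mul, Subgroup.coe_inv, Units.val_mul, Units.val_mul,
        ← Matrix.mulVec_mulVec, ← Matrix.mulVec_mulVec, ht, glT_mulVec] at h2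
      have h3 := congrArg (fun z => ((g : Matrix.GeneralLinearGroup ι F) : Matrix ι ι F) *ᵥ z) h2
      simp only [gl_mulVec_inv] at h3
      have h4 : (rC F₀ P w ⬝ᵥ (((g : Matrix.GeneralLinearGroup ι F) : Matrix ι ι F) *ᵥ v)) • v =
          0 := by simpa using h3
      exact (smul_eq_zero.mp h4).resolve_right hv0
    obtain ⟨c, hc⟩ := eq_smul_of_perp F₀ P hu₀ hperp
    refine ⟨c, ?_, by rw [hc, hv]⟩
    rintro rfl
    rw [zero_smul] at hc
    exact gl_mulVec_ne_zero _ hv0 hc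
  obtain ⟨K, hKn, hKp, hKB⟩ := burnside_complement p B hBp hBc hBN
  haveI : Fintype K := Fintype.ofFinite K
  have hcK : ((Fintype.card K : ℕ) : F) ≠ 0 := by
    intro h0
    rw [CharP.cast_eq_zero_iff F p] at h0
    exact hKp (by rw [Nat.card_eq_fintype_card]; exact h0)
  obtain ⟨avg, havg⟩ : ∃ avg : (ι → F) → (ι → F), avg = fun x => ((Fintype.card K : ℕ) : F)⁻¹ •
      ∑ k : K, (((k : N) : Matrix.GeneralLinearGroup ι F) : Matrix ι ι F) *ᵥ x := ⟨_, rfl⟩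
  have A1 : ∀ x, ∀ k' : K,
      (((k' : N) : Matrix.GeneralLinearGroup ι F) : Matrix ι ι F) *ᵥ avg x = avg x := by
    intro x k'
    rw [havg]
    simp only
    rw [Matrix.mulVec_smul, Matrix.mulVec_sum]
    congr 1
    rw [← Equiv.sum_comp (Equiv.mulLeft k')
      (fun k : K => (((k : N) : Matrix.GeneralLinearGroup ι F) : Matrix ι ι F) *ᵥ x)]
    apply Finset.sum_congr rfl
    intro k _
    simp [Matrix.mulVec_mulVec]
  have A2 : ∀ x, ∃ α β : F, avg x = x + α • v + β • d := by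
    intro x
    choose αk βk e using fun k : K => hline ((k : N) : Matrix.GeneralLinearGroup ι F) (k : N).2 x
    refine ⟨((Fintype.card K : ℕ) : F)⁻¹ * ∑ k, αk k, ((Fintype.card K : ℕ) : F)⁻¹ * ∑ k, βk k, ?_⟩
    rw [havg]
    simp only [e]
    rw [Finset.sum_add_distrib, Finset.sum_add_distrib, Finset.sum_const, Finset.card_univ,
      ← Finset.sum_smul, ← Finset.sum_smul, smul_add, smul_add, ← Nat.cast_smul_eq_nsmul F,
      smul_smul, smul_smul, smul_smul, inv_mul_cancel₀ hcK, one_smul]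
  have hinv : ∀ t ∈ N, ∀ y,
      (∀ k : K, (((k : N) : Matrix.GeneralLinearGroup ι F) : Matrix ι ι F) *ᵥ y = y) →
      ∀ k : K, (((k : N) : Matrix.GeneralLinearGroup ι F) : Matrix ι ι F) *ᵥ
        ((t : Matrix ι ι F) *ᵥ y) = (t : Matrix ι ι F) *ᵥ y := by
    intro t ht y hy k
    have hk' : (⟨t, ht⟩ : N)⁻¹ * (k : N) * (⟨t, ht⟩ : N) ∈ K := by
      have := hKn.conj_mem (k : N) k.2 (⟨t, ht⟩ : N)⁻¹
      simpa using this
    have h1 := hy ⟨_, hk'⟩
    simp only [Subgroup.coe_mul, Subgroup.coe_inv, Units.val_mul, ← Matrix.mulVec_mulVec] at h1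
    have h3 := congrArg (fun z => (t : Matrix ι ι F) *ᵥ z) h1
    simpa only [gl_mulVec_inv] using h3
  have hfix_gen : ∀ (z : ι → F) (ψ : (ι → F₀) → ι → F),
      (∀ w, w ⬝ᵥ u₀ = 0 → ∃ t ∈ N, ∀ y, (t : Matrix ι ι F) *ᵥ y = y + (ψ w ⬝ᵥ y) • z) →
      (∀ y, (∀ w, w ⬝ᵥ u₀ = 0 → ψ w ⬝ᵥ y = 0) → ∃ c : F, y = c • z) →
      ∀ k : K, (((k : N) : Matrix.GeneralLinearGroup ι F) : Matrix ι ι F) *ᵥ z = z := by
    intro z ψ hT hP'
    by_contra hz
    have hall : ∀ y,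
        (∀ k : K, (((k : N) : Matrix.GeneralLinearGroup ι F) : Matrix ι ι F) *ᵥ y = y) →
        y = 0 := by
      intro y hy
      have h1 : ∀ w, w ⬝ᵥ u₀ = 0 → ψ w ⬝ᵥ y = 0 := by
        intro w hw
        by_contra hne
        obtain ⟨t, ht, et⟩ := hT w hw
        apply hz
        intro k
        have h2 := hinv t ht y hy k
        rw [et, Matrix.mulVec_add, hy k, Matrix.mulVec_smul] at h2
        exact smul_right_injective _ hne (add_left_cancel h2)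
      obtain ⟨c, hc⟩ := hP' y h1
      by_cases hc0 : c = 0
      · rw [hc, hc0, zero_smul]
      · exfalso
        apply hz
        intro k
        have h2 := hy k
        rw [hc, Matrix.mulVec_smul] at h2
        exact smul_right_injective _ hc0 h2
    obtain ⟨x, -, hx⟩ := ex_perp (k := F) (j := 0) Fin.elim0 (Submodule.span F {v, d}) (by
      have := finrank_span_pair_le v d
      omega)
    obtain ⟨α, β, e⟩ := A2 x
    have h0 := hall (avg x) (A1 x)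
    apply hx
    rw [Submodule.mem_span_pair]
    refine ⟨-α, -β, ?_⟩
    rw [h0] at e
    have : x = (x + α • v + β • d) - α • v - β • d := by module
    rw [this, ← e]
    module
  have hvfix := hfix_gen v (fun w => rC F₀ P w) (by
    intro w hw
    have h0 : rC F₀ P w ⬝ᵥ v = 0 := by rw [hv]; exact rat_dot_zero' hw
    exact ⟨glT v (rC F₀ P w) h0, hS₁N _ (by rw [hS₁]; exact ⟨w, hw, rfl⟩),
      fun y => glT_mulVec _ _ _ _⟩) (by
    intro y hy
    rw [hv]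
    exact eq_smul_of_perp F₀ P hu₀ hy)
  have hdfix := hfix_gen d (fun w => rC F₀ P w ᵥ*
      ((h⁻¹ : Matrix.GeneralLinearGroup ι F) : Matrix ι ι F)) (by
    intro w hw
    have h0 : (rC F₀ P w ᵥ* ((h⁻¹ : Matrix.GeneralLinearGroup ι F) : Matrix ι ι F)) ⬝ᵥ d = 0 := by
      rw [hd, vecMul_inv_dot, hv]; exact rat_dot_zero' hw
    exact ⟨glT d _ h0, hS₂N _ (by rw [hS₂]; exact ⟨w, hw, rfl⟩), fun y => glT_mulVec _ _ _ _⟩) (by
    intro y hy
    obtain ⟨c, hc⟩ := eq_smul_of_perp F₀ P hu₀ (x := ((h⁻¹ : Matrix.GeneralLinearGroup ι F) :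
      Matrix ι ι F) *ᵥ y) (fun w hw => by rw [← vecMul_inv_dot']; exact hy w hw)
    refine ⟨c, ?_⟩
    have h3 := congrArg (fun z => (h : Matrix ι ι F) *ᵥ z) hc
    simp only [gl_mulVec_inv, Matrix.mulVec_smul] at h3
    rw [h3, hd, hv])
  have hKtriv : ∀ k : K, ∀ x,
      (((k : N) : Matrix.GeneralLinearGroup ι F) : Matrix ι ι F) *ᵥ x = x := by
    intro k x
    obtain ⟨α, β, e⟩ := A2 x
    have hx : x = avg x - α • v - β • d := by rw [e]; module
    rw [hx, Matrix.mulVec_sub, Matrix.mulVec_sub, Matrix.mulVec_smul, Matrix.mulVec_smul, A1 x k,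
      hvfix k, hdfix k]
  obtain ⟨w, hw, hw0⟩ := ex_perp_ne ![u₀] (by omega)
  have hwu : w ⬝ᵥ u₀ = 0 := by rw [dotProduct_comm]; exact hw 0
  have hψd : (rC F₀ P w ᵥ* ((h⁻¹ : Matrix.GeneralLinearGroup ι F) : Matrix ι ι F)) ⬝ᵥ d = 0 := by
    rw [hd, vecMul_inv_dot, hv]; exact rat_dot_zero' hwu
  obtain ⟨t', ht'⟩ : ∃ t' : N, (t' : Matrix.GeneralLinearGroup ι F) = glT d _ hψd :=
    ⟨⟨glT d _ hψd, hS₂N _ (by rw [hS₂]; exact ⟨w, hwu, rfl⟩)⟩, rfl⟩
  obtain ⟨k, hk, b, hb, e⟩ := hKB t'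
  have hk1 : k = 1 := by
    apply Subtype.ext
    apply gl_ext_mulVec
    intro x
    rw [hKtriv ⟨k, hk⟩ x]
    simp
  rw [hk1, one_mul] at e
  rw [← e] at hb
  obtain ⟨α, hα, em⟩ := KB t'.1 t'.2 ((hBmem t').mp hb)
  have h1 : ((t' : Matrix.GeneralLinearGroup ι F) : Matrix ι ι F) *ᵥ v = v := by
    rw [em, rk1_mulVec, hα]; simp
  rw [ht', glT_mulVec] at h1
  have h2 : ((rC F₀ P w ᵥ* ((h⁻¹ : Matrix.GeneralLinearGroup ι F) : Matrix ι ι F)) ⬝ᵥ v) • d =
      0 := by simpa using h1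
  rcases smul_eq_zero.mp h2 with h3 | h3
  · rw [vecMul_inv_dot', hv] at h3
    exact g2 u₀ w hu₀ hw0 h3
  · exact hd0 h3

end generic

end Cfsg.Agent.Lib.Helper6
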