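import Mathlib
import Cfsg.Agent.Lib.Helper6.SylLarge
import Cfsg.Agent.Lib.Helper12.SympRep
import Cfsg.Agent.Lib.Helper12.SpCard

set_option autoImplicit false

namespace Cfsg.Agent.Lib.Helper6.SylLargeSp

open Cfsg.Agent.Lib.Helper6.SylLarge Cfsg.Agent.Lib.Helper12 Matrix

variable {q r : ℕ} [hr : Fact r.Prime]

theorem fac_Sp (hrq : ¬ r ∣ q) (hq2 : 2 ≤ q) (hr2 : r ≠ 2) (n : ℕ) (hn : n < r) :
    (q ^ (n ^ 2) * ∏ i ∈ Finset.range n, (q ^ (2 * (i + 1)) - 1)).factorization r
      = (q ^ orderOf (q : ZMod r) - 1).factorization r *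
        ((Finset.Icc 1 n).filter (fun i => orderOf (q : ZMod r) ∣ 2 * i)).card := by
  set d := orderOf (q : ZMod r) with hd
  set E := (q ^ d - 1).factorization r with hE
  have hne : ∀ i ∈ Finset.range n, q ^ (2 * (i + 1)) - 1 ≠ 0 := by
    intro i _
    have := Nat.one_lt_pow (show 2 * (i + 1) ≠ 0 by omega) (show 1 < q by omega)
    omega
  have h3 : ¬ r ∣ q ^ (n ^ 2) := fun h => hrq (hr.out.dvd_of_dvd_pow h)
  rw [Nat.factorization_mul (pow_ne_zero _ (by omega)) (Finset.prod_ne_zero_iff.mpr hne),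
    Finsupp.add_apply, Nat.factorization_eq_zero_of_not_dvd h3, zero_add,
    Nat.factorization_prod hne, Finsupp.finsetSum_apply]
  have key : ∀ i ∈ Finset.range n, (q ^ (2 * (i + 1)) - 1).factorization r
      = (fun j => if d ∣ 2 * j then E else 0) (1 + i) := by
    intro i hi
    have hi' := Finset.mem_range.mp hi
    beta_reduce
    rw [add_comm 1 i]
    split_ifs with hdj
    · obtain ⟨k, hk⟩ := hdj
      rw [hk]
      apply fac_dvd hrq
      intro hrk
      have h1 : r ∣ 2 * (i + 1) := by rw [hk]; exact Dvd.dvd.mul_left hrk d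
      have h2 : r ∣ i + 1 := by
        refine Nat.Coprime.dvd_of_dvd_mul_left ?_ h1
        exact (Nat.coprime_primes hr.out Nat.prime_two).mpr hr2
      have := Nat.le_of_dvd (by omega) h2
      omega
    · exact fac_not_dvd hrq _ hdj
  rw [Finset.sum_congr rfl key]
  have h4 := Finset.sum_Ico_eq_sum_range (fun j => if d ∣ 2 * j then E else 0) 1 (n + 1)
  rw [Nat.add_sub_cancel] at h4
  rw [← h4, ← Finset.sum_filter, Finset.sum_const, smul_eq_mul, mul_comm]
  rfl

omit hr in
/-- `GL_n → Sp_{2n}` -/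
theorem exists_GL_Sp {F : Type*} [Field F] (n : ℕ) :
    ∃ φ : GL (Fin n) F →* symplecticGroup (Fin n) F, Function.Injective φ := by
  let ρ : GL (Fin n) F →* Matrix (Fin n ⊕ Fin n) (Fin n ⊕ Fin n) F :=
    { toFun := fun g => fromBlocks (g : Matrix (Fin n) (Fin n) F) 0 0
        ((g⁻¹ : GL (Fin n) F) : Matrix (Fin n) (Fin n) F)ᵀ
      map_one' := by simp
      map_mul' := fun g h => by
        rw [fromBlocks_multiply]
        simp [Matrix.transpose_mul] }
  apply Cfsg.Agent.Lib.Helper16.exists_hom_symplectic ρ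
  · intro g h hgh
    have := congrArg Matrix.toBlocks₁₁ hgh
    simp only [ρ, MonoidHom.coe_mk, OneHom.coe_mk, toBlocks_fromBlocks₁₁] at this
    exact Units.ext this
  · intro g
    rw [SymplecticGroup.mem_iff]
    simp only [ρ, MonoidHom.coe_mk, OneHom.coe_mk, Matrix.J, fromBlocks_transpose,
      fromBlocks_multiply]
    have h1 : (g : Matrix (Fin n) (Fin n) F) * ((g⁻¹ : GL (Fin n) F) : Matrix (Fin n) (Fin n) F) = 1 :=
      Units.mul_inv g
    have h2 : ((g⁻¹ : GL (Fin n) F) : Matrix (Fin n) (Fin n) F)ᵀ * (g : Matrix (Fin n) (Fin n) F)ᵀ = 1 := by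
      rw [← Matrix.transpose_mul, h1, Matrix.transpose_one]
    simp
    simpa using h2

/-- the alternating form -/
def formB {F K : Type*} [Field F] [Field K] [Algebra F K] (a b : ℕ) (T' : K →ₗ[F] F)
    (σ : K ≃ₐ[F] K) : LinearMap.BilinForm F ((Fin a → K) × ((Fin b → F) × (Fin b → F))) :=
  LinearMap.mk₂ F
    (fun x y => ∑ i, T' (x.1 i * σ (y.1 i)) + ∑ j, (x.2.1 j * y.2.2 j - x.2.2 j * y.2.1 j))
    (by
      intro x x' y
      simp only [Prod.fst_add, Prod.snd_add, Pi.add_apply, add_mul, map_add,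
        Finset.sum_add_distrib, add_sub_add_comm]
      abel)
    (by
      intro t x y
      simp only [Prod.smul_fst, Prod.smul_snd, Pi.smul_apply, smul_mul_assoc, map_smul,
        smul_eq_mul, Finset.mul_sum, mul_add, mul_sub, mul_assoc])
    (by
      intro x y y'
      simp only [Prod.fst_add, Prod.snd_add, Pi.add_apply, mul_add, map_add,
        Finset.sum_add_distrib, add_sub_add_comm]
      abel)
    (by
      intro t x y
      simp only [Prod.smul_fst, Prod.smul_snd, Pi.smul_apply, mul_smul_comm, map_smul,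
        smul_eq_mul, Finset.mul_sum, mul_add, mul_sub, mul_left_comm])

theorem formB_apply {F K : Type*} [Field F] [Field K] [Algebra F K] (a b : ℕ) (T' : K →ₗ[F] F)
    (σ : K ≃ₐ[F] K) (x y : (Fin a → K) × ((Fin b → F) × (Fin b → F))) :
    formB a b T' σ x y
      = ∑ i, T' (x.1 i * σ (y.1 i)) + ∑ j, (x.2.1 j * y.2.2 j - x.2.2 j * y.2.1 j) := rfl

theorem rep_lemma {F K : Type*} [Field F] [Field K] [Algebra F K] [FiniteDimensional F K]
    (a b : ℕ) (T : K →ₗ[F] F) (σ : K ≃ₐ[F] K) (hσσ : ∀ x, σ (σ x) = x) (z₀ : K)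
    (hz₀ : T z₀ - T (σ z₀) ≠ 0) {C : Type*} [Group C] (γ : C →* Kˣ) (hγ : Function.Injective γ)
    (hγσ : ∀ x, (γ x : K) * σ (γ x) = 1) (k : ℕ) (hfr : a * Module.finrank F K + 2 * b = 2 * k) :
    ∃ Θ : (Fin a → C) →* symplecticGroup (Fin k) F, Function.Injective Θ := by
  classical
  let T' : K →ₗ[F] F := T - T ∘ₗ σ.toLinearMap
  have hT' : ∀ z, T' z = T z - T (σ z) := fun z => rfl
  have hA : (formB a b T' σ).IsAlt := by
    intro x
    rw [formB_apply]
    have h1 : ∀ i, T' (x.1 i * σ (x.1 i)) = 0 := by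
      intro i
      rw [hT', map_mul σ, hσσ, mul_comm, sub_self]
    simp [h1, mul_comm]
  have hL : ∀ x, (∀ y, formB a b T' σ x y = 0) → x = 0 := by
    intro x hx
    refine Prod.ext ?_ (Prod.ext ?_ ?_)
    · funext i
      by_contra hne
      have hne' : x.1 i ≠ 0 := hne
      have := hx (Pi.single i (σ ((x.1 i)⁻¹ * z₀)), 0)
      rw [formB_apply, Finset.sum_eq_single i] at this
      · simp only [Pi.single_eq_same, hσσ, Prod.snd_zero, Prod.fst_zero, Pi.zero_apply, mul_zero,
          sub_self, Finset.sum_const_zero, add_zero] at this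
        rw [mul_inv_cancel_left₀ hne', hT'] at this
        exact hz₀ this
      · intro j _ hj
        simp [Pi.single_eq_of_ne hj]
      · intro h; exact absurd (Finset.mem_univ i) h
    · funext j
      have := hx (0, (0, Pi.single j 1))
      rw [formB_apply] at this
      simpa [Pi.single_apply] using this
    · funext j
      have := hx (0, (Pi.single j 1, 0))
      rw [formB_apply] at this
      simpa [Pi.single_apply] using this
  have hN : (formB a b T' σ).Nondegenerate := by
    refine ⟨hL, fun y hy => hL y fun x => ?_⟩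
    rw [← LinearMap.IsAlt.neg hA, hy, neg_zero]
  have hd : Module.finrank F ((Fin a → K) × ((Fin b → F) × (Fin b → F))) = 2 * k := by
    rw [Module.finrank_prod, Module.finrank_prod, Module.finrank_pi_fintype, Module.finrank_fin_fun,
      ← hfr]
    simp
    ring
  let u : (Fin a → C) →* ((Fin a → K) × ((Fin b → F) × (Fin b → F))) :=
    { toFun := fun g => (fun i => (γ (g i) : K), 1)
      map_one' := by
        refine Prod.ext ?_ rfl
        funext i
        simp
      map_mul' := fun g h => by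
        refine Prod.ext ?_ (by simp)
        funext i
        simp }
  let ρ : (Fin a → C) →* Module.End F ((Fin a → K) × ((Fin b → F) × (Fin b → F))) :=
    (Algebra.lmul F ((Fin a → K) × ((Fin b → F) × (Fin b → F)))).toMonoidHom.comp u
  have hρ : ∀ g x, ρ g x = u g * x := fun g x => rfl
  refine exists_hom_symp_of_rep (formB a b T' σ) hA hN hd ρ ?_ ?_
  · intro g h hgh
    have h1 : ρ g 1 = ρ h 1 := by rw [hgh]
    rw [hρ, hρ, mul_one, mul_one] at h1
    funext i
    have h2 := congrFun (congrArg Prod.fst h1) i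
    exact hγ (Units.ext h2)
  · intro g x y
    rw [hρ, hρ, formB_apply, formB_apply]
    congr 1
    · refine Finset.sum_congr rfl fun i _ => ?_
      congr 1
      show (γ (g i) : K) * x.1 i * σ ((γ (g i) : K) * y.1 i) = _
      rw [map_mul]
      linear_combination (x.1 i * σ (y.1 i)) * hγσ (g i)
    · refine Finset.sum_congr rfl fun j _ => ?_
      show (1 : F) * x.2.1 j * ((1 : F) * y.2.2 j) - (1 : F) * x.2.2 j * ((1 : F) * y.2.1 j) = _
      ring

omit hr in
/-- non-split tori -/
theorem exists_embed_Sp_even {F : Type*} [Field F] [Fintype F] (n d' a m : ℕ) (hd' : 0 < d')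
    (had : a * d' ≤ n) (hm : m ∣ Fintype.card F ^ d' + 1) (hm3 : 3 ≤ m) :
    ∃ Θ : (Fin a → Multiplicative (ZMod m)) →* symplecticGroup (Fin n) F,
      Function.Injective Θ := by
  classical
  obtain ⟨p, hp⟩ := CharP.exists F
  obtain ⟨_, hpp, -⟩ := FiniteField.card F p
  have : Fact p.Prime := ⟨hpp⟩
  have : NeZero (2 * d') := ⟨by omega⟩
  let K := FiniteField.Extension F p (2 * d')
  have : Fintype K := Fintype.ofFinite K
  set Q := Fintype.card F ^ d' with hQ
  have hK : Fintype.card K = Q * Q := by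
    rw [← Nat.card_eq_fintype_card, FiniteField.natCard_extension, Nat.card_eq_fintype_card, hQ,
      ← pow_add, two_mul]
  have hQ1 : 1 ≤ Q := Nat.one_le_pow _ _ Fintype.card_pos
  obtain ⟨ξ, hξ⟩ := exists_unit_order' (F := K) m (by
    rw [hK]
    obtain ⟨y, hy⟩ : ∃ y, Q = y + 1 := ⟨Q - 1, by omega⟩
    have : Q * Q - 1 = (Q + 1) * y := by
      rw [hy]
      have : (y + 1) * (y + 1) = (y + 1 + 1) * y + 1 := by ring
      omega
    rw [this]
    exact Dvd.dvd.mul_right hm y)
  obtain ⟨c⟩ := cyc (G := Subgroup.zpowers ξ) m (by rw [Nat.card_zpowers, hξ])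
  let γ : Multiplicative (ZMod m) →* Kˣ := (Subgroup.zpowers ξ).subtype.comp c.toMonoidHom
  have hγ : Function.Injective γ := Subtype.val_injective.comp c.injective
  let σ : K ≃ₐ[F] K := (FiniteField.Extension.frob F p (2 * d')) ^ d'
  have hσ : ∀ x : K, σ x = x ^ Q := by
    intro x
    show ((FiniteField.Extension.frob F p (2 * d')) ^ d') x = _
    rw [FiniteField.Extension.frob_iterate_apply, Nat.card_eq_fintype_card]
  have hσσ : ∀ x : K, σ (σ x) = x := by
    intro x
    rw [hσ, hσ, ← pow_mul, ← hK, FiniteField.pow_card]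
  have hnorm : ∀ z : Kˣ, z ^ m = 1 → (z : K) * σ z = 1 := by
    intro z hz
    rw [hσ, ← pow_succ', ← Units.val_pow_eq_pow_val]
    obtain ⟨t, ht⟩ := hm
    rw [ht, pow_mul, hz, one_pow, Units.val_one]
  have hγσ : ∀ x, (γ x : K) * σ (γ x) = 1 := by
    intro x
    apply hnorm
    have : NeZero m := ⟨by omega⟩
    have h1 : Nat.card (Multiplicative (ZMod m)) = m := Nat.card_zmod _
    have h2 : x ^ m = 1 := by
      have := pow_card_eq_one' (x := x)
      rwa [h1] at this
    rw [← map_pow, h2, map_one]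
  have hξσ : (ξ : K) - σ ξ ≠ 0 := by
    intro h
    have h1 := hnorm ξ (by rw [← hξ]; exact pow_orderOf_eq_one ξ)
    rw [← sub_eq_zero.mp h, ← pow_two, ← Units.val_pow_eq_pow_val] at h1
    have h2 : ξ ^ 2 = 1 := Units.ext h1
    have h3 := Nat.le_of_dvd (by norm_num) (orderOf_dvd_of_pow_eq_one h2)
    omega
  obtain ⟨T, hT⟩ : ∃ T : Module.Dual F K, T ((ξ : K) - σ ξ) ≠ 0 := by
    by_contra hcon
    push Not at hcon
    exact hξσ ((Module.forall_dual_apply_eq_zero_iff F _).mp hcon)
  obtain ⟨b, hb⟩ : ∃ b, n = a * d' + b := ⟨n - a * d', by omega⟩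
  refine rep_lemma a b T σ hσσ ξ (by rw [← map_sub]; exact hT) γ hγ hγσ n ?_
  rw [FiniteField.finrank_extension, hb]
  ring

end Cfsg.Agent.Lib.Helper6.SylLargeSp
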